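import Cfsg.Agent.MulTw.D4W
import Cfsg.Agent.H90.StemTools
import Cfsg.Agent.Schur.Basic
import Cfsg.Agent.Mult.Univ

set_option autoImplicit false
set_option maxRecDepth 100000

/-!
The multiplier of the twisted group of type D4.
-/

namespace Cfsg.Agent.MulTw

open Cfsg.Lie Cfsg.Agent.Chev Cfsg.Agent.ChevGrp Cfsg.Agent.ChevGrp.DData Cfsg.Agent.ChevWeyl Cfsg.Agent.ChevTw
open Cfsg.Agent.Tw3 Cfsg.Agent.Mult
open scoped commutatorElement

/-- stem extensions of perfect groups are perfect -/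
theorem stem_perfect {Γ G : Type*} [Group Γ] [Group G] {σ : Γ →* G} (hσ : Cfsg.IsStemExtension σ)
    (hG : commutator G = ⊤) : commutator Γ = ⊤ := by
  have C : CE σ := ⟨hσ.1, hσ.2.1⟩
  rw [eq_top_iff]
  intro a _
  obtain ⟨b, hb, h1⟩ : ∃ b ∈ commutator Γ, σ b = σ a := by
    have : σ a ∈ (commutator Γ).map σ := by rw [map_comm C hG]; exact Subgroup.mem_top _
    exact this
  have h2 : b⁻¹ * a ∈ σ.ker := by rw [MonoidHom.mem_ker, map_mul, map_inv, h1, inv_mul_cancel]
  have h3 := hσ.2.2 h2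
  have : a = b * (b⁻¹ * a) := by group
  rw [this]
  exact mul_mem hb h3

/-- stem extensions composed with an isomorphism -/
theorem stem_comp {Γ G G' : Type*} [Group Γ] [Group G] [Group G'] {σ : Γ →* G} (hσ : Cfsg.IsStemExtension σ) (e : G ≃* G') :
    Cfsg.IsStemExtension (e.toMonoidHom.comp σ) ∧ (e.toMonoidHom.comp σ).ker = σ.ker := by
  have h1 : (e.toMonoidHom.comp σ).ker = σ.ker := by
    ext x
    simp [MonoidHom.mem_ker]
  refine ⟨⟨?_, ?_, ?_⟩, h1⟩
  · exact e.surjective.comp hσ.1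
  · rw [h1]; exact hσ.2.1
  · rw [h1]; exact hσ.2.2

universe u in
/-- reduction to kernels of prime order -/
theorem mult_one_of_prime {G : Type u} [Group G] [Finite G]
    (h : ∀ (Γ : Type u) [Group Γ] [Finite Γ] (σ : Γ →* G) (r : ℕ), r.Prime → Cfsg.IsStemExtension σ → Nat.card σ.ker = r → False) :
    Cfsg.HasCyclicSchurMultiplier G 1 := by
  apply Cfsg.Agent.Schur.hasCyclicSchurMultiplier_one_of
  intro Γ _ _ σ hσ
  by_contra hne
  have h1 : Nat.card σ.ker ≠ 1 := fun h => hne (Subgroup.card_eq_one.1 h)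
  obtain ⟨r, hr, hd⟩ := Nat.exists_prime_and_dvd h1
  have : Fact r.Prime := ⟨hr⟩
  obtain ⟨Γ', _, _, σ', hσ', hc⟩ := Cfsg.Agent.H90.Stem.exists_prime_ker hσ hd
  exact h Γ' σ' r hr hσ' hc

section gp

variable {l n : ℕ} {S : WSys l n} {G : Type*} [Group G] {R : RGrp S G}

/-- the negative unipotent group is a `p`-group -/
theorem pV_of_pU {p : ℕ} (hU : IsPGroup p R.U) : IsPGroup p R.V := by
  obtain ⟨g, hg, u, hu, hneg, hUV⟩ := RGrp.exists_n0 (R := R)
  rw [← hUV]
  exact hU.map _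

end gp

variable {K : Type*} [Field K] {φ : K ≃+* K} [Fintype K] {q : ℕ} (Q : Cub q φ)
include Q

open Classical in
/-- the part prime to the characteristic -/
theorem D4_p' {Γ : Type*} [Group Γ] [Finite Γ] {σ : Γ →* ↥(T1 φ)} (hσ : Cfsg.IsStemExtension σ) {p r : ℕ} (hpp : p.Prime)
    (k : ℕ) (hqp : q = p ^ k) (hr : r.Prime) (hrp : r ≠ p) (hcard : Nat.card σ.ker = r) : False := by
  have : Fact p.Prime := ⟨hpp⟩
  set R := (O4 φ).tw.tw with hR
  have hGrp : R.Grp = T1 φ := TwData.tw_Grp _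
  have hker : ((T1 φ).subtype.comp σ).ker = σ.ker := by
    ext x
    simp [MonoidHom.mem_ker]
  have E : PExt p ((T1 φ).subtype.comp σ) :=
    { prime := hpp
      central := by rw [hker]; exact hσ.2.1
      cop := by
        rw [hker, hcard]
        exact (Nat.coprime_primes hpp hr).2 (Ne.symm hrp) }
  have hrange : ((T1 φ).subtype.comp σ).range = R.Grp := by
    rw [hGrp, MonoidHom.range_comp, MonoidHom.range_eq_top.2 hσ.1, ← MonoidHom.range_eq_map, Subgroup.range_subtype]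
  have hgen : R.Grp ≤ gen R.X (fun _ => True) := by
    rw [hGrp]
    unfold T1
    rw [TwData.G1_eq']
    exact iSup_le fun j => sup_le (le_gen (X := R.X) (P := fun _ => True) trivial) (le_gen (X := R.X) (P := fun _ => True) trivial)
  have hcU : Nat.card R.U = q ^ 12 := by
    have h1 := card_R4_U Q
    have h2 : (R4 φ).U = R.U.subgroupOf (T1 φ) := RGrp.restr_U ..
    rw [h2] at h1
    rw [← h1]
    have hle : R.U ≤ T1 φ := by
      rw [← hGrp]
      exact (RGrp.U_le_B R).trans RGrp.B_le_Grp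
    exact (Nat.card_congr (Subgroup.subgroupOfEquivOfLe hle).toEquiv).symm
  have pU : IsPGroup p R.U := by
    apply IsPGroup.of_card (n := k * 12)
    rw [hcU, hqp, ← pow_mul]
  have hperfT : commutator ↥(T1 φ) = ⊤ := by
    have h1 : T1 φ = (twistedD4 K q).subgroupOf (chevD4.group K) := hG_D4 φ Q.hφ Q.h3
    have e : ↥(T1 φ) ≃* ↥(twistedD4 K q) := (MulEquiv.subgroupCongr h1).trans (Subgroup.subgroupOfEquivOfLe hle_D4)
    have h2 := perf_D4 Q.hq Q.hK
    have h3 : (commutator ↥(twistedD4 K q)).map e.symm.toMonoidHom = commutator ↥(T1 φ) := by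
      rw [commutator_def, commutator_def, Subgroup.map_commutator]
      rw [← MonoidHom.range_eq_map, MonoidHom.range_eq_top.2 e.symm.surjective]
    rw [← h3, h2, ← MonoidHom.range_eq_map, MonoidHom.range_eq_top.2 e.symm.surjective]
  have hperf := stem_perfect hσ hperfT
  have key := card_ker_le E pU (pV_of_pU pU) hrange hgen hperf (rkTw (bdD4 goodD4 dD4 dG2 φ) (amb_eta goodD4 dD4 K))
  have hH : Nat.card R.H = (q ^ 3 - 1) * (q - 1) := card_twH goodD4 dD4 dG2 φ Q.two_le Q.hK Q.hφ Q.h3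
  have c0 : Nat.card ↥(FxF (bdD4 goodD4 dD4 dG2 φ) j0) = q ^ 3 := by
    rw [← Q.hK, ← Nat.card_eq_fintype_card]
    exact Nat.card_congr (Equiv.subtypeUnivEquiv fun c => fx0 goodD4 dD4 dG2 φ Q.h3 c)
  have c1 : Nat.card ↥(FxF (bdD4 goodD4 dD4 dG2 φ) j1) = q := by
    have h2 : Nat.card ↥(FxF (bdD4 goodD4 dD4 dG2 φ) j1) = Nat.card {c : K // c ^ q = c} :=
      Nat.card_congr (Equiv.subtypeEquivRight fun c => by
        rw [mem_FxF, fx1, Q.hφ])
    rw [h2, card_fix Q.two_le Q.hK]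
  rw [hker, hcard, hH] at key
  have hprod : ∀ f : Fin chevG2.rank → ℕ, ∏ j, f j = f j0 * f j1 := fun f => Fin.prod_univ_two (f := fun j : Fin 2 => f j)
  rw [hprod] at key
  simp only [← Nat.card_eq_fintype_card] at key
  rw [c0, c1] at key
  have hq := Q.two_le
  have hpos : 0 < (q ^ 3 - 1) * (q - 1) := by
    have h1 : 2 ^ 3 ≤ q ^ 3 := Nat.pow_le_pow_left hq 3
    exact Nat.mul_pos (by omega) (by omega)
  have h1 : r ≤ 1 := by
    by_contra h
    have h2 : 2 * ((q ^ 3 - 1) * (q - 1)) ≤ r * ((q ^ 3 - 1) * (q - 1)) := Nat.mul_le_mul_right _ (by omega)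
    omega
  exact absurd hr.one_lt (by omega)

omit Q in
/-- the multiplier of the twisted group of type D4 -/
theorem mult_D4 (hq : IsPrimePow q) (hK : Fintype.card K = q ^ 3) :
    Cfsg.HasCyclicSchurMultiplier ↥(twistedD4 K q) 1 := by
  obtain ⟨φ, hφ, h3⟩ := frob3 hq hK
  have Q : Cub q φ := ⟨hq, hK, hφ, h3⟩
  have hfin : Finite K := inferInstance
  apply mult_one_of_prime
  intro Γ _ _ σ r hr hσ hc
  have h1 : T1 φ = (twistedD4 K q).subgroupOf (chevD4.group K) := hG_D4 φ Q.hφ Q.h3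
  have e : ↥(twistedD4 K q) ≃* ↥(T1 φ) := ((MulEquiv.subgroupCongr h1).trans (Subgroup.subgroupOfEquivOfLe hle_D4)).symm
  obtain ⟨hσ', hker⟩ := stem_comp hσ e
  obtain ⟨p, k, hp, hk, hqp⟩ := hq
  have hpp : p.Prime := hp.nat_prime
  by_cases hrp : r = p
  · subst hrp
    exact D4_p Q hσ' hpp (by rw [← hqp]; exact dvd_pow_self _ hk.ne') (by rw [hker]; exact hc)
  · exact D4_p' Q hσ' hpp k hqp.symm hr hrp (by rw [hker]; exact hc)

end Cfsg.Agent.MulTw
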