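import Cfsg.Agent.MulTw.T4
import Cfsg.Agent.Tw3.SimpD4

set_option autoImplicit false
set_option maxRecDepth 100000

/-!
Relations in the twisted group of type D4.
-/

namespace Cfsg.Agent.MulTw

open Cfsg.Lie Cfsg.Agent.Chev Cfsg.Agent.ChevGrp Cfsg.Agent.ChevGrp.DData Cfsg.Agent.ChevWeyl Cfsg.Agent.ChevTw
open Cfsg.Agent.Tw3
open scoped commutatorElement

/-- the roots of the short classes -/
def sr4 : List ℕ := [18, 13, 12, 19, 16, 15, 17, 20, 21]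

theorem tabM : ∀ r ∈ sr4 ++ [22, 23], ∀ s ∈ [22, 23], r ≠ s → r < 24 ∧ s < 24 ∧ s ≠ r ∧ s ≠ chevD4.neg r ∧
    chevD4.commTerms r s = [] := by decide +kernel

/-- pairs commuting modulo the highest roots -/
def qc (r s : ℕ) : Bool := match chevD4.commTerms r s with
  | [] => true
  | [(a, _, i, j)] => (a == 22 || a == 23) && i == 1 && j == 1
  | _ => false

theorem tabQ : ∀ p ∈ [(18, 13), (18, 12), (13, 12), (18, 19), (13, 16), (12, 15), (19, 16), (19, 15), (16, 15),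
    (18, 17), (18, 20), (18, 21), (13, 17), (13, 20), (13, 21), (12, 17), (12, 20), (12, 21),
    (19, 17), (19, 20), (19, 21), (16, 17), (16, 20), (16, 21), (15, 17), (15, 20), (15, 21),
    (17, 20), (17, 21), (20, 21)],
    p.1 < 24 ∧ p.2 < 24 ∧ p.2 ≠ p.1 ∧ p.2 ≠ chevD4.neg p.1 ∧ qc p.1 p.2 = true ∧ p.1 ∈ sr4 ∧ p.2 ∈ sr4 := by decide +kernel

theorem tabC : chevD4.commTerms 15 13 = [(17, -1, 1, 1)] ∧ chevD4.commTerms 16 12 = [(17, -1, 1, 1)] ∧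
    chevD4.commTerms 15 18 = [(20, 1, 1, 1)] ∧ chevD4.commTerms 19 12 = [(20, -1, 1, 1)] ∧
    chevD4.commTerms 16 18 = [(21, 1, 1, 1)] ∧ chevD4.commTerms 19 13 = [(21, -1, 1, 1)] ∧
    chevD4.commTerms 17 19 = [(23, 1, 1, 1)] ∧ chevD4.commTerms 20 16 = [(23, 1, 1, 1)] ∧
    chevD4.commTerms 21 15 = [(23, 1, 1, 1)] ∧ chevD4.commTerms 14 22 = [(23, 1, 1, 1)] := by
  refine ⟨?_, ?_, ?_, ?_, ?_, ?_, ?_, ?_, ?_, ?_⟩ <;> decide +kernel

theorem tabN : chevD4.neg 15 ≠ 13 ∧ chevD4.neg 16 ≠ 12 ∧ chevD4.neg 15 ≠ 18 ∧ chevD4.neg 19 ≠ 12 ∧ chevD4.neg 16 ≠ 18 ∧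
    chevD4.neg 19 ≠ 13 ∧ chevD4.neg 17 ≠ 19 ∧ chevD4.neg 20 ≠ 16 ∧ chevD4.neg 21 ≠ 15 ∧ chevD4.neg 14 ≠ 22 := by
  decide +kernel

theorem tabR : wv gpD4_1 19 = 16 ∧ wv gpD4_1 16 = 15 ∧ wv gpD4_1 15 = 19 ∧ wv gpD4_1 23 = 23 ∧
    gs gpD4_1 19 = -1 ∧ gs gpD4_1 16 = 1 ∧ gs gpD4_1 15 = -1 ∧ gs gpD4_1 23 = 1 := by decide +kernel

theorem tabX : ∀ p ∈ [(19, 20), (19, 21), (16, 17), (16, 21), (15, 17), (15, 20), (19, 16), (19, 15), (16, 15),
    (17, 20), (17, 21), (20, 21)],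
    p.1 < 24 ∧ p.2 < 24 ∧ p.2 ≠ p.1 ∧ p.2 ≠ chevD4.neg p.1 ∧ chevD4.commTerms p.1 p.2 = [] := by decide +kernel

theorem cls_tab2 : ∀ r < 24, (cD4 r = 8 ↔ (r = 19 ∨ r = 16 ∨ r = 15)) ∧ (cD4 r = 11 ↔ r = 23) ∧ (cD4 r = 6 ↔ r = 14) := by
  decide +kernel

theorem cart_tab : chevD4.cartan 0 18 = 2 ∧ chevD4.cartan 2 18 = 0 ∧ chevD4.cartan 3 18 = 0 ∧
    chevD4.cartan 0 13 = 0 ∧ chevD4.cartan 2 13 = 2 ∧ chevD4.cartan 3 13 = 0 ∧
    chevD4.cartan 0 12 = 0 ∧ chevD4.cartan 2 12 = 0 ∧ chevD4.cartan 3 12 = 2 ∧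
    chevD4.cartan 0 19 = 1 ∧ chevD4.cartan 2 19 = -1 ∧ chevD4.cartan 3 19 = -1 ∧
    chevD4.cartan 0 16 = -1 ∧ chevD4.cartan 2 16 = 1 ∧ chevD4.cartan 3 16 = -1 ∧
    chevD4.cartan 0 15 = -1 ∧ chevD4.cartan 2 15 = -1 ∧ chevD4.cartan 3 15 = 1 ∧
    chevD4.cartan 0 17 = -1 ∧ chevD4.cartan 2 17 = 1 ∧ chevD4.cartan 3 17 = 1 ∧
    chevD4.cartan 0 20 = 1 ∧ chevD4.cartan 2 20 = -1 ∧ chevD4.cartan 3 20 = 1 ∧
    chevD4.cartan 0 21 = 1 ∧ chevD4.cartan 2 21 = 1 ∧ chevD4.cartan 3 21 = -1 ∧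
    chevD4.cartan 0 14 = -1 ∧ chevD4.cartan 2 14 = -1 ∧ chevD4.cartan 3 14 = -1 := by decide +kernel

variable {K : Type*} [Field K]

/-- root elements -/
noncomputable abbrev xr (r : ℕ) (t : K) : ↥(chevD4.group K) := xG goodD4.toGood2 r t

theorem xr_add {r : ℕ} (hr : r < 24) (t u : K) : xr r (t + u) = xr r t * xr r u := xG_add goodD4.toGood2 hr t u

theorem xr_zero {r : ℕ} (hr : r < 24) : xr r (0 : K) = 1 := by
  have := xr_add hr (0 : K) 0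
  rw [add_zero] at this
  exact mul_eq_left.1 this.symm

theorem xr_neg {r : ℕ} (hr : r < 24) (t : K) : xr r (-t) = (xr r t)⁻¹ := by
  rw [eq_inv_iff_mul_eq_one, ← xr_add hr, neg_add_cancel, xr_zero hr]

theorem xr_inj {r : ℕ} (hr : r < 24) {t : K} (h : xr r t = 1) : t = 0 := xG_ne_one goodD4 hr h

theorem commM {r s : ℕ} (hr : r ∈ sr4 ++ [22, 23]) (hs : s ∈ [22, 23]) (t u : K) : Commute (xr r t) (xr s u) := by
  by_cases h : r = s
  · subst h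
    have hlt : r < 24 := by
      simp only [List.mem_cons, List.not_mem_nil, or_false] at hs
      rcases hs with rfl | rfl <;> norm_num
    show xr r t * xr r u = xr r u * xr r t
    rw [← xr_add hlt, add_comm, xr_add hlt]
  · obtain ⟨h1, h2, h3, h4, h5⟩ := tabM r hr s hs h
    exact xG_comm goodD4 h1 h2 h3 h4 h5 t u

theorem commX {r s : ℕ} (h : (r, s) ∈ [(19, 20), (19, 21), (16, 17), (16, 21), (15, 17), (15, 20), (19, 16), (19, 15), (16, 15),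
    (17, 20), (17, 21), (20, 21)]) (t u : K) : Commute (xr r t) (xr s u) := by
  obtain ⟨h1, h2, h3, h4, h5⟩ := tabX _ h
  exact xG_comm goodD4 h1 h2 h3 h4 h5 t u

/-- the highest root groups -/
def M4 (K : Type*) [Field K] : Subgroup ↥(chevD4.group K) where
  carrier := {g | ∃ v w : K, g = xr 22 v * xr 23 w}
  mul_mem' := by
    rintro _ _ ⟨v, w, rfl⟩ ⟨v', w', rfl⟩
    refine ⟨v + v', w + w', ?_⟩
    rw [xr_add (by norm_num), xr_add (by norm_num)]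
    have h1 : Commute (xr 22 v') (xr 23 w) := commM (by simp [sr4]) (by simp) _ _
    calc xr 22 v * xr 23 w * (xr 22 v' * xr 23 w') = xr 22 v * (xr 23 w * xr 22 v') * xr 23 w' := by group
      _ = xr 22 v * (xr 22 v' * xr 23 w) * xr 23 w' := by rw [h1.eq]
      _ = _ := by group
  one_mem' := ⟨0, 0, by rw [xr_zero (by norm_num), xr_zero (by norm_num), one_mul]⟩
  inv_mem' := by
    rintro _ ⟨v, w, rfl⟩
    refine ⟨-v, -w, ?_⟩
    have h1 : Commute (xr 22 (-v)) (xr 23 (-w)) := commM (by simp [sr4]) (by simp) _ _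
    rw [mul_inv_rev, ← xr_neg (by norm_num), ← xr_neg (by norm_num), h1.eq]

/-- the centralizer of the highest root groups -/
def Z4 (K : Type*) [Field K] : Subgroup ↥(chevD4.group K) := Subgroup.centralizer (M4 K : Set ↥(chevD4.group K))

theorem xr_Z4 {r : ℕ} (hr : r ∈ sr4 ++ [22, 23]) (t : K) : xr r t ∈ Z4 K := by
  unfold Z4
  rw [Subgroup.mem_centralizer_iff]
  rintro _ ⟨v, w, rfl⟩
  have h1 : Commute (xr r t) (xr 22 v) := commM hr (by simp) _ _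
  have h2 : Commute (xr r t) (xr 23 w) := commM hr (by simp) _ _
  exact (h1.mul_right h2).symm.eq

theorem M4_le : M4 K ≤ Z4 K := by
  rintro _ ⟨v, w, rfl⟩
  exact mul_mem (xr_Z4 (by simp) v) (xr_Z4 (by simp) w)

instance : ((M4 K).subgroupOf (Z4 K)).Normal := by
  constructor
  rintro ⟨m, hm⟩ hm' ⟨g, hg⟩
  have h1 : m ∈ M4 K := hm'
  change g * m * g⁻¹ ∈ M4 K
  have h2 := Subgroup.mem_centralizer_iff.1 hg m h1
  rw [← h2, mul_inv_cancel_right]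
  exact h1

/-- the quotient -/
abbrev Q4 (K : Type*) [Field K] := ↥(Z4 K) ⧸ ((M4 K).subgroupOf (Z4 K))

open Classical in
/-- the images of the root elements -/
noncomputable def fr (r : ℕ) (t : K) : Q4 K :=
  if h : xr r t ∈ Z4 K then (QuotientGroup.mk (⟨xr r t, h⟩ : ↥(Z4 K)) : Q4 K) else 1

theorem fr_eq {r : ℕ} (hr : r ∈ sr4 ++ [22, 23]) (t : K) :
    fr r t = (QuotientGroup.mk (⟨xr r t, xr_Z4 hr t⟩ : ↥(Z4 K)) : Q4 K) := dif_pos _

theorem mk_M {r : ℕ} (hr : r ∈ [22, 23]) (t : K) (h : xr r t ∈ Z4 K) :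
    (QuotientGroup.mk (⟨xr r t, h⟩ : ↥(Z4 K)) : Q4 K) = 1 := by
  rw [QuotientGroup.eq_one_iff]
  change xr r t ∈ M4 K
  simp only [List.mem_cons, List.not_mem_nil, or_false] at hr
  rcases hr with rfl | rfl
  · exact ⟨t, 0, by rw [xr_zero (by norm_num), mul_one]⟩
  · exact ⟨0, t, by rw [xr_zero (by norm_num), one_mul]⟩

theorem lt_of_sr {r : ℕ} (hr : r ∈ sr4) : r < 24 := by
  have : ∀ r ∈ sr4, r < 24 := by decide
  exact this r hr

theorem fr_add {r : ℕ} (hr : r ∈ sr4) (t u : K) : fr r (t + u) = fr r t * fr r u := by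
  have hr' : r ∈ sr4 ++ [22, 23] := List.mem_append_left _ hr
  rw [fr_eq hr', fr_eq hr', fr_eq hr', ← QuotientGroup.mk_mul]
  congr 1
  exact Subtype.ext (xr_add (lt_of_sr hr) t u)

/-- the commutator relation in the group -/
theorem xr_comm {r s a : ℕ} {ε : ℤ} (hr : r < 24) (hs : s < 24) (h1 : s ≠ r) (h2 : s ≠ chevD4.neg r)
    (h : chevD4.commTerms r s = [(a, ε, 1, 1)]) (t u : K) :
    xr s u * xr r t = xr r t * xr s u * xr a ((ε : K) * -t * u) := comm_eq goodD4 hr hs h1 h2 h t u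

theorem fr_comm {r s a : ℕ} {ε : ℤ} (hr : r ∈ sr4) (hs : s ∈ sr4) (h1 : s ≠ r) (h2 : s ≠ chevD4.neg r)
    (h : chevD4.commTerms r s = [(a, ε, 1, 1)]) (ha : a ∈ sr4) (t u : K) :
    fr s u * fr r t = fr r t * fr s u * fr a ((ε : K) * -t * u) := by
  have hr' : r ∈ sr4 ++ [22, 23] := List.mem_append_left _ hr
  have hs' : s ∈ sr4 ++ [22, 23] := List.mem_append_left _ hs
  have ha' : a ∈ sr4 ++ [22, 23] := List.mem_append_left _ ha
  rw [fr_eq hr', fr_eq hs', fr_eq ha', ← QuotientGroup.mk_mul, ← QuotientGroup.mk_mul, ← QuotientGroup.mk_mul]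
  congr 1
  exact Subtype.ext (xr_comm (lt_of_sr hr) (lt_of_sr hs) h1 h2 h t u)

theorem fr_commute {r s : ℕ} (h : (r, s) ∈ [(18, 13), (18, 12), (13, 12), (18, 19), (13, 16), (12, 15), (19, 16), (19, 15), (16, 15),
    (18, 17), (18, 20), (18, 21), (13, 17), (13, 20), (13, 21), (12, 17), (12, 20), (12, 21),
    (19, 17), (19, 20), (19, 21), (16, 17), (16, 20), (16, 21), (15, 17), (15, 20), (15, 21),
    (17, 20), (17, 21), (20, 21)]) (t u : K) : Commute (fr r t) (fr s u) := by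
  obtain ⟨h1, h2, h3, h4, h5, h6, h7⟩ := tabQ _ h
  simp only at h1 h2 h3 h4 h5 h6 h7
  have hr' : r ∈ sr4 ++ [22, 23] := List.mem_append_left _ h6
  have hs' : s ∈ sr4 ++ [22, 23] := List.mem_append_left _ h7
  unfold qc at h5
  have key : ∃ m ∈ M4 K, xr s u * xr r t = xr r t * xr s u * m := by
    rcases hc : chevD4.commTerms r s with _ | ⟨⟨a, ε, i, j⟩, l⟩
    · exact ⟨1, one_mem _, by rw [mul_one]; exact (xG_comm goodD4 h1 h2 h3 h4 hc t u).symm⟩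
    · rw [hc] at h5
      rcases l with _ | ⟨b, l⟩
      · simp only [Bool.and_eq_true, Bool.or_eq_true, beq_iff_eq] at h5
        obtain ⟨⟨ha, rfl⟩, rfl⟩ := h5
        refine ⟨xr a ((ε : K) * -t * u), ?_, xr_comm h1 h2 h3 h4 hc t u⟩
        rcases ha with rfl | rfl
        · exact ⟨(ε : K) * -t * u, 0, by rw [xr_zero (r := 23) (by norm_num), mul_one]⟩
        · exact ⟨0, (ε : K) * -t * u, by rw [xr_zero (r := 22) (by norm_num), one_mul]⟩
      · simp at h5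
  obtain ⟨m, hm, e⟩ := key
  show fr r t * fr s u = fr s u * fr r t
  rw [fr_eq hr', fr_eq hs', ← QuotientGroup.mk_mul, ← QuotientGroup.mk_mul, QuotientGroup.eq]
  change (xr r t * xr s u)⁻¹ * (xr s u * xr r t) ∈ M4 K
  rw [e, inv_mul_cancel_left]
  exact hm

end Cfsg.Agent.MulTw
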