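import Cfsg.Agent.MulTw.T4
import Cfsg.Agent.H90.StemTools

set_option autoImplicit false

/-!
Central extensions of the unipotent group of type triality D4, continued.
-/

namespace Cfsg.Agent.MulTw

open Subgroup Cfsg.Agent.Mult Cfsg.Agent.Tw3
open scoped commutatorElement

variable {K : Type*} [Field K] {φ : K ≃+* K} {Γ G : Type*} [Group Γ] [Group G]

/-- the relations in the twisted group -/
structure T4 (φ : K ≃+* K) (G : Type*) [Group G] where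
  h : Kˣ →* G
  x0 : K → G
  x1 : K → G
  x2 : K → G
  y0 : K → G
  y1 : K → G
  s0 : SR φ h x0 (MonoidHom.id _)
  s1 : SR φ h x1 (MonoidHom.id _)
  s2 : SR φ h x2 invMonoidHom
  c02 : ∀ t u, ⁅x0 t, x2 u⁆ = y0 (Tr3 φ (t * u))
  c12 : ∀ t u, ⁅x1 t, x2 u⁆ = y1 (Tr3 φ (t * u))
  c01 : ∀ t u, ∃ v w, φ v = v ∧ φ w = w ∧ ⁅x0 t, x1 u⁆ = x2 (th3 φ t u) * (y0 v * y1 w)
  xy0 : ∀ t v, φ v = v → x0 t * y0 v = y0 v * x0 t ∧ x1 t * y0 v = y0 v * x1 t ∧ x2 t * y0 v = y0 v * x2 t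
  xy1 : ∀ t v, φ v = v → x0 t * y1 v = y1 v * x0 t ∧ x1 t * y1 v = y1 v * x1 t ∧ x2 t * y1 v = y1 v * x2 t
  inj : ∀ v w, φ v = v → φ w = w → y0 v * y1 w = 1 → v = 0 ∧ w = 0

namespace T4

variable [Fintype K] {q : ℕ} (Q : Cub q φ) {σ : Γ →* G} (C : CE σ) (D : T4 φ G)

include Q in
theorem exists_tr {v : K} (hv : φ v = v) : ∃ t, Tr3 φ t = v := tr_surj (K := K) Q.two_le Q.hK Q.hφ Q.h3 hv

include Q in
theorem y0_eq {v : K} (hv : φ v = v) : ∃ t, D.y0 v = ⁅D.x0 1, D.x2 t⁆ ∧ Tr3 φ t = v := by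
  obtain ⟨t, ht⟩ := exists_tr Q hv
  exact ⟨t, by rw [D.c02, one_mul, ht], ht⟩

include Q in
theorem y1_eq {v : K} (hv : φ v = v) : ∃ t, D.y1 v = ⁅D.x1 1, D.x2 t⁆ ∧ Tr3 φ t = v := by
  obtain ⟨t, ht⟩ := exists_tr Q hv
  exact ⟨t, by rw [D.c12, one_mul, ht], ht⟩

include Q in
theorem hy0 {μ : Kˣ} (hμ : NOne φ μ) {v : K} (hv : φ v = v) : D.h μ * D.y0 v = D.y0 v * D.h μ := by
  obtain ⟨t, ht, ht'⟩ := D.y0_eq Q hv
  rw [← mul_inv_eq_iff_eq_mul]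
  have h1 : D.h μ * D.y0 v * (D.h μ)⁻¹ = ⁅D.h μ * D.x0 1 * (D.h μ)⁻¹, D.h μ * D.x2 t * (D.h μ)⁻¹⁆ := by
    rw [ht, commutatorElement_def, commutatorElement_def]; group
  rw [h1, D.s0.act μ hμ, D.s2.act μ hμ, D.c02, ← ht']
  congr 2
  have : ((MonoidHom.id Kˣ μ : Kˣ) : K) * 1 * ((invMonoidHom μ : Kˣ) * t) = t := by
    change (μ : K) * 1 * ((μ⁻¹ : Kˣ) * t) = t
    rw [mul_one, ← mul_assoc, Units.mul_inv, one_mul]
  rw [this]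

include Q in
theorem hy1 {μ : Kˣ} (hμ : NOne φ μ) {v : K} (hv : φ v = v) : D.h μ * D.y1 v = D.y1 v * D.h μ := by
  obtain ⟨t, ht, ht'⟩ := D.y1_eq Q hv
  rw [← mul_inv_eq_iff_eq_mul]
  have h1 : D.h μ * D.y1 v * (D.h μ)⁻¹ = ⁅D.h μ * D.x1 1 * (D.h μ)⁻¹, D.h μ * D.x2 t * (D.h μ)⁻¹⁆ := by
    rw [ht, commutatorElement_def, commutatorElement_def]; group
  rw [h1, D.s1.act μ hμ, D.s2.act μ hμ, D.c12, ← ht']
  congr 2
  have : ((MonoidHom.id Kˣ μ : Kˣ) : K) * 1 * ((invMonoidHom μ : Kˣ) * t) = t := by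
    change (μ : K) * 1 * ((μ⁻¹ : Kˣ) * t) = t
    rw [mul_one, ← mul_assoc, Units.mul_inv, one_mul]
  rw [this]

include Q in
theorem yy {v w : K} (hv : φ v = v) (hw : φ w = w) : D.y0 v * D.y1 w = D.y1 w * D.y0 v := by
  obtain ⟨t, ht, -⟩ := D.y1_eq Q hw
  rw [ht]
  have h1 : Commute (D.y0 v) (D.x1 1) := (D.xy0 1 v hv).2.1.symm
  have h2 : Commute (D.y0 v) (D.x2 t) := (D.xy0 t v hv).2.2.symm
  rw [commutatorElement_def]
  exact ((h1.mul_right h2).mul_right h1.inv_right).mul_right h2.inv_right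

section tr

include Q

theorem t00 (t : K) {v : K} (hv : φ v = v) : C.Tr (D.x0 t) (D.y0 v) :=
  D.s0.tr_long Q C (fun _ hμ => D.hy0 Q hμ hv) (fun t => (D.xy0 t v hv).1) t
theorem t10 (t : K) {v : K} (hv : φ v = v) : C.Tr (D.x1 t) (D.y0 v) :=
  D.s1.tr_long Q C (fun _ hμ => D.hy0 Q hμ hv) (fun t => (D.xy0 t v hv).2.1) t
theorem t20 (t : K) {v : K} (hv : φ v = v) : C.Tr (D.x2 t) (D.y0 v) :=
  D.s2.tr_long Q C (fun _ hμ => D.hy0 Q hμ hv) (fun t => (D.xy0 t v hv).2.2) t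
theorem t01 (t : K) {v : K} (hv : φ v = v) : C.Tr (D.x0 t) (D.y1 v) :=
  D.s0.tr_long Q C (fun _ hμ => D.hy1 Q hμ hv) (fun t => (D.xy1 t v hv).1) t
theorem t11 (t : K) {v : K} (hv : φ v = v) : C.Tr (D.x1 t) (D.y1 v) :=
  D.s1.tr_long Q C (fun _ hμ => D.hy1 Q hμ hv) (fun t => (D.xy1 t v hv).2.1) t
theorem t21 (t : K) {v : K} (hv : φ v = v) : C.Tr (D.x2 t) (D.y1 v) :=
  D.s2.tr_long Q C (fun _ hμ => D.hy1 Q hμ hv) (fun t => (D.xy1 t v hv).2.2) t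

theorem y00 {v w : K} (hv : φ v = v) (hw : φ w = w) : C.Tr (D.y0 v) (D.y0 w) := by
  obtain ⟨t, ht, -⟩ := D.y0_eq Q hw
  rw [ht]
  exact C.tr_comm (D.xy0 1 v hv).1.symm (D.xy0 t v hv).2.2.symm

theorem y01 {v w : K} (hv : φ v = v) (hw : φ w = w) : C.Tr (D.y0 v) (D.y1 w) := by
  obtain ⟨t, ht, -⟩ := D.y1_eq Q hw
  rw [ht]
  exact C.tr_comm (D.xy0 1 v hv).2.1.symm (D.xy0 t v hv).2.2.symm

theorem y11 {v w : K} (hv : φ v = v) (hw : φ w = w) : C.Tr (D.y1 v) (D.y1 w) := by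
  obtain ⟨t, ht, -⟩ := D.y1_eq Q hw
  rw [ht]
  exact C.tr_comm (D.xy1 1 v hv).2.1.symm (D.xy1 t v hv).2.2.symm

end tr

/-- lifts of long root elements -/
noncomputable def g1 (t : K) : Γ := C.cm (D.x0 1) (D.x2 t)
/-- lifts of long root elements -/
noncomputable def g2 (t : K) : Γ := C.cm (D.x1 1) (D.x2 t)

theorem σ_g1 (t : K) : σ (D.g1 C t) = D.y0 (Tr3 φ t) := by
  unfold g1; rw [C.σ_cm, D.c02, one_mul]

theorem σ_g2 (t : K) : σ (D.g2 C t) = D.y1 (Tr3 φ t) := by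
  unfold g2; rw [C.σ_cm, D.c12, one_mul]

/-- the torus acts trivially on lifts of elements which it centralizes -/
theorem tr_h (hcop : (Nat.card σ.ker).Coprime (q ^ 2 + q + 1)) {y : G} (hy : ∀ μ, NOne φ μ → D.h μ * y = y * D.h μ)
    (hφ : ∀ t : K, φ t = t ^ q) {μ : Kˣ} (hμ : NOne φ μ) : C.Tr (D.h μ) y := by
  have hcen : ∀ μ, NOne φ μ → C.cm (D.h μ) y ∈ center Γ := fun μ hμ => C.cm_mem_center (by
    rw [commutatorElement_eq_one_iff_mul_comm, hy μ hμ])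
  have hpow : ∀ n : ℕ, NOne φ (μ ^ n) ∧ C.cm (D.h (μ ^ n)) y = C.cm (D.h μ) y ^ n := by
    intro n
    induction n with
    | zero => exact ⟨by unfold NOne; simp, by rw [pow_zero, pow_zero, map_one, C.cm_one_left]⟩
    | succ n ih =>
      refine ⟨by rw [pow_succ]; exact ih.1.mul hμ, ?_⟩
      rw [pow_succ, map_mul, C.cm_mul_left, C.cj_center _ (hcen μ hμ), ih.2, pow_succ']
  have h1 : μ ^ (q ^ 2 + q + 1) = 1 := by
    apply Units.ext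
    rw [Units.val_pow_eq_pow_val, Units.val_one]
    have h2 : (μ : K) * φ μ * φ (φ μ) = 1 := hμ
    rw [hφ, hφ, ← pow_mul] at h2
    rw [← h2, pow_add, pow_add, pow_one, sq]
    ring
  have h2 := (hpow (q ^ 2 + q + 1)).2
  rw [h1, map_one, C.cm_one_left] at h2
  have hk : C.cm (D.h μ) y ∈ σ.ker := by
    rw [MonoidHom.mem_ker, C.σ_cm, commutatorElement_eq_one_iff_mul_comm, hy μ hμ]
  have h3 : (⟨C.cm (D.h μ) y, hk⟩ : σ.ker) ^ Nat.card σ.ker = 1 := pow_card_eq_one'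
  have h4 : C.cm (D.h μ) y ^ Nat.card σ.ker = 1 := congrArg Subtype.val h3
  have h5 : orderOf (C.cm (D.h μ) y) ∣ 1 := by
    rw [← hcop.gcd_eq_one]
    exact Nat.dvd_gcd (orderOf_dvd_of_pow_eq_one h4) (orderOf_dvd_of_pow_eq_one h2.symm)
  rw [Nat.dvd_one, orderOf_eq_one_iff] at h5
  exact h5

variable (hcop : (Nat.card σ.ker).Coprime (q ^ 2 + q + 1))

section

include Q

theorem fixTr (t : K) : φ (Tr3 φ t) = Tr3 φ t := Tr3_fix Q t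

theorem bi02 : BiAdd (fun t u => C.cm (D.x0 t) (D.x2 u)) := by
  constructor
  · intro t t' u
    rw [D.s0.add, C.cm_mul_left]
    have h1 : C.cj (D.x0 t) (C.cm (D.x0 t') (D.x2 u)) = C.cm (D.x0 t') (D.x2 u) :=
      (D.t00 Q C t (Tr3_fix Q (t' * u))).fix (by rw [C.σ_cm, D.c02])
    rw [h1]
    exact (C.tr_iff' (C.σ_cm _ _) (C.σ_cm _ _)).1 (by
      rw [D.c02, D.c02]; exact D.y00 Q C (Tr3_fix Q _) (Tr3_fix Q _))
  · intro t u u'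
    rw [D.s2.add, C.cm_mul_right]
    have h1 : C.cj (D.x2 u) (C.cm (D.x0 t) (D.x2 u')) = C.cm (D.x0 t) (D.x2 u') :=
      (D.t20 Q C u (Tr3_fix Q (t * u'))).fix (by rw [C.σ_cm, D.c02])
    rw [h1]

theorem bi12 : BiAdd (fun t u => C.cm (D.x1 t) (D.x2 u)) := by
  constructor
  · intro t t' u
    rw [D.s1.add, C.cm_mul_left]
    have h1 : C.cj (D.x1 t) (C.cm (D.x1 t') (D.x2 u)) = C.cm (D.x1 t') (D.x2 u) :=
      (D.t11 Q C t (Tr3_fix Q (t' * u))).fix (by rw [C.σ_cm, D.c12])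
    rw [h1]
    exact (C.tr_iff' (C.σ_cm _ _) (C.σ_cm _ _)).1 (by
      rw [D.c12, D.c12]; exact D.y11 Q C (Tr3_fix Q _) (Tr3_fix Q _))
  · intro t u u'
    rw [D.s2.add, C.cm_mul_right]
    have h1 : C.cj (D.x2 u) (C.cm (D.x1 t) (D.x2 u')) = C.cm (D.x1 t) (D.x2 u') :=
      (D.t21 Q C u (Tr3_fix Q (t * u'))).fix (by rw [C.σ_cm, D.c12])
    rw [h1]

include hcop

theorem cm02 (t u : K) : C.cm (D.x0 t) (D.x2 u) = D.g1 C (t * u) := by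
  refine F2 Q (D.bi02 Q C) (fun μ hμ t u => ?_) t u
  have h1 : C.cj (D.h μ) (C.cm (D.x0 t) (D.x2 u)) = C.cm (D.x0 t) (D.x2 u) :=
    (D.tr_h C hcop (fun ν hν => D.hy0 Q hν (Tr3_fix Q (t * u))) Q.hφ hμ).fix (by rw [C.σ_cm, D.c02])
  rw [C.cj_cm, D.s0.act μ hμ, D.s2.act μ hμ] at h1
  rw [← Units.val_inv_eq_inv_val]
  exact h1

theorem cm12 (t u : K) : C.cm (D.x1 t) (D.x2 u) = D.g2 C (t * u) := by
  refine F2 Q (D.bi12 Q C) (fun μ hμ t u => ?_) t u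
  have h1 : C.cj (D.h μ) (C.cm (D.x1 t) (D.x2 u)) = C.cm (D.x1 t) (D.x2 u) :=
    (D.tr_h C hcop (fun ν hν => D.hy1 Q hν (Tr3_fix Q (t * u))) Q.hφ hμ).fix (by rw [C.σ_cm, D.c12])
  rw [C.cj_cm, D.s1.act μ hμ, D.s2.act μ hμ] at h1
  rw [← Units.val_inv_eq_inv_val]
  exact h1

omit hcop

theorem g1_add (t u : K) : D.g1 C (t + u) = D.g1 C t * D.g1 C u := (D.bi02 Q C).right 1 t u
theorem g2_add (t u : K) : D.g2 C (t + u) = D.g2 C t * D.g2 C u := (D.bi12 Q C).right 1 t u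

theorem g1_comm (t u : K) : D.g1 C t * D.g1 C u = D.g1 C u * D.g1 C t := by
  rw [← D.g1_add Q C, add_comm, D.g1_add Q C]
theorem g2_comm (t u : K) : D.g2 C t * D.g2 C u = D.g2 C u * D.g2 C t := by
  rw [← D.g2_add Q C, add_comm, D.g2_add Q C]
theorem g12_comm (t u : K) : D.g1 C t * D.g2 C u = D.g2 C u * D.g1 C t :=
  (C.tr_iff' (D.σ_g1 C t) (D.σ_g2 C u)).1 (D.y01 Q C (Tr3_fix Q t) (Tr3_fix Q u))

/-- commutators of the first two short root groups commute -/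
theorem tr_c01 (t u t' u' : K) : C.Tr ⁅D.x0 t, D.x1 u⁆ ⁅D.x0 t', D.x1 u'⁆ := by
  obtain ⟨v, w, hv, hw, e⟩ := D.c01 t u
  obtain ⟨v', w', hv', hw', e'⟩ := D.c01 t' u'
  rw [e, e']
  have h1 := D.s2.tr Q C (th3 φ t u) (th3 φ t' u')
  have h2 : C.Tr (D.x2 (th3 φ t u)) (D.y0 v' * D.y1 w') :=
    CE.Tr.mul_right (D.t20 Q C _ hv') (D.t21 Q C _ hw')
  have h3 : C.Tr (D.y0 v * D.y1 w) (D.x2 (th3 φ t' u')) :=
    CE.Tr.mul_left (D.t20 Q C _ hv).symm (D.t21 Q C _ hw).symm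
  have h4 : C.Tr (D.y0 v * D.y1 w) (D.y0 v' * D.y1 w') :=
    CE.Tr.mul_left (CE.Tr.mul_right (D.y00 Q C hv hv') (D.y01 Q C hv hw'))
      (CE.Tr.mul_right (D.y01 Q C hv' hw).symm (D.y11 Q C hw hw'))
  exact CE.Tr.mul_left (h1.mul_right h2) (h3.mul_right h4)

include hcop

theorem cm0_01 (t' t u : K) : C.cm (D.x0 t') ⁅D.x0 t, D.x1 u⁆ = D.g1 C (t' * th3 φ t u) := by
  obtain ⟨v, w, hv, hw, e⟩ := D.c01 t u
  rw [e, C.cm_mul_right]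
  have h1 : C.cm (D.x0 t') (D.y0 v * D.y1 w) = 1 := CE.Tr.mul_right (D.t00 Q C t' hv) (D.t01 Q C t' hw)
  rw [h1, map_one, mul_one, D.cm02 Q C hcop]

theorem cm1_01 (t' t u : K) : C.cm (D.x1 t') ⁅D.x0 t, D.x1 u⁆ = D.g2 C (t' * th3 φ t u) := by
  obtain ⟨v, w, hv, hw, e⟩ := D.c01 t u
  rw [e, C.cm_mul_right]
  have h1 : C.cm (D.x1 t') (D.y0 v * D.y1 w) = 1 := CE.Tr.mul_right (D.t10 Q C t' hv) (D.t11 Q C t' hw)
  rw [h1, map_one, mul_one, D.cm12 Q C hcop]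

theorem J1 (t t' u : K) : D.g1 C (t' * th3 φ t u) = D.g1 C (t * th3 φ t' u) := by
  rw [← D.cm0_01 Q C hcop, ← D.cm0_01 Q C hcop]
  exact (jacobi C (D.s0.tr Q C t t') (D.tr_c01 Q C t u t' u)).symm

theorem J2 (t t' u : K) : D.g2 C (t' * th3 φ t u) = D.g2 C (t * th3 φ t' u) := by
  have hsym : ∀ a b, th3 φ a b = th3 φ b a := fun a b => by unfold th3; ring
  rw [hsym t u, hsym t' u, ← D.cm1_01 Q C hcop, ← D.cm1_01 Q C hcop]
  have h1 : ∀ a b c : K, C.cm (D.x1 a) ⁅D.x0 b, D.x1 c⁆ = (C.cm (D.x1 a) ⁅D.x1 c, D.x0 b⁆)⁻¹ := by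
    intro a b c
    have h2 : C.cm (D.x1 a) (⁅D.x0 b, D.x1 c⁆ * ⁅D.x1 c, D.x0 b⁆) = 1 := by
      rw [← commutatorElement_inv (D.x0 b) (D.x1 c), mul_inv_cancel, C.cm_one_right]
    rw [C.cm_mul_right] at h2
    have h3 : C.cj ⁅D.x0 b, D.x1 c⁆ (C.cm (D.x1 a) ⁅D.x1 c, D.x0 b⁆) = C.cm (D.x1 a) ⁅D.x1 c, D.x0 b⁆ := by
      have h4 : C.Tr ⁅D.x0 b, D.x1 c⁆ ⁅D.x1 a, ⁅D.x1 c, D.x0 b⁆⁆ := by
        -- the double commutator is a long root element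
        obtain ⟨v, w, hv, hw, e⟩ := D.c01 b c
        have e2 : ⁅D.x1 c, D.x0 b⁆ = (D.x2 (th3 φ b c) * (D.y0 v * D.y1 w))⁻¹ := by
          rw [← e, commutatorElement_inv]
        have h5 : ∀ z, z = D.y0 v ∨ z = D.y1 w → D.x1 a * z = z * D.x1 a ∧ D.x2 (th3 φ b c) * z = z * D.x2 (th3 φ b c) := by
          rintro z (rfl | rfl)
          · exact ⟨(D.xy0 _ v hv).2.1, (D.xy0 _ v hv).2.2⟩
          · exact ⟨(D.xy1 _ w hw).2.1, (D.xy1 _ w hw).2.2⟩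
        have c1 : Commute (D.x1 a) (D.y0 v * D.y1 w) :=
          Commute.mul_right (h5 _ (Or.inl rfl)).1 (h5 _ (Or.inr rfl)).1
        have e3 : ⁅D.x1 a, ⁅D.x1 c, D.x0 b⁆⁆ = ⁅D.x1 a, D.x2 (-(th3 φ b c))⁆ := by
          rw [e2, mul_inv_rev, ← D.s2.neg, commutatorElement_def, commutatorElement_def]
          have c2 := c1.inv_right
          calc D.x1 a * ((D.y0 v * D.y1 w)⁻¹ * D.x2 (-th3 φ b c)) * (D.x1 a)⁻¹ * ((D.y0 v * D.y1 w)⁻¹ * D.x2 (-th3 φ b c))⁻¹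
              = (D.x1 a * (D.y0 v * D.y1 w)⁻¹) * D.x2 (-th3 φ b c) * (D.x1 a)⁻¹ * (D.x2 (-th3 φ b c))⁻¹ * (D.y0 v * D.y1 w) := by
                group
            _ = (D.y0 v * D.y1 w)⁻¹ * (D.x1 a * D.x2 (-th3 φ b c) * (D.x1 a)⁻¹ * (D.x2 (-th3 φ b c))⁻¹) * (D.y0 v * D.y1 w) := by
                rw [c2.eq]; group
            _ = _ := by
                have c3 : Commute (D.x2 (-th3 φ b c)) (D.y0 v * D.y1 w) :=
                  Commute.mul_right (D.xy0 _ v hv).2.2 (D.xy1 _ w hw).2.2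
                have c4 : Commute (D.x1 a * D.x2 (-th3 φ b c) * (D.x1 a)⁻¹ * (D.x2 (-th3 φ b c))⁻¹) (D.y0 v * D.y1 w) :=
                  ((c1.mul_left c3).mul_left c1.inv_left).mul_left c3.inv_left
                rw [mul_assoc, c4.eq, inv_mul_cancel_left]
        rw [e3, D.c12, e]
        have hf := Tr3_fix Q (a * -(th3 φ b c))
        exact CE.Tr.mul_left (D.t21 Q C _ hf) (CE.Tr.mul_left (D.y01 Q C hv hf) (D.y11 Q C hw hf))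
      exact h4.fix (C.σ_cm _ _)
    rw [h3] at h2
    exact eq_inv_of_mul_eq_one_left h2
  rw [h1, h1]
  congr 1
  have h6 : C.Tr ⁅D.x1 t, D.x0 u⁆ ⁅D.x1 t', D.x0 u⁆ := by
    rw [← commutatorElement_inv, ← commutatorElement_inv (D.x0 u)]
    exact (D.tr_c01 Q C u t u t').inv_left.inv_right
  exact (jacobi C (D.s1.tr Q C t t') h6).symm

theorem g1_one {t : K} (ht : Tr3 φ t = 0) : D.g1 C t = 1 :=
  F5 Q (D.g1_add Q C) (D.g1_comm Q C) (D.J1 Q C hcop) ht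

theorem g2_one {t : K} (ht : Tr3 φ t = 0) : D.g2 C t = 1 :=
  F5 Q (D.g2_add Q C) (D.g2_comm Q C) (D.J2 Q C hcop) ht

end

end T4

end Cfsg.Agent.MulTw
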