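import Cfsg.Agent.MulTw.D4R
import Cfsg.Agent.MulTw.T4b

set_option autoImplicit false
set_option maxRecDepth 100000

/-!
Relations in the twisted group of type D4, continued.
-/

namespace Cfsg.Agent.MulTw

open Cfsg.Lie Cfsg.Agent.Chev Cfsg.Agent.ChevGrp Cfsg.Agent.ChevGrp.DData Cfsg.Agent.ChevWeyl Cfsg.Agent.ChevTw
open Cfsg.Agent.Tw3
open scoped commutatorElement

variable {K : Type*} [Field K]

section cls2

variable {A : Type*} [Group A]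

theorem comm_l {a a' b : A} (h : Commute a ⁅a', b⁆) : ⁅a * a', b⁆ = ⁅a', b⁆ * ⁅a, b⁆ := by
  have h1 : ⁅a * a', b⁆ = a * ⁅a', b⁆ * a⁻¹ * ⁅a, b⁆ := by
    rw [commutatorElement_def, commutatorElement_def, commutatorElement_def]; group
  rw [h1, h.eq, mul_inv_cancel_right]

theorem comm_r {a b b' : A} (h : Commute b ⁅a, b'⁆) : ⁅a, b * b'⁆ = ⁅a, b⁆ * ⁅a, b'⁆ := by
  have h1 : ⁅a, b * b'⁆ = ⁅a, b⁆ * (b * ⁅a, b'⁆ * b⁻¹) := by
    rw [commutatorElement_def, commutatorElement_def, commutatorElement_def]; group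
  rw [h1, h.eq, mul_inv_cancel_right]

/-- commutators of products of three factors in a class two situation -/
theorem comm33 {A1 A2 A3 B1 B2 B3 c12 c13 c21 c23 c31 c32 : A}
    (k11 : ⁅A1, B1⁆ = 1) (k12 : ⁅A1, B2⁆ = c12) (k13 : ⁅A1, B3⁆ = c13)
    (k21 : ⁅A2, B1⁆ = c21) (k22 : ⁅A2, B2⁆ = 1) (k23 : ⁅A2, B3⁆ = c23)
    (k31 : ⁅A3, B1⁆ = c31) (k32 : ⁅A3, B2⁆ = c32) (k33 : ⁅A3, B3⁆ = 1)
    (hc : ∀ c, c = c12 ∨ c = c13 ∨ c = c21 ∨ c = c23 ∨ c = c31 ∨ c = c32 →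
      ∀ z, z = A1 ∨ z = A2 ∨ z = A3 ∨ z = B1 ∨ z = B2 ∨ z = B3 → Commute z c) :
    ⁅A1 * (A2 * A3), B1 * (B2 * B3)⁆ = (c31 * c32) * (c21 * c23) * (c12 * c13) := by
  have hc' : ∀ z, z = A1 ∨ z = A2 ∨ z = A3 ∨ z = B1 ∨ z = B2 ∨ z = B3 →
      Commute z c12 ∧ Commute z c13 ∧ Commute z c21 ∧ Commute z c23 ∧ Commute z c31 ∧ Commute z c32 := fun z hz =>
    ⟨hc _ (by simp) z hz, hc _ (by simp) z hz, hc _ (by simp) z hz, hc _ (by simp) z hz, hc _ (by simp) z hz,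
      hc _ (by simp) z hz⟩
  obtain ⟨a1, a2, a3, a4, a5, a6⟩ := hc' A1 (by simp)
  obtain ⟨b1, b2, b3, b4, b5, b6⟩ := hc' A2 (by simp)
  obtain ⟨d1, d2, d3, d4, d5, d6⟩ := hc' B1 (by simp)
  obtain ⟨e1, e2, e3, e4, e5, e6⟩ := hc' B2 (by simp)
  have r1 : ⁅A1, B1 * (B2 * B3)⁆ = c12 * c13 := by
    have h1 : ⁅A1, B2 * B3⁆ = c12 * c13 := by rw [comm_r (by rw [k13]; exact e2), k12, k13]
    rw [comm_r (by rw [h1]; exact d1.mul_right d2), k11, one_mul, h1]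
  have r2 : ⁅A2, B1 * (B2 * B3)⁆ = c21 * c23 := by
    have h1 : ⁅A2, B2 * B3⁆ = c23 := by rw [comm_r (by rw [k23]; exact e4), k22, k23, one_mul]
    rw [comm_r (by rw [h1]; exact d4), k21, h1]
  have r3 : ⁅A3, B1 * (B2 * B3)⁆ = c31 * c32 := by
    have h1 : ⁅A3, B2 * B3⁆ = c32 := by rw [comm_r (by rw [k33]; exact Commute.one_right _), k32, k33, mul_one]
    rw [comm_r (by rw [h1]; exact d6), k31, h1]
  have r4 : ⁅A2 * A3, B1 * (B2 * B3)⁆ = (c31 * c32) * (c21 * c23) := by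
    rw [comm_l (by rw [r3]; exact b5.mul_right b6), r3, r2]
  rw [comm_l (by rw [r4]; exact (a5.mul_right a6).mul_right (a3.mul_right a4)), r4, r1]

end cls2

variable (φ : K ≃+* K)

/-- the first short root element -/
noncomputable def e0 (t : K) : ↥(chevD4.group K) := xr 18 t * (xr 13 (φ t) * xr 12 (φ (φ t)))
/-- the second short root element -/
noncomputable def e1 (t : K) : ↥(chevD4.group K) := xr 19 t * (xr 16 (-φ t) * xr 15 (-φ (φ t)))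
/-- the third short root element -/
noncomputable def e2 (t : K) : ↥(chevD4.group K) := xr 17 (-t) * (xr 20 (φ t) * xr 21 (φ (φ t)))

theorem e0_eq (t : K) : e0 φ t = (bdD4 goodD4 dD4 dG2 φ).xb dD4.rp.wsys.p j0 t := (xbp0 goodD4 dD4 dG2 φ t).symm

theorem e2_eq (t : K) : e2 φ t = y9 goodD4 φ (-t) := by
  unfold e2 y9
  rw [map_neg, map_neg, _root_.neg_neg, _root_.neg_neg]

theorem comm_of_rel {A : Type*} [Group A] {s r a : A} (h : s * r = r * s * a) (h1 : Commute r a) (h2 : Commute s a) :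
    ⁅s, r⁆ = a := by
  rw [commutatorElement_def, h]
  calc r * s * a * s⁻¹ * r⁻¹ = r * (s * a) * s⁻¹ * r⁻¹ := by group
    _ = r * (a * s) * s⁻¹ * r⁻¹ := by rw [h2.eq]
    _ = (r * a) * r⁻¹ := by group
    _ = a := by rw [h1.eq, mul_inv_cancel_right]

theorem fr_br {r s a : ℕ} {ε : ℤ} (hr : r ∈ sr4) (hs : s ∈ sr4) (h1 : s ≠ r) (h2 : s ≠ chevD4.neg r)
    (h : chevD4.commTerms r s = [(a, ε, 1, 1)]) (ha : a ∈ sr4) (hra : ∀ t u : K, Commute (fr r t) (fr a u))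
    (hsa : ∀ t u : K, Commute (fr s t) (fr a u)) (t u : K) : ⁅fr s u, fr r t⁆ = fr a ((ε : K) * -t * u) :=
  comm_of_rel (fr_comm hr hs h1 h2 h ha t u) (hra _ _) (hsa _ _)

theorem mk_xr {r : ℕ} (hr : r ∈ sr4) (t : K) (h : xr r t ∈ Z4 K) :
    (QuotientGroup.mk (⟨xr r t, h⟩ : ↥(Z4 K)) : Q4 K) = fr r t := (fr_eq (List.mem_append_left _ hr) t).symm

/-- the first commutator, modulo the highest root groups -/
theorem e01_mod (t u : K) (h3 : ∀ t, φ (φ (φ t)) = t) :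
    ∃ v w : K, ⁅e0 φ t, e1 φ u⁆ = e2 φ (th3 φ t u) * (xr 22 v * xr 23 w) := by
  obtain ⟨a1, a2, a3, a4, a5, a6, a7, a8, a9, a10⟩ := tabC
  obtain ⟨n1, n2, n3, n4, n5, n6, n7, n8, n9, n10⟩ := tabN
  have c23 : ⁅fr 13 (φ t), fr 15 (-φ (φ u))⁆ = fr 17 (-(φ t * φ (φ u))) := by
    rw [fr_br (by simp [sr4]) (by simp [sr4]) (by norm_num) n1.symm a1 (by simp [sr4]) (fun _ _ => fr_commute (by simp) _ _)
      (fun _ _ => fr_commute (by simp) _ _)]
    congr 1; push_cast; ring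
  have c32 : ⁅fr 12 (φ (φ t)), fr 16 (-φ u)⁆ = fr 17 (-(φ (φ t) * φ u)) := by
    rw [fr_br (by simp [sr4]) (by simp [sr4]) (by norm_num) n2.symm a2 (by simp [sr4]) (fun _ _ => fr_commute (by simp) _ _)
      (fun _ _ => fr_commute (by simp) _ _)]
    congr 1; push_cast; ring
  have c13 : ⁅fr 18 t, fr 15 (-φ (φ u))⁆ = fr 20 (t * φ (φ u)) := by
    rw [fr_br (by simp [sr4]) (by simp [sr4]) (by norm_num) n3.symm a3 (by simp [sr4]) (fun _ _ => fr_commute (by simp) _ _)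
      (fun _ _ => fr_commute (by simp) _ _)]
    congr 1; push_cast; ring
  have c31 : ⁅fr 12 (φ (φ t)), fr 19 u⁆ = fr 20 (φ (φ t) * u) := by
    rw [fr_br (by simp [sr4]) (by simp [sr4]) (by norm_num) n4.symm a4 (by simp [sr4]) (fun _ _ => fr_commute (by simp) _ _)
      (fun _ _ => fr_commute (by simp) _ _)]
    congr 1; push_cast; ring
  have c12 : ⁅fr 18 t, fr 16 (-φ u)⁆ = fr 21 (t * φ u) := by
    rw [fr_br (by simp [sr4]) (by simp [sr4]) (by norm_num) n5.symm a5 (by simp [sr4]) (fun _ _ => fr_commute (by simp) _ _)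
      (fun _ _ => fr_commute (by simp) _ _)]
    congr 1; push_cast; ring
  have c21 : ⁅fr 13 (φ t), fr 19 u⁆ = fr 21 (φ t * u) := by
    rw [fr_br (by simp [sr4]) (by simp [sr4]) (by norm_num) n6.symm a6 (by simp [sr4]) (fun _ _ => fr_commute (by simp) _ _)
      (fun _ _ => fr_commute (by simp) _ _)]
    congr 1; push_cast; ring
  have one : ∀ {a b : Q4 K}, Commute a b → ⁅a, b⁆ = 1 := fun h => commutatorElement_eq_one_iff_commute.2 h
  have key := comm33 (one (fr_commute (K := K) (r := 18) (s := 19) (by simp) t u)) c12 c13 c21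
    (one (fr_commute (K := K) (r := 13) (s := 16) (by simp) (φ t) (-φ u))) c23 c31 c32
    (one (fr_commute (K := K) (r := 12) (s := 15) (by simp) (φ (φ t)) (-φ (φ u)))) (by
      rintro c (rfl | rfl | rfl | rfl | rfl | rfl) z (rfl | rfl | rfl | rfl | rfl | rfl) <;>
        exact fr_commute (by simp) _ _)
  have hr : (fr 20 (φ (φ t) * u) * fr 17 (-(φ (φ t) * φ u))) * (fr 21 (φ t * u) * fr 17 (-(φ t * φ (φ u)))) *
      (fr 21 (t * φ u) * fr 20 (t * φ (φ u))) = fr 17 (-th3 φ t u) * (fr 20 (φ (th3 φ t u)) * fr 21 (φ (φ (th3 φ t u)))) := by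
    have e1 : fr 17 (-th3 φ t u) = fr 17 (-(φ (φ t) * φ u)) * fr 17 (-(φ t * φ (φ u))) := by
      rw [← fr_add (by simp [sr4])]; congr 1; unfold th3; ring
    have e2 : fr 20 (φ (th3 φ t u)) = fr 20 (φ (φ t) * u) * fr 20 (t * φ (φ u)) := by
      rw [← fr_add (by simp [sr4])]; congr 1; unfold th3
      simp only [map_add, map_mul, h3]
    have e3 : fr 21 (φ (φ (th3 φ t u))) = fr 21 (φ t * u) * fr 21 (t * φ u) := by
      rw [← fr_add (by simp [sr4])]; congr 1; unfold th3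
      simp only [map_add, map_mul, h3]; ring
    rw [e1, e2, e3]
    have k1 : ∀ x y : K, fr 20 x * fr 17 y = fr 17 y * fr 20 x := fun x y => ((fr_commute (by simp) y x).symm).eq
    have k2 : ∀ x y : K, fr 21 x * fr 17 y = fr 17 y * fr 21 x := fun x y => ((fr_commute (by simp) y x).symm).eq
    have k3 : ∀ x y : K, fr 21 x * fr 20 y = fr 20 y * fr 21 x := fun x y => ((fr_commute (by simp) y x).symm).eq
    generalize (φ (φ t) * u) = p1
    generalize -(φ (φ t) * φ u) = p2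
    generalize φ t * u = p3
    generalize -(φ t * φ (φ u)) = p4
    generalize t * φ u = p5
    generalize t * φ (φ u) = p6
    calc fr 20 p1 * fr 17 p2 * (fr 21 p3 * fr 17 p4) * (fr 21 p5 * fr 20 p6)
        = fr 17 p2 * fr 20 p1 * (fr 17 p4 * fr 21 p3) * (fr 20 p6 * fr 21 p5) := by rw [k1, k2, k3]
      _ = fr 17 p2 * (fr 20 p1 * fr 17 p4) * (fr 21 p3 * fr 20 p6) * fr 21 p5 := by group
      _ = fr 17 p2 * (fr 17 p4 * fr 20 p1) * (fr 20 p6 * fr 21 p3) * fr 21 p5 := by rw [k1, k3]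
      _ = _ := by group
  rw [hr] at key
  -- back to the group
  have z18 := xr_Z4 (K := K) (r := 18) (by simp [sr4])
  have z13 := xr_Z4 (K := K) (r := 13) (by simp [sr4])
  have z12 := xr_Z4 (K := K) (r := 12) (by simp [sr4])
  have z19 := xr_Z4 (K := K) (r := 19) (by simp [sr4])
  have z16 := xr_Z4 (K := K) (r := 16) (by simp [sr4])
  have z15 := xr_Z4 (K := K) (r := 15) (by simp [sr4])
  have z17 := xr_Z4 (K := K) (r := 17) (by simp [sr4])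
  have z20 := xr_Z4 (K := K) (r := 20) (by simp [sr4])
  have z21 := xr_Z4 (K := K) (r := 21) (by simp [sr4])
  have h0 : e0 φ t ∈ Z4 K := mul_mem (z18 _) (mul_mem (z13 _) (z12 _))
  have h1 : e1 φ u ∈ Z4 K := mul_mem (z19 _) (mul_mem (z16 _) (z15 _))
  have h2 : e2 φ (th3 φ t u) ∈ Z4 K := mul_mem (z17 _) (mul_mem (z20 _) (z21 _))
  have q0 : (QuotientGroup.mk (⟨e0 φ t, h0⟩ : ↥(Z4 K)) : Q4 K) = fr 18 t * (fr 13 (φ t) * fr 12 (φ (φ t))) := by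
    rw [← mk_xr (by simp [sr4]) _ (z18 t), ← mk_xr (by simp [sr4]) _ (z13 (φ t)), ← mk_xr (by simp [sr4]) _ (z12 (φ (φ t)))]
    rfl
  have q1 : (QuotientGroup.mk (⟨e1 φ u, h1⟩ : ↥(Z4 K)) : Q4 K) = fr 19 u * (fr 16 (-φ u) * fr 15 (-φ (φ u))) := by
    rw [← mk_xr (by simp [sr4]) _ (z19 u), ← mk_xr (by simp [sr4]) _ (z16 (-φ u)), ← mk_xr (by simp [sr4]) _ (z15 (-φ (φ u)))]
    rfl
  have q2 : (QuotientGroup.mk (⟨e2 φ (th3 φ t u), h2⟩ : ↥(Z4 K)) : Q4 K) =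
      fr 17 (-th3 φ t u) * (fr 20 (φ (th3 φ t u)) * fr 21 (φ (φ (th3 φ t u)))) := by
    rw [← mk_xr (by simp [sr4]) _ (z17 _), ← mk_xr (by simp [sr4]) _ (z20 _), ← mk_xr (by simp [sr4]) _ (z21 _)]
    rfl
  rw [← q0, ← q1, ← q2] at key
  have h4 : (⟨e2 φ (th3 φ t u), h2⟩ : ↥(Z4 K))⁻¹ * ⁅(⟨e0 φ t, h0⟩ : ↥(Z4 K)), ⟨e1 φ u, h1⟩⁆ ∈ (M4 K).subgroupOf (Z4 K) := by
    rw [← QuotientGroup.eq]
    exact key.symm
  obtain ⟨v, w, hvw⟩ : (e2 φ (th3 φ t u))⁻¹ * ⁅e0 φ t, e1 φ u⁆ ∈ M4 K := h4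
  exact ⟨v, w, by rw [← hvw]; group⟩

end Cfsg.Agent.MulTw
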