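import Cfsg.Agent.MulTw.D4S

set_option autoImplicit false
set_option maxRecDepth 100000

/-!
The relations in the twisted group of type D4 as an instance of the abstract relations.
-/

namespace Cfsg.Agent.MulTw

open Cfsg.Lie Cfsg.Agent.Chev Cfsg.Agent.ChevGrp Cfsg.Agent.ChevGrp.DData Cfsg.Agent.ChevWeyl Cfsg.Agent.ChevTw
open Cfsg.Agent.Tw3
open scoped commutatorElement

variable {K : Type*} [Field K] (φ : K ≃+* K)

/-- the twisted system -/
noncomputable abbrev O4 := oD4 goodD4 dD4 dG2 φ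
/-- the twisted group -/
noncomputable abbrev T1 : Subgroup ↥(chevD4.group K) := (O4 φ).tw.G1

theorem σ_xr {r : ℕ} (hr : r < 24) (t : K) : (O4 φ).σ (xr r t) = xr (wv gpD4_1 r) (((gs gpD4_1 r : ℤ) : K) * φ t) :=
  sgm_xG goodD4 gok_D4_1 piok_D4_1 pj_D4_1 φ (D := chevD4) hr t

/-- fixed elements of a class are in the group -/
theorem mem_T1_of {c : ℕ} (hc : c < 12) {g : ↥(chevD4.group K)}
    (h : g ∈ gen (amb goodD4 dD4 K).R.X (fun s => (O4 φ).tw.cls s = (⟨c, hc⟩ : Fin chevG2.nroots)))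
    (hσ : (O4 φ).σ g = g) : g ∈ (O4 φ).tw.X' (⟨c, hc⟩ : Fin chevG2.nroots) := ⟨h, hσ⟩

theorem xr_gen {c : ℕ} (hc : c < 12) {r : ℕ} (hr : r < 24) (h : cD4 r = c) (t : K) :
    xr r t ∈ gen (amb goodD4 dD4 K).R.X (fun s => (O4 φ).tw.cls s = (⟨c, hc⟩ : Fin chevG2.nroots)) := by
  have h5 : xr r t ∈ (amb goodD4 dD4 K).R.X (⟨r, hr⟩ : Fin chevD4.nroots) := (amb goodD4 dD4 K).x_mem _ _
  have h6 : (O4 φ).tw.cls (⟨r, hr⟩ : Fin chevD4.nroots) = (⟨c, hc⟩ : Fin chevG2.nroots) := Fin.ext h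
  exact mem_gen (P := fun s => (O4 φ).tw.cls s = (⟨c, hc⟩ : Fin chevG2.nroots)) h6 h5

section

variable (h3 : ∀ t, φ (φ (φ t)) = t)
include h3

theorem e1_fixed (u : K) : (O4 φ).σ (e1 φ u) = e1 φ u := by
  obtain ⟨a1, a2, a3, a4, a5, a6, a7, a8⟩ := tabR
  unfold e1
  rw [map_mul, map_mul, σ_xr φ (by norm_num), σ_xr φ (by norm_num), σ_xr φ (by norm_num), a1, a2, a3, a5, a6, a7]
  simp only [Int.cast_neg, Int.cast_one, neg_mul, one_mul, map_neg, h3, _root_.neg_neg]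
  have c1 : Commute (xr 19 u) (xr 16 (-φ u)) := commX (by simp) _ _
  have c2 : Commute (xr 19 u) (xr 15 (-φ (φ u))) := commX (by simp) _ _
  rw [← mul_assoc]
  exact (c1.mul_right c2).symm.eq

theorem e1_X (u : K) : e1 φ u ∈ (O4 φ).tw.X' (⟨8, by decide⟩ : Fin chevG2.nroots) := by
  refine mem_T1_of φ (by decide) ?_ (e1_fixed φ h3 u)
  refine mul_mem (xr_gen φ (by decide) (by norm_num) ((cls_tab2 19 (by norm_num)).1.2 (by norm_num)) _)
      (mul_mem (xr_gen φ (by decide) (by norm_num) ((cls_tab2 16 (by norm_num)).1.2 (by norm_num)) _)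
      (xr_gen φ (by decide) (by norm_num) ((cls_tab2 15 (by norm_num)).1.2 (by norm_num)) _))

theorem e2_X (u : K) : e2 φ u ∈ (O4 φ).tw.X' (⟨9, by decide⟩ : Fin chevG2.nroots) := by
  rw [e2_eq]
  refine mem_T1_of φ (by decide) ?_ (y9_fixed goodD4 dD4 dG2 φ h3 (-u))
  refine mul_mem (xr_gen φ (by decide) (by norm_num) ((cls_tab 17 (by norm_num)).1.2 (by norm_num)) _)
      (mul_mem (xr_gen φ (by decide) (by norm_num) ((cls_tab 20 (by norm_num)).1.2 (by norm_num)) _)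
      (xr_gen φ (by decide) (by norm_num) ((cls_tab 21 (by norm_num)).1.2 (by norm_num)) _))

theorem e0_X (u : K) : e0 φ u ∈ (O4 φ).tw.X' (dG2.rp.wsys.p j0) := by
  rw [e0_eq]
  exact ((bdD4 goodD4 dD4 dG2 φ).mem_X'_p j0 _).2 ⟨u, fx0 goodD4 dD4 dG2 φ h3 u, rfl⟩

omit h3 in
theorem y22_X {v : K} (hv : φ v = v) : xr 22 v ∈ (O4 φ).tw.X' (⟨10, by decide⟩ : Fin chevG2.nroots) := by
  refine mem_T1_of φ (by decide) (xr_gen φ (by decide) (by norm_num) ((cls_tab 22 (by norm_num)).2.2 (by norm_num)) _) ?_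
  obtain ⟨a1, a2, a3, a4, a5, a6, a7, a8⟩ := rho_tab
  rw [σ_xr φ (by norm_num), a4, a8, Int.cast_one, one_mul, hv]

omit h3 in
theorem y23_X {v : K} (hv : φ v = v) : xr 23 v ∈ (O4 φ).tw.X' (⟨11, by decide⟩ : Fin chevG2.nroots) := by
  refine mem_T1_of φ (by decide) (xr_gen φ (by decide) (by norm_num) ((cls_tab2 23 (by norm_num)).2.1.2 (by norm_num)) _) ?_
  obtain ⟨a1, a2, a3, a4, a5, a6, a7, a8⟩ := tabR
  rw [σ_xr φ (by norm_num), a4, a8, Int.cast_one, one_mul, hv]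

end

/-- uniqueness for the highest root groups -/
theorem inj_M4 {v w : K} (h : xr 22 v * xr 23 w = 1) : v = 0 ∧ w = 0 := by
  obtain ⟨a1, a2, a3, a4, a5, a6, a7, a8, a9, a10⟩ := tabC
  obtain ⟨n1, n2, n3, n4, n5, n6, n7, n8, n9, n10⟩ := tabN
  have h1 := xr_comm (K := K) (r := 14) (s := 22) (by norm_num) (by norm_num) (by norm_num) n10.symm a10 1 v
  have h2 : xr 22 v = xr 23 (-w) := by
    rw [xr_neg (by norm_num)]; exact eq_inv_of_mul_eq_one_left h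
  have h3 : Commute (xr 14 (1 : K)) (xr 23 (-w)) := by
    have : 14 < 24 ∧ 23 < 24 ∧ 23 ≠ 14 ∧ 23 ≠ chevD4.neg 14 ∧ chevD4.commTerms 14 23 = [] := by
      refine ⟨by norm_num, by norm_num, by norm_num, ?_, ?_⟩ <;> decide +kernel
    obtain ⟨h1, h2, h3, h4, h5⟩ := this
    exact xG_comm goodD4 h1 h2 h3 h4 h5 _ _
  rw [h2, h3.eq] at h1
  have h4 := (mul_eq_left.1 h1.symm)
  have h5 := xr_inj (by norm_num) h4
  have h6 : v = 0 := by
    have : ((1 : ℤ) : K) * -1 * v = -v := by push_cast; ring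
    rw [this, neg_eq_zero] at h5
    exact h5
  rw [h6, xr_zero (by norm_num), one_mul] at h
  exact ⟨h6, xr_inj (by norm_num) h⟩

theorem M4_unique {v w v' w' : K} (h : xr 22 v * xr 23 w = xr 22 v' * xr 23 w') : v = v' ∧ w = w' := by
  have h1 : xr 22 (v + -v') * xr 23 (w + -w') = 1 := by
    rw [xr_add (by norm_num), xr_add (by norm_num), xr_neg (by norm_num), xr_neg (by norm_num)]
    have c1 : ∀ a b : K, Commute (xr 22 a) (xr 23 b) := fun a b => commM (by simp [sr4]) (by simp) _ _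
    have c2 := (c1 v' w).inv_left.eq
    calc xr 22 v * (xr 22 v')⁻¹ * (xr 23 w * (xr 23 w')⁻¹) = xr 22 v * ((xr 22 v')⁻¹ * xr 23 w) * (xr 23 w')⁻¹ := by group
      _ = xr 22 v * xr 23 w * (xr 22 v')⁻¹ * (xr 23 w')⁻¹ := by rw [c2]; group
      _ = xr 22 v' * (xr 23 w' * (xr 22 v')⁻¹) * (xr 23 w')⁻¹ := by rw [h]; group
      _ = 1 := by rw [← ((c1 v' w').inv_left).eq]; group
  obtain ⟨h2, h3⟩ := inj_M4 h1
  exact ⟨by linear_combination h2, by linear_combination h3⟩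

section

variable (h3 : ∀ t, φ (φ (φ t)) = t)
include h3

/-- the first commutator -/
theorem e01 (t u : K) : ∃ v w : K, φ v = v ∧ φ w = w ∧ ⁅e0 φ t, e1 φ u⁆ = e2 φ (th3 φ t u) * (xr 22 v * xr 23 w) := by
  obtain ⟨v, w, h⟩ := e01_mod φ t u h3
  have f0 : (O4 φ).σ (e0 φ t) = e0 φ t := (e0_X φ h3 t).2
  have f1 : (O4 φ).σ (e1 φ u) = e1 φ u := e1_fixed φ h3 u
  have f2 : (O4 φ).σ (e2 φ (th3 φ t u)) = e2 φ (th3 φ t u) := (e2_X φ h3 _).2
  have h4 : (O4 φ).σ (xr 22 v * xr 23 w) = xr 22 v * xr 23 w := by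
    have h5 : xr 22 v * xr 23 w = (e2 φ (th3 φ t u))⁻¹ * ⁅e0 φ t, e1 φ u⁆ := by rw [h]; group
    rw [h5, map_mul, map_inv, map_commutatorElement, f0, f1, f2]
  obtain ⟨a1, a2, a3, a4, a5, a6, a7, a8⟩ := rho_tab
  obtain ⟨b1, b2, b3, b4, b5, b6, b7, b8⟩ := tabR
  rw [map_mul, σ_xr φ (by norm_num), σ_xr φ (by norm_num), a4, a8, b4, b8, Int.cast_one, one_mul, one_mul] at h4
  obtain ⟨h5, h6⟩ := M4_unique h4
  exact ⟨v, w, h5, h6, h⟩

omit h3 in
theorem e02 (t u : K) : ⁅e0 φ t, e2 φ u⁆ = xr 22 (Tr3 φ (t * u)) := by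
  have h := comm_y9 goodD4 dD4 dG2 φ t (-u)
  rw [← e0_eq, ← e2_eq] at h
  rw [← commutatorElement_inv, h, ← xr_neg (by norm_num)]
  congr 1
  unfold Tr3
  simp only [mul_neg, map_neg]; ring

omit h3 in
theorem e12 (t u : K) : ⁅e1 φ t, e2 φ u⁆ = xr 23 (Tr3 φ (t * u)) := by
  obtain ⟨a1, a2, a3, a4, a5, a6, a7, a8, a9, a10⟩ := tabC
  obtain ⟨n1, n2, n3, n4, n5, n6, n7, n8, n9, n10⟩ := tabN
  unfold e1 e2
  have k1 := xr_comm (K := K) (r := 17) (s := 19) (by norm_num) (by norm_num) (by norm_num) n7.symm a7 (-u) t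
  have k2 := xr_comm (K := K) (r := 20) (s := 16) (by norm_num) (by norm_num) (by norm_num) n8.symm a8 (φ u) (-φ t)
  have k3 := xr_comm (K := K) (r := 21) (s := 15) (by norm_num) (by norm_num) (by norm_num) n9.symm a9 (φ (φ u)) (-φ (φ t))
  have h23 : ∀ {r : ℕ}, r ∈ sr4 ++ [22, 23] → ∀ t u : K, Commute (xr 23 t) (xr r u) := fun hr t u => (commM hr (by simp) u t).symm
  rw [comm3 k1 k2 k3 (commX (by simp) _ _) (commX (by simp) _ _) (commX (by simp) _ _)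
    (commX (by simp) _ _) (commX (by simp) _ _) (commX (by simp) _ _)
    (h23 (by simp [sr4]) _ _) (h23 (by simp [sr4]) _ _) (h23 (by simp [sr4]) _ _) (h23 (by simp [sr4]) _ _) (h23 (by simp [sr4]) _ _)
    (h23 (by simp [sr4]) _ _) (h23 (by simp [sr4]) _ _) (h23 (by simp [sr4]) _ _) (h23 (by simp [sr4]) _ _) (h23 (by simp [sr4]) _ _)
    (h23 (by simp [sr4]) _ _) (h23 (by simp [sr4]) _ _) (h23 (by simp [sr4]) _ _) (h23 (by simp [sr4]) _ _) (h23 (by simp [sr4]) _ _)]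
  rw [← xr_add (by norm_num), ← xr_add (by norm_num)]
  congr 1
  unfold Tr3
  simp only [map_mul]
  push_cast
  ring

end

theorem e_add (x y : K) : e0 φ (x + y) = e0 φ x * e0 φ y ∧ e1 φ (x + y) = e1 φ x * e1 φ y ∧ e2 φ (x + y) = e2 φ x * e2 φ y := by
  refine ⟨?_, ?_, ?_⟩
  · rw [e0_eq, e0_eq, e0_eq]
    exact (bdD4 goodD4 dD4 dG2 φ).xb_add OData.sel_p j0 x y
  · unfold e1
    rw [map_add, map_add, neg_add, neg_add, xr_add (by norm_num), xr_add (by norm_num), xr_add (by norm_num)]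
    have c1 : Commute (xr 19 y) (xr 16 (-φ x) * xr 15 (-φ (φ x))) := (commX (by simp) _ _).mul_right (commX (by simp) _ _)
    have c2 : Commute (xr 16 (-φ y)) (xr 15 (-φ (φ x))) := commX (by simp) _ _
    calc xr 19 x * xr 19 y * (xr 16 (-φ x) * xr 16 (-φ y) * (xr 15 (-φ (φ x)) * xr 15 (-φ (φ y))))
        = xr 19 x * xr 19 y * (xr 16 (-φ x) * (xr 16 (-φ y) * xr 15 (-φ (φ x))) * xr 15 (-φ (φ y))) := by group
      _ = xr 19 x * (xr 19 y * (xr 16 (-φ x) * xr 15 (-φ (φ x)))) * xr 16 (-φ y) * xr 15 (-φ (φ y)) := by rw [c2.eq]; group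
      _ = _ := by rw [c1.eq]; group
  · unfold e2
    rw [map_add, map_add, neg_add, xr_add (by norm_num), xr_add (by norm_num), xr_add (by norm_num)]
    have c1 : Commute (xr 17 (-y)) (xr 20 (φ x) * xr 21 (φ (φ x))) := (commX (by simp) _ _).mul_right (commX (by simp) _ _)
    have c2 : Commute (xr 20 (φ y)) (xr 21 (φ (φ x))) := commX (by simp) _ _
    calc xr 17 (-x) * xr 17 (-y) * (xr 20 (φ x) * xr 20 (φ y) * (xr 21 (φ (φ x)) * xr 21 (φ (φ y))))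
        = xr 17 (-x) * xr 17 (-y) * (xr 20 (φ x) * (xr 20 (φ y) * xr 21 (φ (φ x))) * xr 21 (φ (φ y))) := by group
      _ = xr 17 (-x) * (xr 17 (-y) * (xr 20 (φ x) * xr 21 (φ (φ x)))) * xr 20 (φ y) * xr 21 (φ (φ y)) := by rw [c2.eq]; group
      _ = _ := by rw [c1.eq]; group

end Cfsg.Agent.MulTw
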