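import Cfsg.Agent.MulTw.D4T

set_option autoImplicit false
set_option maxRecDepth 100000

/-!
The relations in the twisted group of type D4 as an instance of the abstract relations.
-/

namespace Cfsg.Agent.MulTw

open Cfsg.Lie Cfsg.Agent.Chev Cfsg.Agent.ChevGrp Cfsg.Agent.ChevGrp.DData Cfsg.Agent.ChevWeyl Cfsg.Agent.ChevTw
open Cfsg.Agent.Tw3
open scoped commutatorElement

variable {K : Type*} [Field K] (φ : K ≃+* K)

/-- the torus element -/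
noncomputable abbrev hb4 (c : Kˣ) : ↥(chevD4.group K) := (bdD4 goodD4 dD4 dG2 φ).hb j0 c

theorem hb4_conj (c : Kˣ) {r : ℕ} (hr : r < 24) (t : K) : hb4 φ c * xr r t * (hb4 φ c)⁻¹ =
    xr r (((c ^ chevD4.cartan 0 r * (φu φ c ^ chevD4.cartan 2 r * φu φ (φu φ c) ^ chevD4.cartan 3 r) : Kˣ) : K) * t) := by
  have h1 := (bdD4 goodD4 dD4 dG2 φ).hb_conj j0 c (⟨r, hr⟩ : Fin chevD4.nroots) t
  rw [chb_j0] at h1
  exact h1

variable {φ}

theorem nOne_units {c : Kˣ} (hc : NOne φ c) : c * (φu φ c * φu φ (φu φ c)) = 1 := by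
  apply Units.ext
  have h1 : (c : K) * φ c * φ (φ c) = 1 := hc
  rw [Units.val_mul, Units.val_mul, φu_val, φu_val, φu_val, Units.val_one, ← mul_assoc]
  exact h1

section coef

variable {c : Kˣ} (hc : NOne φ c)
include hc

theorem coef_aux : (φu φ c)⁻¹ * (φu φ (φu φ c))⁻¹ = c ∧ c⁻¹ * (φu φ (φu φ c))⁻¹ = φu φ c ∧
    c⁻¹ * (φu φ c)⁻¹ = φu φ (φu φ c) := by
  have h := nOne_units hc
  refine ⟨?_, ?_, ?_⟩
  · rw [← mul_inv]
    exact (eq_inv_of_mul_eq_one_left h).symm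
  · rw [← mul_inv]
    have : (c * φu φ (φu φ c)) * φu φ c = 1 := by rw [mul_assoc, mul_comm (φu φ (φu φ c))]; exact h
    exact (eq_inv_of_mul_eq_one_right this).symm
  · rw [← mul_inv]
    have : (c * φu φ c) * φu φ (φu φ c) = 1 := by rw [mul_assoc]; exact h
    exact (eq_inv_of_mul_eq_one_right this).symm

theorem hb4_18 (t : K) : hb4 φ c * xr 18 t * (hb4 φ c)⁻¹ = xr 18 ((c * c : Kˣ) * t) ∧
    hb4 φ c * xr 13 t * (hb4 φ c)⁻¹ = xr 13 ((φu φ c * φu φ c : Kˣ) * t) ∧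
    hb4 φ c * xr 12 t * (hb4 φ c)⁻¹ = xr 12 ((φu φ (φu φ c) * φu φ (φu φ c) : Kˣ) * t) := by
  obtain ⟨a1, a2, a3, a4, a5, a6, a7, a8, a9, -⟩ := cart_tab
  refine ⟨?_, ?_, ?_⟩
  · rw [hb4_conj φ c (by norm_num), a1, a2, a3, zpow_zero, zpow_zero, mul_one, mul_one, zpow_two]
  · rw [hb4_conj φ c (by norm_num), a4, a5, a6, zpow_zero, zpow_zero, mul_one, one_mul, zpow_two]
  · rw [hb4_conj φ c (by norm_num), a7, a8, a9, zpow_zero, zpow_zero, one_mul, one_mul, zpow_two]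

theorem hb4_19 (t : K) : hb4 φ c * xr 19 t * (hb4 φ c)⁻¹ = xr 19 ((c * c : Kˣ) * t) ∧
    hb4 φ c * xr 16 t * (hb4 φ c)⁻¹ = xr 16 ((φu φ c * φu φ c : Kˣ) * t) ∧
    hb4 φ c * xr 15 t * (hb4 φ c)⁻¹ = xr 15 ((φu φ (φu φ c) * φu φ (φu φ c) : Kˣ) * t) := by
  obtain ⟨-, -, -, -, -, -, -, -, -, a1, a2, a3, a4, a5, a6, a7, a8, a9, -⟩ := cart_tab
  obtain ⟨k1, k2, k3⟩ := coef_aux hc
  refine ⟨?_, ?_, ?_⟩
  · rw [hb4_conj φ c (by norm_num), a1, a2, a3, zpow_one, zpow_neg_one, zpow_neg_one, k1]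
  · rw [hb4_conj φ c (by norm_num), a4, a5, a6, zpow_one, zpow_neg_one, zpow_neg_one, mul_comm (φu φ c), ← mul_assoc, k2]
  · rw [hb4_conj φ c (by norm_num), a7, a8, a9, zpow_one, zpow_neg_one, zpow_neg_one, ← mul_assoc, k3]

theorem hb4_17 (t : K) : hb4 φ c * xr 17 t * (hb4 φ c)⁻¹ = xr 17 (((c * c)⁻¹ : Kˣ) * t) ∧
    hb4 φ c * xr 20 t * (hb4 φ c)⁻¹ = xr 20 (((φu φ c * φu φ c)⁻¹ : Kˣ) * t) ∧
    hb4 φ c * xr 21 t * (hb4 φ c)⁻¹ = xr 21 (((φu φ (φu φ c) * φu φ (φu φ c))⁻¹ : Kˣ) * t) := by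
  obtain ⟨-, -, -, -, -, -, -, -, -, -, -, -, -, -, -, -, -, -, a1, a2, a3, a4, a5, a6, a7, a8, a9, -⟩ := cart_tab
  obtain ⟨k1, k2, k3⟩ := coef_aux hc
  have k1' : φu φ c * φu φ (φu φ c) = c⁻¹ := by rw [eq_inv_iff_mul_eq_one, mul_comm]; exact nOne_units hc
  have k2' : c * φu φ (φu φ c) = (φu φ c)⁻¹ := by
    rw [eq_inv_iff_mul_eq_one, mul_assoc, mul_comm (φu φ (φu φ c))]; exact nOne_units hc
  have k3' : c * φu φ c = (φu φ (φu φ c))⁻¹ := by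
    rw [eq_inv_iff_mul_eq_one, mul_assoc]; exact nOne_units hc
  refine ⟨?_, ?_, ?_⟩
  · rw [hb4_conj φ c (by norm_num), a1, a2, a3, zpow_one, zpow_one, zpow_neg_one, k1', mul_inv]
  · rw [hb4_conj φ c (by norm_num), a4, a5, a6, zpow_one, zpow_one, zpow_neg_one, mul_comm ((φu φ c)⁻¹), ← mul_assoc, k2', mul_inv]
  · rw [hb4_conj φ c (by norm_num), a7, a8, a9, zpow_one, zpow_one, zpow_neg_one, ← mul_assoc, k3', mul_inv]

theorem hb4_14 (t : K) : hb4 φ c * xr 14 t * (hb4 φ c)⁻¹ = xr 14 t := by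
  obtain ⟨-, -, -, -, -, -, -, -, -, -, -, -, -, -, -, -, -, -, -, -, -, -, -, -, -, -, -, a1, a2, a3⟩ := cart_tab
  rw [hb4_conj φ c (by norm_num), a1, a2, a3, zpow_neg_one, zpow_neg_one, zpow_neg_one, ← mul_inv, ← mul_inv, nOne_units hc,
    inv_one, Units.val_one, one_mul]

theorem hb4_e0 (t : K) : hb4 φ c * e0 φ t * (hb4 φ c)⁻¹ = e0 φ ((c * c : Kˣ) * t) := by
  unfold e0
  have e : ∀ h a b d : ↥(chevD4.group K), h * (a * (b * d)) * h⁻¹ = (h * a * h⁻¹) * ((h * b * h⁻¹) * (h * d * h⁻¹)) := by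
    intro h a b d; group
  rw [e, (hb4_18 hc _).1, (hb4_18 hc _).2.1, (hb4_18 hc _).2.2]
  simp only [Units.val_mul, φu_val, map_mul]

theorem hb4_e1 (t : K) : hb4 φ c * e1 φ t * (hb4 φ c)⁻¹ = e1 φ ((c * c : Kˣ) * t) := by
  unfold e1
  have e : ∀ h a b d : ↥(chevD4.group K), h * (a * (b * d)) * h⁻¹ = (h * a * h⁻¹) * ((h * b * h⁻¹) * (h * d * h⁻¹)) := by
    intro h a b d; group
  rw [e, (hb4_19 hc _).1, (hb4_19 hc _).2.1, (hb4_19 hc _).2.2]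
  simp only [Units.val_mul, φu_val, map_mul, mul_neg]

theorem hb4_e2 (t : K) : hb4 φ c * e2 φ t * (hb4 φ c)⁻¹ = e2 φ (((c * c)⁻¹ : Kˣ) * t) := by
  unfold e2
  have e : ∀ h a b d : ↥(chevD4.group K), h * (a * (b * d)) * h⁻¹ = (h * a * h⁻¹) * ((h * b * h⁻¹) * (h * d * h⁻¹)) := by
    intro h a b d; group
  rw [e, (hb4_17 hc _).1, (hb4_17 hc _).2.1, (hb4_17 hc _).2.2]
  simp only [Units.val_mul, Units.val_inv_eq_inv_val, φu_val, map_mul, map_inv₀, mul_neg]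

end coef

/-- membership in the twisted group -/
theorem X'_T1 {c : Fin chevG2.nroots} {g : ↥(chevD4.group K)} (h : g ∈ (O4 φ).tw.X' c) : g ∈ T1 φ := TwData.X'_le_G1 _ h

variable [Fintype K] {q : ℕ} (Q : Cub q φ)

/-- the exponent -/
def ex4 (q : ℕ) : ℕ := (q ^ 2 + q + 2) / 2

theorem two_ex4 (q : ℕ) : ex4 q * 2 = q ^ 2 + q + 1 + 1 := by
  unfold ex4
  apply Nat.div_mul_cancel
  have h1 : q ^ 2 + q = q * (q + 1) := by ring
  rw [h1]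
  exact dvd_add (Nat.even_mul_succ_self q).two_dvd (dvd_refl 2)

include Q in
theorem pow_ex4 {μ : Kˣ} (hμ : NOne φ μ) : μ ^ ex4 q * μ ^ ex4 q = μ := by
  have h1 : μ ^ (q ^ 2 + q + 1) = 1 := by
    apply Units.ext
    rw [Units.val_pow_eq_pow_val, Units.val_one]
    have h2 : (μ : K) * φ μ * φ (φ μ) = 1 := hμ
    rw [Q.hφ, Q.hφ, ← pow_mul] at h2
    rw [← h2, pow_add, pow_add, pow_one, sq]
    ring
  rw [← pow_add, ← mul_two, two_ex4, pow_succ, h1, one_mul]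

omit [Fintype K] in
theorem nOne_pow {μ : Kˣ} (hμ : NOne φ μ) (n : ℕ) : NOne φ (μ ^ n) := by
  induction n with
  | zero => unfold NOne; simp
  | succ n ih => rw [pow_succ]; exact ih.mul hμ

/-- the torus -/
noncomputable def h4 (Q : Cub q φ) : Kˣ →* ↥(T1 φ) where
  toFun μ := ⟨hb4 φ (μ ^ ex4 q), (bdD4 goodD4 dD4 dG2 φ).hb_mem_G1 j0 (fx0 goodD4 dD4 dG2 φ Q.h3 _)⟩
  map_one' := Subtype.ext (by
    change hb4 φ (1 ^ ex4 q) = 1
    rw [one_pow]; exact (bdD4 goodD4 dD4 dG2 φ).hb_one j0)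
  map_mul' μ ν := Subtype.ext (by
    change hb4 φ ((μ * ν) ^ ex4 q) = hb4 φ (μ ^ ex4 q) * hb4 φ (ν ^ ex4 q)
    rw [mul_pow]; exact (bdD4 goodD4 dD4 dG2 φ).hb_mul j0 _ _)

theorem h4_coe (μ : Kˣ) : ((h4 Q μ : ↥(T1 φ)) : ↥(chevD4.group K)) = hb4 φ (μ ^ ex4 q) := rfl

open Classical in
/-- the relations of the twisted group of type D4 -/
noncomputable def t4 (Q : Cub q φ) : T4 φ ↥(T1 φ) where
  h := h4 Q
  x0 t := ⟨e0 φ t, X'_T1 (e0_X φ Q.h3 t)⟩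
  x1 t := ⟨e1 φ t, X'_T1 (e1_X φ Q.h3 t)⟩
  x2 t := ⟨e2 φ t, X'_T1 (e2_X φ Q.h3 t)⟩
  y0 v := if hv : φ v = v then ⟨xr 22 v, X'_T1 (y22_X φ hv)⟩ else 1
  y1 v := if hv : φ v = v then ⟨xr 23 v, X'_T1 (y23_X φ hv)⟩ else 1
  s0 := {
    add := fun t u => Subtype.ext (e_add φ t u).1
    act := fun μ hμ t => Subtype.ext (by
      change hb4 φ (μ ^ ex4 q) * e0 φ t * (hb4 φ (μ ^ ex4 q))⁻¹ = e0 φ (μ * t)
      rw [hb4_e0 (nOne_pow hμ _), pow_ex4 Q hμ])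
    hχ := Or.inl fun _ => rfl }
  s1 := {
    add := fun t u => Subtype.ext (e_add φ t u).2.1
    act := fun μ hμ t => Subtype.ext (by
      change hb4 φ (μ ^ ex4 q) * e1 φ t * (hb4 φ (μ ^ ex4 q))⁻¹ = e1 φ (μ * t)
      rw [hb4_e1 (nOne_pow hμ _), pow_ex4 Q hμ])
    hχ := Or.inl fun _ => rfl }
  s2 := {
    add := fun t u => Subtype.ext (e_add φ t u).2.2
    act := fun μ hμ t => Subtype.ext (by
      change hb4 φ (μ ^ ex4 q) * e2 φ t * (hb4 φ (μ ^ ex4 q))⁻¹ = e2 φ ((μ⁻¹ : Kˣ) * t)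
      rw [hb4_e2 (nOne_pow hμ _), pow_ex4 Q hμ])
    hχ := Or.inr fun _ => rfl }
  c02 t u := by
    rw [dif_pos (Tr3_fix Q (t * u))]
    exact Subtype.ext (e02 φ t u)
  c12 t u := by
    rw [dif_pos (Tr3_fix Q (t * u))]
    exact Subtype.ext (e12 φ t u)
  c01 t u := by
    obtain ⟨v, w, hv, hw, h⟩ := e01 φ Q.h3 t u
    refine ⟨v, w, hv, hw, ?_⟩
    rw [dif_pos hv, dif_pos hw]
    exact Subtype.ext h
  xy0 t v hv := by
    rw [dif_pos hv]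
    have c : ∀ {r : ℕ}, r ∈ sr4 ++ [22, 23] → ∀ t : K, Commute (xr r t) (xr 22 v) := fun hr t => commM hr (by simp) _ _
    refine ⟨Subtype.ext ?_, Subtype.ext ?_, Subtype.ext ?_⟩
    · exact ((c (by simp [sr4]) _).mul_left ((c (by simp [sr4]) _).mul_left (c (by simp [sr4]) _))).eq
    · exact ((c (by simp [sr4]) _).mul_left ((c (by simp [sr4]) _).mul_left (c (by simp [sr4]) _))).eq
    · exact ((c (by simp [sr4]) _).mul_left ((c (by simp [sr4]) _).mul_left (c (by simp [sr4]) _))).eq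
  xy1 t v hv := by
    rw [dif_pos hv]
    have c : ∀ {r : ℕ}, r ∈ sr4 ++ [22, 23] → ∀ t : K, Commute (xr r t) (xr 23 v) := fun hr t => commM hr (by simp) _ _
    refine ⟨Subtype.ext ?_, Subtype.ext ?_, Subtype.ext ?_⟩
    · exact ((c (by simp [sr4]) _).mul_left ((c (by simp [sr4]) _).mul_left (c (by simp [sr4]) _))).eq
    · exact ((c (by simp [sr4]) _).mul_left ((c (by simp [sr4]) _).mul_left (c (by simp [sr4]) _))).eq
    · exact ((c (by simp [sr4]) _).mul_left ((c (by simp [sr4]) _).mul_left (c (by simp [sr4]) _))).eq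
  inj v w hv hw h := by
    rw [dif_pos hv, dif_pos hw] at h
    exact inj_M4 (congrArg Subtype.val h)

theorem t4_x0 (t : K) : (((t4 Q).x0 t : ↥(T1 φ)) : ↥(chevD4.group K)) = e0 φ t := rfl
theorem t4_x1 (t : K) : (((t4 Q).x1 t : ↥(T1 φ)) : ↥(chevD4.group K)) = e1 φ t := rfl
theorem t4_x2 (t : K) : (((t4 Q).x2 t : ↥(T1 φ)) : ↥(chevD4.group K)) = e2 φ t := rfl
theorem t4_y0 {v : K} (hv : φ v = v) : (((t4 Q).y0 v : ↥(T1 φ)) : ↥(chevD4.group K)) = xr 22 v := by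
  have : (t4 Q).y0 v = ⟨xr 22 v, X'_T1 (y22_X φ hv)⟩ := dif_pos hv
  rw [this]
theorem t4_y1 {v : K} (hv : φ v = v) : (((t4 Q).y1 v : ↥(T1 φ)) : ↥(chevD4.group K)) = xr 23 v := by
  have : (t4 Q).y1 v = ⟨xr 23 v, X'_T1 (y23_X φ hv)⟩ := dif_pos hv
  rw [this]

end Cfsg.Agent.MulTw
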