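import Cfsg.Agent.MulTw.T4c

set_option autoImplicit false

/-!
Central extensions of the unipotent group of type triality D4: conclusion.
-/

namespace Cfsg.Agent.MulTw

open Subgroup Cfsg.Agent.Mult Cfsg.Agent.Tw3
open scoped commutatorElement

variable {K : Type*} [Field K] {φ : K ≃+* K} {Γ G : Type*} [Group Γ] [Group G]

namespace T4

variable [Fintype K] {q : ℕ} (Q : Cub q φ) {σ : Γ →* G} (C : CE σ) (D : T4 φ G)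
  (hcop : (Nat.card σ.ker).Coprime (q ^ 2 + q + 1)) {τ : Kˣ} (hτ : NOne φ τ) (hτ1 : (τ : K) ≠ 1)

/-- the unipotent group generated by the relations -/
def U : Subgroup G := closure {g | (∃ t, g = D.x0 t) ∨ (∃ t, g = D.x1 t) ∨ (∃ t, g = D.x2 t) ∨
  (∃ v, φ v = v ∧ g = D.y0 v) ∨ (∃ v, φ v = v ∧ g = D.y1 v)}

omit [Fintype K] in
theorem x0_mem (t : K) : D.x0 t ∈ D.U := subset_closure (Or.inl ⟨t, rfl⟩)
omit [Fintype K] in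
theorem x1_mem (t : K) : D.x1 t ∈ D.U := subset_closure (Or.inr (Or.inl ⟨t, rfl⟩))
omit [Fintype K] in
theorem x2_mem (t : K) : D.x2 t ∈ D.U := subset_closure (Or.inr (Or.inr (Or.inl ⟨t, rfl⟩)))
omit [Fintype K] in
theorem y0_mem {v : K} (hv : φ v = v) : D.y0 v ∈ D.U := subset_closure (Or.inr (Or.inr (Or.inr (Or.inl ⟨v, hv, rfl⟩))))
omit [Fintype K] in
theorem y1_mem {v : K} (hv : φ v = v) : D.y1 v ∈ D.U := subset_closure (Or.inr (Or.inr (Or.inr (Or.inr ⟨v, hv, rfl⟩))))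

/-- the lift of the unipotent group -/
noncomputable def S0 : Subgroup Γ :=
  D.Z0 Q C hτ hτ1 ⊔ (D.Z1 Q C hτ hτ1 ⊔ (D.Z2 Q C hτ hτ1 ⊔ D.K3 Q C))

theorem z0_S0 (t : K) : D.z0 C τ t ∈ D.S0 Q C hτ hτ1 := mem_sup_left ⟨t, rfl⟩
theorem z1_S0 (t : K) : D.z1 C τ t ∈ D.S0 Q C hτ hτ1 := mem_sup_right (mem_sup_left ⟨t, rfl⟩)
theorem z2_S0 (t : K) : D.z2 C τ t ∈ D.S0 Q C hτ hτ1 := mem_sup_right (mem_sup_right (mem_sup_left ⟨t, rfl⟩))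
theorem K3_S0 : D.K3 Q C ≤ D.S0 Q C hτ hτ1 := le_sup_right.trans (le_sup_right.trans le_sup_right)

include hcop hτ hτ1

/-- the order of the lifts of the long root groups -/
theorem card_G1 : Nat.card (D.G1 Q C) ≤ q := by
  obtain ⟨c, hc⟩ := exists_tr Q (v := (1 : K)) (map_one φ)
  refine le_trans ?_ (le_of_eq (card_fix (K := K) Q.two_le Q.hK))
  refine Nat.card_le_card_of_surjective (fun v : {v : K // v ^ q = v} => (⟨D.g1 C (v * c), ⟨_, rfl⟩⟩ : D.G1 Q C)) ?_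
  rintro ⟨_, ⟨t, rfl⟩⟩
  refine ⟨⟨Tr3 φ t, by rw [← Q.hφ]; exact Tr3_fix Q t⟩, Subtype.ext ?_⟩
  change D.g1 C (Tr3 φ t * c) = D.g1 C t
  have h1 : t = Tr3 φ t * c + (t + -(Tr3 φ t * c)) := by ring
  have h2 : Tr3 φ (t + -(Tr3 φ t * c)) = 0 := by
    have h3 : Tr3 φ (-(Tr3 φ t * c)) = -(Tr3 φ t * Tr3 φ c) := by
      have h4 := Tr3_fix Q t
      generalize Tr3 φ t = s at *
      unfold Tr3
      simp only [map_neg, map_mul, h4]; ring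
    rw [Tr3_add, h3, hc]; ring
  rw [h1, D.g1_add Q C, ← h1, D.g1_one Q C hcop h2, mul_one]

theorem card_G2 : Nat.card (D.G2 Q C) ≤ q := by
  obtain ⟨c, hc⟩ := exists_tr Q (v := (1 : K)) (map_one φ)
  refine le_trans ?_ (le_of_eq (card_fix (K := K) Q.two_le Q.hK))
  refine Nat.card_le_card_of_surjective (fun v : {v : K // v ^ q = v} => (⟨D.g2 C (v * c), ⟨_, rfl⟩⟩ : D.G2 Q C)) ?_
  rintro ⟨_, ⟨t, rfl⟩⟩
  refine ⟨⟨Tr3 φ t, by rw [← Q.hφ]; exact Tr3_fix Q t⟩, Subtype.ext ?_⟩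
  change D.g2 C (Tr3 φ t * c) = D.g2 C t
  have h1 : t = Tr3 φ t * c + (t + -(Tr3 φ t * c)) := by ring
  have h2 : Tr3 φ (t + -(Tr3 φ t * c)) = 0 := by
    have h3 : Tr3 φ (-(Tr3 φ t * c)) = -(Tr3 φ t * Tr3 φ c) := by
      have h4 := Tr3_fix Q t
      generalize Tr3 φ t = s at *
      unfold Tr3
      simp only [map_neg, map_mul, h4]; ring
    rw [Tr3_add, h3, hc]; ring
  rw [h1, D.g2_add Q C, ← h1, D.g2_one Q C hcop h2, mul_one]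

/-- the order of `S0` -/
theorem card_S0 [Finite Γ] : Nat.card (D.S0 Q C hτ hτ1) ≤ q ^ 11 := by
  have k1 : Nat.card (D.K3 Q C) ≤ q * q := by
    refine (card_sup_le ?_).trans (Nat.mul_le_mul (D.card_G1 Q C hcop hτ hτ1) (D.card_G2 Q C hcop hτ hτ1))
    rintro _ ⟨a, rfl⟩ _ ⟨b, rfl⟩
    rw [D.g12_comm Q C, mul_inv_cancel_right]
    exact ⟨b, rfl⟩
  have hZ : ∀ (f : K → Γ) (h : ∀ t u, f (t + u) = f t * f u), Nat.card (rngK f h) ≤ q ^ 3 := by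
    intro f h
    refine (card_rngK_le f h).trans ?_
    rw [Nat.card_eq_fintype_card, Q.hK]
  have k2 : Nat.card ↥(D.Z2 Q C hτ hτ1 ⊔ D.K3 Q C) ≤ q ^ 3 * (q * q) := by
    refine (card_sup_le ?_).trans (Nat.mul_le_mul (hZ _ _) k1)
    rintro _ ⟨a, rfl⟩ b hb
    rw [D.z2_K3 Q C hτ hτ1 a hb, mul_inv_cancel_right]
    exact hb
  have n1 : ∀ a ∈ D.Z1 Q C hτ hτ1, ∀ b ∈ D.Z2 Q C hτ hτ1 ⊔ D.K3 Q C, a * b * a⁻¹ ∈ D.Z2 Q C hτ hτ1 ⊔ D.K3 Q C := by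
    rintro _ ⟨t, rfl⟩ b hb
    have h1 : D.Z2 Q C hτ hτ1 ⊔ D.K3 Q C ≤ (D.Z2 Q C hτ hτ1 ⊔ D.K3 Q C).comap (MulAut.conj (D.z1 C τ t)).toMonoidHom := by
      refine sup_le ?_ ?_
      · rintro _ ⟨u, rfl⟩
        rw [mem_comap, MulEquiv.toMonoidHom_eq_coe, MonoidHom.coe_coe, MulAut.conj_apply]
        rw [D.z1_z2 Q C hcop hτ hτ1]
        exact mul_mem (mem_sup_right (D.g2_mem Q C _)) (mem_sup_left ⟨u, rfl⟩)
      · intro k hk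
        rw [mem_comap, MulEquiv.toMonoidHom_eq_coe, MonoidHom.coe_coe, MulAut.conj_apply]
        rw [D.z1_K3 Q C hτ hτ1 t hk, mul_inv_cancel_right]
        exact mem_sup_right hk
    exact h1 hb
  have k3 : Nat.card ↥(D.Z1 Q C hτ hτ1 ⊔ (D.Z2 Q C hτ hτ1 ⊔ D.K3 Q C)) ≤ q ^ 3 * (q ^ 3 * (q * q)) :=
    (card_sup_le n1).trans (Nat.mul_le_mul (hZ _ _) k2)
  have n0 : ∀ a ∈ D.Z0 Q C hτ hτ1, ∀ b ∈ D.Z1 Q C hτ hτ1 ⊔ (D.Z2 Q C hτ hτ1 ⊔ D.K3 Q C),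
      a * b * a⁻¹ ∈ D.Z1 Q C hτ hτ1 ⊔ (D.Z2 Q C hτ hτ1 ⊔ D.K3 Q C) := by
    rintro _ ⟨t, rfl⟩ b hb
    have h1 : D.Z1 Q C hτ hτ1 ⊔ (D.Z2 Q C hτ hτ1 ⊔ D.K3 Q C) ≤
        (D.Z1 Q C hτ hτ1 ⊔ (D.Z2 Q C hτ hτ1 ⊔ D.K3 Q C)).comap (MulAut.conj (D.z0 C τ t)).toMonoidHom := by
      refine sup_le ?_ (sup_le ?_ ?_)
      · rintro _ ⟨u, rfl⟩
        rw [mem_comap, MulEquiv.toMonoidHom_eq_coe, MonoidHom.coe_coe, MulAut.conj_apply]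
        obtain ⟨k, hk, e⟩ := D.cm01 Q C hcop hτ hτ1 t u
        rw [C.cm_eq_cj (D.σ_z1 C hτ hτ1 u), C.cj_apply (D.σ_z0 C hτ hτ1 t), mul_inv_eq_iff_eq_mul] at e
        rw [e]
        exact mul_mem (mul_mem (mem_sup_right (mem_sup_left ⟨_, rfl⟩)) (mem_sup_right (mem_sup_right hk)))
          (mem_sup_left ⟨u, rfl⟩)
      · rintro _ ⟨u, rfl⟩
        rw [mem_comap, MulEquiv.toMonoidHom_eq_coe, MonoidHom.coe_coe, MulAut.conj_apply]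
        rw [D.z0_z2 Q C hcop hτ hτ1]
        exact mul_mem (mem_sup_right (mem_sup_right (D.g1_mem Q C _))) (mem_sup_right (mem_sup_left ⟨u, rfl⟩))
      · intro k hk
        rw [mem_comap, MulEquiv.toMonoidHom_eq_coe, MonoidHom.coe_coe, MulAut.conj_apply]
        rw [D.z0_K3 Q C hτ hτ1 t hk, mul_inv_cancel_right]
        exact mem_sup_right (mem_sup_right hk)
    exact h1 hb
  have k4 : Nat.card (D.S0 Q C hτ hτ1) ≤ q ^ 3 * (q ^ 3 * (q ^ 3 * (q * q))) :=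
    (card_sup_le n0).trans (Nat.mul_le_mul (hZ _ _) k3)
  refine k4.trans (le_of_eq ?_)
  ring

/-- the torus normalizes `S0` -/
theorem cj_S0 {μ : Kˣ} (hμ : NOne φ μ) {s : Γ} (hs : s ∈ D.S0 Q C hτ hτ1) : C.cj (D.h μ) s ∈ D.S0 Q C hτ hτ1 := by
  have h1 : D.S0 Q C hτ hτ1 ≤ (D.S0 Q C hτ hτ1).comap (C.cj (D.h μ)).toMonoidHom := by
    refine sup_le ?_ (sup_le ?_ (sup_le ?_ ?_))
    · rintro _ ⟨u, rfl⟩
      rw [mem_comap, MulEquiv.toMonoidHom_eq_coe, MonoidHom.coe_coe]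
      rw [D.cj_z0 C hτ hτ1 hμ]
      exact D.z0_S0 Q C hτ hτ1 _
    · rintro _ ⟨u, rfl⟩
      rw [mem_comap, MulEquiv.toMonoidHom_eq_coe, MonoidHom.coe_coe]
      rw [D.cj_z1 C hτ hτ1 hμ]
      exact D.z1_S0 Q C hτ hτ1 _
    · rintro _ ⟨u, rfl⟩
      rw [mem_comap, MulEquiv.toMonoidHom_eq_coe, MonoidHom.coe_coe]
      rw [D.cj_z2 C hτ hτ1 hμ]
      exact D.z2_S0 Q C hτ hτ1 _
    · intro k hk
      rw [mem_comap, MulEquiv.toMonoidHom_eq_coe, MonoidHom.coe_coe]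
      rw [D.cj_K3 Q C hcop hτ hτ1 hμ hk]
      exact D.K3_S0 Q C hτ hτ1 hk
  exact h1 hs

omit hcop in
theorem map_S0 : D.U ≤ (D.S0 Q C hτ hτ1).map σ := by
  unfold U
  rw [closure_le]
  rintro g (⟨t, rfl⟩ | ⟨t, rfl⟩ | ⟨t, rfl⟩ | ⟨v, hv, rfl⟩ | ⟨v, hv, rfl⟩)
  · exact ⟨_, D.z0_S0 Q C hτ hτ1 t, D.σ_z0 C hτ hτ1 t⟩
  · exact ⟨_, D.z1_S0 Q C hτ hτ1 t, D.σ_z1 C hτ hτ1 t⟩
  · exact ⟨_, D.z2_S0 Q C hτ hτ1 t, D.σ_z2 C hτ hτ1 t⟩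
  · obtain ⟨t, ht⟩ := exists_tr Q hv
    exact ⟨_, D.K3_S0 Q C hτ hτ1 (D.g1_mem Q C t), by rw [D.σ_g1, ht]⟩
  · obtain ⟨t, ht⟩ := exists_tr Q hv
    exact ⟨_, D.K3_S0 Q C hτ hτ1 (D.g2_mem Q C t), by rw [D.σ_g2, ht]⟩

/-- `S0` is generated by the lifts of the short root groups -/
theorem S0_le {W : Subgroup Γ} (h0 : ∀ t, D.z0 C τ t ∈ W) (h1 : ∀ t, D.z1 C τ t ∈ W) (h2 : ∀ t, D.z2 C τ t ∈ W) :
    D.S0 Q C hτ hτ1 ≤ W := by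
  have g1W : ∀ t, D.g1 C t ∈ W := by
    intro t
    have h3 := D.z0_z2 Q C hcop hτ hτ1 1 t
    rw [one_mul] at h3
    have h4 : D.g1 C t = D.z0 C τ 1 * D.z2 C τ t * (D.z0 C τ 1)⁻¹ * (D.z2 C τ t)⁻¹ := by rw [h3]; group
    rw [h4]
    exact mul_mem (mul_mem (mul_mem (h0 _) (h2 _)) (inv_mem (h0 _))) (inv_mem (h2 _))
  have g2W : ∀ t, D.g2 C t ∈ W := by
    intro t
    have h3 := D.z1_z2 Q C hcop hτ hτ1 1 t
    rw [one_mul] at h3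
    have h4 : D.g2 C t = D.z1 C τ 1 * D.z2 C τ t * (D.z1 C τ 1)⁻¹ * (D.z2 C τ t)⁻¹ := by rw [h3]; group
    rw [h4]
    exact mul_mem (mul_mem (mul_mem (h1 _) (h2 _)) (inv_mem (h1 _))) (inv_mem (h2 _))
  refine sup_le ?_ (sup_le ?_ (sup_le ?_ (sup_le ?_ ?_)))
  · rintro _ ⟨t, rfl⟩; exact h0 t
  · rintro _ ⟨t, rfl⟩; exact h1 t
  · rintro _ ⟨t, rfl⟩; exact h2 t
  · rintro _ ⟨t, rfl⟩; exact g1W t
  · rintro _ ⟨t, rfl⟩; exact g2W t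

/-- elements centralizing the torus and normalizing the unipotent group normalize `S0` -/
theorem norm_S0 {b : Γ} (hb : σ b * D.h τ = D.h τ * σ b) (hU : ∀ u ∈ D.U, σ b * u * (σ b)⁻¹ ∈ D.U) {s : Γ}
    (hs : s ∈ D.S0 Q C hτ hτ1) : b * s * b⁻¹ ∈ D.S0 Q C hτ hτ1 := by
  have key : ∀ u ∈ D.U, C.cm (D.h τ) u ∈ D.S0 Q C hτ hτ1 := by
    intro u hu
    obtain ⟨s, hs, rfl⟩ := D.map_S0 Q C hτ hτ1 hu
    rw [C.cm_eq_cj rfl]
    exact mul_mem (D.cj_S0 Q C hcop hτ hτ1 hτ hs) (inv_mem hs)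
  have hcj : ∀ u ∈ D.U, b * C.cm (D.h τ) u * b⁻¹ ∈ D.S0 Q C hτ hτ1 := by
    intro u hu
    rw [← C.cj_σ, C.cj_cm, hb, mul_inv_cancel_right]
    exact key _ (hU u hu)
  have h1 : D.S0 Q C hτ hτ1 ≤ (D.S0 Q C hτ hτ1).comap (MulAut.conj b).toMonoidHom :=
    D.S0_le Q C hcop hτ hτ1 (fun t => hcj _ (D.x0_mem _)) (fun t => hcj _ (D.x1_mem _)) (fun t => hcj _ (D.x2_mem _))
  exact h1 hs

end T4

/-- the main theorem for the prime `p` -/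
theorem T4.false_of [Fintype K] {q : ℕ} (Q : Cub q φ) (D : T4 φ G) [Finite Γ] {σ : Γ →* G} (hσ : Cfsg.IsStemExtension σ)
    {p : ℕ} [Fact p.Prime] (hp : p ∣ q) (hcard : Nat.card σ.ker = p)
    (Xb : Subgroup G) (hXU : ∀ b ∈ Xb, ∀ u ∈ D.U, b * u * b⁻¹ ∈ D.U)
    (hXh : ∀ b ∈ Xb, ∀ μ, NOne φ μ → b * D.h μ = D.h μ * b)
    (n : G) (hn : ∀ b ∈ Xb, ∃ v, φ v = v ∧ b = n * D.y0 v * n⁻¹)
    (hidx : ¬ p ∣ (Xb ⊔ D.U).index) (hU : q ^ 12 ≤ Nat.card ↥(Xb ⊔ D.U)) : False := by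
  have C : CE σ := ⟨hσ.1, hσ.2.1⟩
  have hpp : p.Prime := Fact.out
  have hcop : (Nat.card σ.ker).Coprime (q ^ 2 + q + 1) := by
    rw [hcard, Nat.Prime.coprime_iff_not_dvd hpp]
    intro h
    have h1 : p ∣ q ^ 2 + q := dvd_add (dvd_pow hp (by norm_num)) hp
    have h2 := (Nat.dvd_add_right h1).1 h
    exact hpp.one_lt.ne' (Nat.dvd_one.1 h2)
  obtain ⟨τ, hτ, hτ1⟩ := exists_nOne Q
  -- the lift of `Xb`
  have hex : ∀ t : K, ∃ v, φ v = v ∧ σ (C.cj n (D.g1 C t)) = n * D.y0 v * n⁻¹ := fun t =>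
    ⟨Tr3 φ t, Tr3_fix Q t, by rw [C.σ_cj, D.σ_g1]⟩
  let B0 : Subgroup Γ := ((D.G1 Q C).map (C.cj n).toMonoidHom) ⊓ Xb.comap σ
  have hB0 : Xb ≤ B0.map σ := by
    intro b hb
    obtain ⟨v, hv, rfl⟩ := hn b hb
    obtain ⟨t, ht⟩ := T4.exists_tr Q hv
    refine ⟨C.cj n (D.g1 C t), ⟨⟨_, ⟨t, rfl⟩, rfl⟩, ?_⟩, by rw [C.σ_cj, D.σ_g1, ht]⟩
    change σ (C.cj n (D.g1 C t)) ∈ Xb
    rw [C.σ_cj, D.σ_g1, ht]
    exact hb
  have hB0c : Nat.card B0 ≤ q := by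
    have h1 : Nat.card B0 ≤ Nat.card ↥((D.G1 Q C).map (C.cj n).toMonoidHom) :=
      Nat.card_le_card_of_injective (Subgroup.inclusion inf_le_left) (Subgroup.inclusion_injective _)
    have h2 : Nat.card ↥((D.G1 Q C).map (C.cj n).toMonoidHom) = Nat.card (D.G1 Q C) :=
      Subgroup.card_map_of_injective (C.cj n).injective
    rw [h2] at h1
    exact h1.trans (D.card_G1 Q C hcop hτ hτ1)
  have hnorm : ∀ b ∈ B0, ∀ s ∈ D.S0 Q C hτ hτ1, b * s * b⁻¹ ∈ D.S0 Q C hτ hτ1 := by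
    intro b hb s hs
    exact D.norm_S0 Q C hcop hτ hτ1 (hXh _ hb.2 τ hτ) (hXU _ hb.2) hs
  have hL : Nat.card ↥(B0 ⊔ D.S0 Q C hτ hτ1) ≤ q ^ 12 := by
    refine (card_sup_le hnorm).trans ((Nat.mul_le_mul hB0c (D.card_S0 Q C hcop hτ hτ1)).trans (le_of_eq ?_))
    ring
  have hmap : Xb ⊔ D.U ≤ (B0 ⊔ D.S0 Q C hτ hτ1).map σ := by
    rw [Subgroup.map_sup]
    exact sup_le_sup hB0 (D.map_S0 Q C hτ hτ1)
  -- `σ` is injective on `L`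
  set L := B0 ⊔ D.S0 Q C hτ hτ1 with hLdef
  have hfinG : Finite G := Finite.of_surjective σ hσ.1
  have hinj : ∀ x ∈ L, σ x = 1 → x = 1 := by
    let f : L →* L.map σ := σ.subgroupMap L
    have hf : Function.Surjective f := σ.subgroupMap_surjective L
    have h1 : Nat.card ↥(L.map σ) ≤ Nat.card L := Nat.card_le_card_of_surjective f hf
    have h2 : Nat.card ↥(Xb ⊔ D.U) ≤ Nat.card ↥(L.map σ) :=
      Nat.card_le_card_of_injective (Subgroup.inclusion hmap) (Subgroup.inclusion_injective _)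
    have h3 : Nat.card L = Nat.card ↥(L.map σ) := by omega
    have h4 : Function.Bijective f := (Nat.bijective_iff_surjective_and_card f).2 ⟨hf, h3⟩
    intro x hx h
    have h5 : f ⟨x, hx⟩ = f 1 := Subtype.ext (by rw [map_one]; exact h)
    exact congrArg Subtype.val (h4.1 h5)
  refine Cfsg.Agent.H90.Stem.false_of_complement hσ (p := p) (by rw [hcard]) L hinj ?_
  intro h
  apply hidx
  exact h.trans (Subgroup.index_dvd_of_le hmap)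

end Cfsg.Agent.MulTw
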