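import Cfsg.Agent.MulTw.ROne
import Cfsg.Agent.Tw3.AmbInst
import Cfsg.Agent.Mult.R3

set_option autoImplicit false

/-!
Rank one relations for blocks of twisted groups.
-/

namespace Cfsg.Agent.MulTw

open Subgroup Cfsg.Agent.ChevGrp Cfsg.Agent.ChevWeyl Cfsg.Agent.Mult Cfsg.Agent.Tw3

variable {l n : ℕ} {S : WSys l n} {G F : Type*} [Group G] [Field F]

/-- the reflections act with sign `-1` on their own root groups -/
def Eta (A : Amb S G F) : Prop := ∀ i v, A.R.nn i * A.x (S.p i) v * (A.R.nn i)⁻¹ = A.x (S.neg (S.p i)) (-v) ∧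
  A.R.nn i * A.x (S.neg (S.p i)) v * (A.R.nn i)⁻¹ = A.x (S.p i) (-v)

theorem m_neg_p (A : Amb S G F) (i : Fin l) : A.m i (S.neg (S.p i)) = -2 := by
  have h1 := A.m_w i i (S.p i)
  rw [S.w_p, A.m_p] at h1
  rw [h1]; norm_num

theorem nc_conj_p {A : Amb S G F} (hA : Eta A) (i : Fin l) {t : F} (ht : t ≠ 0) (v : F) :
    A.nc i t * A.x (S.p i) v = A.x (S.neg (S.p i)) (-(t⁻¹ ^ 2 * v)) * A.nc i t := by
  obtain ⟨t, rfl⟩ : ∃ u : Fˣ, (u : F) = t := ⟨Units.mk0 t ht, rfl⟩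
  rw [← mul_inv_eq_iff_eq_mul, A.nc_eq]
  have e : A.h i t * A.R.nn i * A.x (S.p i) v * (A.h i t * A.R.nn i)⁻¹ =
      A.h i t * (A.R.nn i * A.x (S.p i) v * (A.R.nn i)⁻¹) * (A.h i t)⁻¹ := by group
  rw [e, (hA i v).1, A.h_conj, m_neg_p]
  congr 1
  have e2 : ((t ^ (-2 : ℤ) : Fˣ) : F) = (t : F)⁻¹ ^ 2 := by
    rw [zpow_neg, Units.val_inv_eq_inv_val]
    norm_cast
  rw [e2]; ring

theorem nc_conj_n {A : Amb S G F} (hA : Eta A) (i : Fin l) {t : F} (ht : t ≠ 0) (v : F) :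
    A.nc i t * A.x (S.neg (S.p i)) v = A.x (S.p i) (-(t ^ 2 * v)) * A.nc i t := by
  obtain ⟨t, rfl⟩ : ∃ u : Fˣ, (u : F) = t := ⟨Units.mk0 t ht, rfl⟩
  rw [← mul_inv_eq_iff_eq_mul, A.nc_eq]
  have e : A.h i t * A.R.nn i * A.x (S.neg (S.p i)) v * (A.h i t * A.R.nn i)⁻¹ =
      A.h i t * (A.R.nn i * A.x (S.neg (S.p i)) v * (A.R.nn i)⁻¹) * (A.h i t)⁻¹ := by group
  rw [e, (hA i v).2, A.h_conj, A.m_p]
  congr 1
  have e2 : ((t ^ (2 : ℤ) : Fˣ) : F) = (t : F) ^ 2 := by norm_cast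
  rw [e2]; ring

variable {A : Amb S G F} {l' n' : ℕ} {S' : WSys l' n'} {O : OData A S'} (Bd : BData O)

open OData BData

theorem ncL_conj_p (hA : Eta A) (j : Fin l') {t : Fin l → F} (ht : ∀ i ∈ O.L j, t i ≠ 0) (v : Fin l → F) :
    ncL (O := O) j t * O.E S.p j v = O.E (fun i => S.neg (S.p i)) j (fun i => -((t i)⁻¹ ^ 2 * v i)) *
      ncL (O := O) j t := by
  unfold ncL E
  have hx : ∀ i, ∀ c, A.x (S.p i) c ∈ A.R.Li i := fun i c => Subgroup.mem_sup_left (A.x_mem _ _)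
  have hy : ∀ i, ∀ c, A.x (S.neg (S.p i)) c ∈ A.R.Li i := fun i c => Subgroup.mem_sup_right (A.x_mem _ _)
  rw [← prod_map_mul _ _ _ (fun i hi k hk h => Li_comm hi hk h (hx i _) (nc_mem k _)) (O.L_nodup j),
    ← prod_map_mul _ _ _ (fun i hi k hk h => Li_comm hi hk h (nc_mem i _) (hy k _)) (O.L_nodup j)]
  congr 1
  exact List.map_congr_left fun i hi => nc_conj_p hA i (ht i hi) _

theorem ncL_conj_n (hA : Eta A) (j : Fin l') {t : Fin l → F} (ht : ∀ i ∈ O.L j, t i ≠ 0) (v : Fin l → F) :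
    ncL (O := O) j t * O.E (fun i => S.neg (S.p i)) j v = O.E S.p j (fun i => -((t i) ^ 2 * v i)) *
      ncL (O := O) j t := by
  unfold ncL E
  have hx : ∀ i, ∀ c, A.x (S.p i) c ∈ A.R.Li i := fun i c => Subgroup.mem_sup_left (A.x_mem _ _)
  have hy : ∀ i, ∀ c, A.x (S.neg (S.p i)) c ∈ A.R.Li i := fun i c => Subgroup.mem_sup_right (A.x_mem _ _)
  rw [← prod_map_mul _ _ _ (fun i hi k hk h => Li_comm hi hk h (hy i _) (nc_mem k _)) (O.L_nodup j),
    ← prod_map_mul _ _ _ (fun i hi k hk h => Li_comm hi hk h (nc_mem i _) (hx k _)) (O.L_nodup j)]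
  congr 1
  exact List.map_congr_left fun i hi => nc_conj_n hA i (ht i hi) _

theorem xb_ncL (j : Fin l') (t : F) : Bd.xb S.p j t * Bd.xb (fun i => S.neg (S.p i)) j (-t⁻¹) * Bd.xb S.p j t =
    ncL (O := O) j (fun i => th O (Bd.e i) t) := by
  rw [ncL_eq']
  unfold xb
  congr 2
  congr 1
  funext i
  rw [map_neg, map_inv₀]

/-- the rank one relations of a block -/
theorem xb_r1 (hA : Eta A) (j : Fin l') : R1 (fun t : F => Bd.xb S.p j t) (fun t : F => Bd.xb (fun i => S.neg (S.p i)) j t) := by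
  have hne : ∀ t : F, t ≠ 0 → ∀ i ∈ O.L j, th O (Bd.e i) t ≠ 0 := fun t ht i _ => by
    rw [ne_eq, map_eq_zero_iff _ (RingEquiv.injective _)]; exact ht
  constructor
  · intro t u; exact Bd.xb_add sel_p j t u
  · intro t u; exact Bd.xb_add sel_n j t u
  · intro t v ht
    rw [xb_ncL]
    have h1 := ncL_conj_p hA j (hne t ht) (fun i => th O (Bd.e i) v)
    unfold BData.xb
    rw [h1]
    congr 2
    funext i
    rw [map_neg, map_mul, map_pow, map_inv₀]
  · intro t v ht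
    rw [xb_ncL]
    have h1 := ncL_conj_n hA j (hne t ht) (fun i => th O (Bd.e i) v)
    unfold BData.xb
    rw [h1]
    congr 2
    funext i
    rw [map_neg, map_mul, map_pow]

/-- the field of a block -/
def FxF (j : Fin l') : Subfield F where
  carrier := {c | Bd.IsFx j c}
  mul_mem' := fun ha hb => Bd.isFx_mul ha hb
  one_mem' := Bd.isFx_one j
  add_mem' := fun {a b} ha hb => by
    have ha' : th O (Bd.sz j) a = a := ha
    have hb' : th O (Bd.sz j) b = b := hb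
    change th O (Bd.sz j) (a + b) = a + b
    rw [map_add, ha', hb']
  zero_mem' := map_zero _
  neg_mem' := fun ha => Bd.isFx_neg ha
  inv_mem' := fun _ ha => Bd.isFx_inv ha

theorem mem_FxF {j : Fin l'} {c : F} : c ∈ FxF Bd j ↔ Bd.IsFx j c := Iff.rfl

theorem r1_sub {K : Subfield F} {X Y : F → G} (h : R1 X Y) : R1 (fun t : K => X t) (fun t : K => Y t) where
  X_add t u := h.X_add t u
  Y_add t u := h.Y_add t u
  nX t v ht := by
    have := h.nX t v (by simpa using ht)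
    push_cast
    exact this
  nY t v ht := by
    have := h.nY t v (by simpa using ht)
    push_cast
    exact this

open Classical in
/-- rank one data for the twisted group -/
noncomputable def rkTw [Fintype F] (hA : Eta A) : RkData O.tw.tw (fun j => FxF Bd j) where
  X j t := Bd.xb S.p j t
  Y j t := Bd.xb (fun i => S.neg (S.p i)) j t
  r1 j := r1_sub (xb_r1 Bd hA j)
  mem_X j g := by
    change g ∈ O.tw.X' (S'.p j) ↔ _
    rw [Bd.mem_X'_p j g]
    constructor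
    · rintro ⟨c, hc, h⟩; exact ⟨⟨c, hc⟩, h⟩
    · rintro ⟨c, h⟩; exact ⟨c, c.2, h⟩
  mem_Y j g := by
    change g ∈ O.tw.X' (S'.neg (S'.p j)) ↔ _
    rw [Bd.mem_X'_n j g]
    constructor
    · rintro ⟨c, hc, h⟩; exact ⟨⟨c, hc⟩, h⟩
    · rintro ⟨c, h⟩; exact ⟨c, c.2, h⟩
  nn_eq j := by
    have h1 := Bd.nb_eq j 1
    rw [Bd.hb_one, one_mul, Units.val_one] at h1
    push_cast
    exact h1.symm
  h_mem j t ht := by
    obtain ⟨t, hmem⟩ := t
    have ht0 : t ≠ 0 := fun h => ht (Subtype.ext h)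
    obtain ⟨t, rfl⟩ : ∃ u : Fˣ, (u : F) = t := ⟨Units.mk0 t ht0, rfl⟩
    have h1 := Bd.nb_eq j t
    have h2 := Bd.nb_eq j (-1)
    have h3 : A.R.nd (O.L j) * (Bd.hb j (-1) * A.R.nd (O.L j)) = 1 := by
      have h4 := Bd.nj_sq' j
      have h5 := Bd.nj_conj_hb j (-1)
      rw [mul_inv_eq_iff_eq_mul] at h5
      have h6 : ((-1 : Fˣ)⁻¹) = -1 := by rw [inv_neg, inv_one]
      rw [h6] at h5
      rw [← mul_assoc, h5, mul_assoc, h4, ← Bd.hb_mul, neg_mul_neg, one_mul, Bd.hb_one]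
    have h7 : (r1_sub (K := FxF Bd j) (xb_r1 Bd hA j)).h ⟨(t : F), hmem⟩ = Bd.hb j t := by
      unfold R1.h R1.n
      simp only
      push_cast
      rw [h1]
      rw [Units.val_neg, Units.val_one] at h2
      rw [h2, mul_assoc, h3, mul_one]
    rw [h7]
    exact Bd.H0_le j ⟨t, hmem, rfl⟩

/-- the signs for the Chevalley groups -/
theorem amb_eta {D : Cfsg.Lie.ChevalleyDatum} (H : Cfsg.Agent.Chev.Good D) (E : DData D) (K : Type*) [Field K] :
    Eta (amb H E K) := by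
  intro i v
  have hp : ((E.rp.wsys.p i : Fin D.nroots) : ℕ) = D.simple i := E.hp i
  have hn : ((E.rp.wsys.neg (E.rp.wsys.p i) : Fin D.nroots) : ℕ) = D.neg (D.simple i) := by
    rw [← hp]; exact E.hneg _
  have hnn : (amb H E K).R.nn i = Cfsg.Agent.Chev.nG H.toGood2 (D.simple i) (1 : K) := by
    change (chevG E H K).nn i = _
    rw [chevG_nn]
  constructor
  · have h1 := Cfsg.Agent.Chev.nG_conj H.toGood2 i.2 (H.simple_lt i i.2) v
    rw [eta_simple, reflect_simple H i.2] at h1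
    change (amb H E K).R.nn i * Cfsg.Agent.Chev.xG H.toGood2 _ v * ((amb H E K).R.nn i)⁻¹ = Cfsg.Agent.Chev.xG H.toGood2 _ (-v)
    rw [hnn, hp, hn, h1]
    congr 1
    push_cast; ring
  · have h1 := Cfsg.Agent.Chev.nG_conj H.toGood2 i.2 (Cfsg.Agent.Chev.neg_lt H.toGood1 (H.simple_lt i i.2)) v
    rw [eta_neg_simple, Cfsg.Agent.Chev.w_neg H.toGood1 i.2 (H.simple_lt i i.2), reflect_simple H i.2,
      Cfsg.Agent.Chev.neg_neg H.toGood1 (H.simple_lt i i.2)] at h1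
    change (amb H E K).R.nn i * Cfsg.Agent.Chev.xG H.toGood2 _ v * ((amb H E K).R.nn i)⁻¹ = Cfsg.Agent.Chev.xG H.toGood2 _ (-v)
    rw [hnn, hp, hn, h1]
    congr 1
    push_cast; ring

end Cfsg.Agent.MulTw
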