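import Cfsg.Agent.MulTw.D4U
import Cfsg.Agent.MulTw.T4d
import Cfsg.Agent.MulTw.TwR1

set_option autoImplicit false
set_option maxRecDepth 100000

/-!
The root subgroups of the twisted group of type D4.
-/

namespace Cfsg.Agent.MulTw

open Cfsg.Lie Cfsg.Agent.Chev Cfsg.Agent.ChevGrp Cfsg.Agent.ChevGrp.DData Cfsg.Agent.ChevWeyl Cfsg.Agent.ChevTw
open Cfsg.Agent.Tw3
open scoped commutatorElement

section card

variable {l n : ℕ} {S : WSys l n} {G : Type*} [Group G] {R : RGrp S G}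

theorem card_X_act {g : G} {u : Equiv.Perm (Fin n)} (h : R.Act g u) (s : Fin n) :
    Nat.card (R.X (u s)) = Nat.card (R.X s) := by
  symm
  refine Nat.card_congr ⟨fun x => ⟨g * x * g⁻¹, h.conj x.2⟩, fun y => ⟨g⁻¹ * y * g, ?_⟩, ?_, ?_⟩
  · have := h.conj' y.2
    have e : u⁻¹ (u s) = s := u.symm_apply_apply s
    rwa [e] at this
  · intro x
    exact Subtype.ext (by simp [mul_assoc])
  · intro y
    exact Subtype.ext (by simp [mul_assoc])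

end card

variable {K : Type*} [Field K] {φ : K ≃+* K}

/-- the classes -/
abbrev c8 : Fin chevG2.nroots := ⟨8, by decide⟩
/-- the classes -/
abbrev c9 : Fin chevG2.nroots := ⟨9, by decide⟩
/-- the classes -/
abbrev c10 : Fin chevG2.nroots := ⟨10, by decide⟩
/-- the classes -/
abbrev c11 : Fin chevG2.nroots := ⟨11, by decide⟩

theorem w_tab : dG2.rp.wsys.w j1 (dG2.rp.wsys.p j0) = c8 ∧ dG2.rp.wsys.w j0 c8 = c9 ∧
    dG2.rp.wsys.w j0 (dG2.rp.wsys.p j1) = c10 := by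
  have h := isG2 dG2
  have h0 : dG2.rp.wsys.w j0 = wG2 0 := h.w_eq 0
  have h1 : dG2.rp.wsys.w j1 = wG2 1 := h.w_eq 1
  have h2 : dG2.rp.wsys.p j1 = pG2 1 := h.p_eq 1
  have h3 : dG2.rp.wsys.p j0 = pG2 0 := h.p_eq 0
  rw [h0, h1, h2, h3]
  decide

theorem pos_cases {r : Fin chevG2.nroots} (h : dG2.rp.wsys.Pos r) (hr : r ≠ dG2.rp.wsys.p j1) :
    r = dG2.rp.wsys.p j0 ∨ r = c8 ∨ r = c9 ∨ r = c10 ∨ r = c11 := by
  have h' := isG2 dG2
  have h2 : dG2.rp.wsys.p j1 = pG2 1 := h'.p_eq 1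
  have h3 : dG2.rp.wsys.p j0 = pG2 0 := h'.p_eq 0
  have h4 : 6 ≤ (r : ℕ) := (h'.pos_eq r).1 h
  rw [h2] at hr
  rw [h3]
  have key : ∀ r : Fin 12, 6 ≤ (r : ℕ) → r ≠ pG2 1 → r = pG2 0 ∨ r = (8 : Fin 12) ∨ r = (9 : Fin 12) ∨ r = (10 : Fin 12) ∨
      r = (11 : Fin 12) := by
    decide
  exact key r h4 hr

theorem pos_tab : dG2.rp.wsys.Pos (dG2.rp.wsys.p j0) ∧ dG2.rp.wsys.Pos c8 ∧ dG2.rp.wsys.Pos c9 ∧ dG2.rp.wsys.Pos c10 ∧
    dG2.rp.wsys.Pos c11 ∧ dG2.rp.wsys.p j0 ≠ dG2.rp.wsys.p j1 ∧ c8 ≠ dG2.rp.wsys.p j1 ∧ c9 ≠ dG2.rp.wsys.p j1 ∧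
    c10 ≠ dG2.rp.wsys.p j1 ∧ c11 ≠ dG2.rp.wsys.p j1 := by
  have h' := isG2 dG2
  have h2 : dG2.rp.wsys.p j1 = pG2 1 := h'.p_eq 1
  have h3 : dG2.rp.wsys.p j0 = pG2 0 := h'.p_eq 0
  rw [h2, h3]
  refine ⟨(h'.pos_eq _).2 (by decide), (h'.pos_eq _).2 (by decide), (h'.pos_eq _).2 (by decide), (h'.pos_eq _).2 (by decide),
    (h'.pos_eq _).2 (by decide), ?_, ?_, ?_, ?_, ?_⟩
  · exact (by decide : pG2 0 ≠ pG2 1)
  · exact (by decide : (8 : Fin 12) ≠ pG2 1)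
  · exact (by decide : (9 : Fin 12) ≠ pG2 1)
  · exact (by decide : (10 : Fin 12) ≠ pG2 1)
  · exact (by decide : (11 : Fin 12) ≠ pG2 1)

section fixedclass

/-- elements of one element classes -/
theorem X_single {c : Fin chevG2.nroots} {r : ℕ} (hr : r < 24) (hc : ∀ s < 24, cD4 s = (c : ℕ) → s = r)
    (hw : wv gpD4_1 r = r) (hg : gs gpD4_1 r = 1) {g : ↥(chevD4.group K)} (h : g ∈ (O4 φ).tw.X' c) :
    ∃ v, φ v = v ∧ g = xr r v := by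
  rw [TwData.mem_X'] at h
  obtain ⟨hx, hσ⟩ := h
  have h1 : g ∈ (amb goodD4 dD4 K).R.X (⟨r, hr⟩ : Fin chevD4.nroots) := by
    have : gen (amb goodD4 dD4 K).R.X (fun s => (O4 φ).tw.cls s = c) ≤
        (amb goodD4 dD4 K).R.X (⟨r, hr⟩ : Fin chevD4.nroots) := by
      rw [gen_le]
      intro s hs
      have h2 : cD4 s = (c : ℕ) := congrArg Fin.val hs
      have h4 : s = (⟨r, hr⟩ : Fin chevD4.nroots) := Fin.ext (hc s s.2 h2)
      rw [h4]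
    exact this hx
  obtain ⟨v, hv⟩ := ((amb goodD4 dD4 K).mem_X _ _).1 h1
  have hv' : xr r v = g := hv
  have hv1 : (O4 φ).σ (xr r v) = xr r (φ v) := by
    rw [σ_xr φ hr, hw, hg, Int.cast_one, one_mul]
  refine ⟨v, ?_, hv'.symm⟩
  have h5 : (O4 φ).σ g = g := hσ
  rw [← hv', hv1] at h5
  exact ((amb goodD4 dD4 K).x_eq_iff (⟨r, hr⟩ : Fin chevD4.nroots) _ _).1 h5

theorem X10_mem {g : ↥(chevD4.group K)} (h : g ∈ (O4 φ).tw.X' c10) : ∃ v, φ v = v ∧ g = xr 22 v := by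
  obtain ⟨a1, a2, a3, a4, a5, a6, a7, a8⟩ := rho_tab
  exact X_single (by norm_num) (fun s hs => (cls_tab s hs).2.1) a4 a8 h

theorem X11_mem {g : ↥(chevD4.group K)} (h : g ∈ (O4 φ).tw.X' c11) : ∃ v, φ v = v ∧ g = xr 23 v := by
  obtain ⟨a1, a2, a3, a4, a5, a6, a7, a8⟩ := tabR
  exact X_single (by norm_num) (fun s hs => (cls_tab2 s hs).2.1.1) a4 a8 h

theorem X6_mem {g : ↥(chevD4.group K)} (h : g ∈ (O4 φ).tw.X' (dG2.rp.wsys.p j1)) : ∃ v, φ v = v ∧ g = xr 14 v := by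
  obtain ⟨c, hc, hg⟩ := ((bdD4 goodD4 dD4 dG2 φ).mem_X'_p j1 _).1 h
  rw [xbp1] at hg
  exact ⟨c, hc, hg.symm⟩

theorem X7_mem {g : ↥(chevD4.group K)} (h : g ∈ (O4 φ).tw.X' (dG2.rp.wsys.p j0)) : ∃ v, g = e0 φ v := by
  obtain ⟨c, hc, hg⟩ := ((bdD4 goodD4 dD4 dG2 φ).mem_X'_p j0 _).1 h
  exact ⟨c, by rw [e0_eq]; exact hg.symm⟩

end fixedclass

variable [Fintype K] {q : ℕ} (Q : Cub q φ)
include Q

theorem e1_inj {t : K} (h : e1 φ t = 1) : t = 0 := by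
  by_contra ht
  obtain ⟨c, hc⟩ := T4.exists_tr Q (v := (1 : K)) (map_one φ)
  have h1 := e12 φ t (t⁻¹ * c)
  rw [h, commutatorElement_one_left, mul_inv_cancel_left₀ ht, hc] at h1
  exact one_ne_zero (xr_inj (by norm_num) h1.symm)

theorem e2_inj {t : K} (h : e2 φ t = 1) : t = 0 := by
  by_contra ht
  obtain ⟨c, hc⟩ := T4.exists_tr Q (v := (1 : K)) (map_one φ)
  have h1 := e12 φ (c * t⁻¹) t
  rw [h, commutatorElement_one_right, inv_mul_cancel_right₀ ht, hc] at h1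
  exact one_ne_zero (xr_inj (by norm_num) h1.symm)

omit [Fintype K] Q in
theorem inj_of_add {G : Type*} [Group G] {f : K → G} (ha : ∀ x y, f (x + y) = f x * f y)
    (h : ∀ t, f t = 1 → t = 0) : Function.Injective f := by
  intro x y hxy
  have h1 : f (x + -y) = 1 := by
    rw [ha, hxy, ← ha, add_neg_cancel]
    have := ha 0 0
    rw [add_zero] at this
    exact mul_eq_left.1 this.symm
  have := h _ h1
  linear_combination this

theorem card_c8 : Nat.card ((O4 φ).tw.X' c8) = q ^ 3 := by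
  have h1 := card_X_act (R := (O4 φ).tw.tw) (RGrp.act_nn j1) (dG2.rp.wsys.p j0)
  rw [w_tab.1] at h1
  exact h1.trans (card_X0 φ Q.h3 Q.hK)

theorem card_c9 : Nat.card ((O4 φ).tw.X' c9) = q ^ 3 := by
  have h1 := card_X_act (R := (O4 φ).tw.tw) (RGrp.act_nn j0) c8
  rw [w_tab.2.1] at h1
  exact h1.trans (card_c8 Q)

theorem X_range {c : Fin chevG2.nroots} (hc : Nat.card ((O4 φ).tw.X' c) = q ^ 3) {f : K → ↥(chevD4.group K)}
    (hm : ∀ t, f t ∈ (O4 φ).tw.X' c) (ha : ∀ x y, f (x + y) = f x * f y)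
    (h : ∀ t, f t = 1 → t = 0) {g : ↥(chevD4.group K)} (hg : g ∈ (O4 φ).tw.X' c) : ∃ t, g = f t := by
  have hfin : Finite ↥((O4 φ).tw.X' c) := Nat.finite_of_card_ne_zero (by
    rw [hc]; exact pow_ne_zero _ (by have := Q.two_le; omega))
  have hinj : Function.Injective (fun t : K => (⟨f t, hm t⟩ : ↥((O4 φ).tw.X' c))) := by
    intro x y hxy
    exact inj_of_add ha h (congrArg Subtype.val hxy)
  have hb := (Nat.bijective_iff_injective_and_card (fun t : K => (⟨f t, hm t⟩ : ↥((O4 φ).tw.X' c)))).2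
    ⟨hinj, by rw [hc, Nat.card_eq_fintype_card, Q.hK]⟩
  obtain ⟨t, ht⟩ := hb.2 ⟨g, hg⟩
  exact ⟨t, (congrArg Subtype.val ht).symm⟩

theorem X8_mem {g : ↥(chevD4.group K)} (h : g ∈ (O4 φ).tw.X' c8) : ∃ t, g = e1 φ t :=
  X_range Q (card_c8 Q) (fun t => e1_X φ Q.h3 t) (fun x y => (e_add φ x y).2.1) (fun _ => e1_inj Q) h

theorem X9_mem {g : ↥(chevD4.group K)} (h : g ∈ (O4 φ).tw.X' c9) : ∃ t, g = e2 φ t :=
  X_range Q (card_c9 Q) (fun t => e2_X φ Q.h3 t) (fun x y => (e_add φ x y).2.2) (fun _ => e2_inj Q) h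

end Cfsg.Agent.MulTw
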