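import Cfsg.Agent.MulTw.D4V

set_option autoImplicit false
set_option maxRecDepth 100000

/-!
The defining characteristic part of the multiplier of the twisted group of type D4.
-/

namespace Cfsg.Agent.MulTw

open Cfsg.Lie Cfsg.Agent.Chev Cfsg.Agent.ChevGrp Cfsg.Agent.ChevGrp.DData Cfsg.Agent.ChevWeyl Cfsg.Agent.ChevTw
open Cfsg.Agent.Tw3
open scoped commutatorElement

variable {K : Type*} [Field K] (φ : K ≃+* K)

/-- the system of root subgroups in the twisted group -/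
noncomputable def R4 : RGrp dG2.rp.wsys ↥(T1 φ) :=
  (O4 φ).tw.tw.restr (T1 φ) (fun r => TwData.X'_le_G1 r) (fun j => (O4 φ).tw.nj_G1 j) inf_le_right

variable {φ}

theorem mem_R4 {r : Fin chevG2.nroots} {g : ↥(T1 φ)} : g ∈ (R4 φ).X r ↔ (g : ↥(chevD4.group K)) ∈ (O4 φ).tw.X' r := Iff.rfl

theorem card_X_R4 (r : Fin chevG2.nroots) : Nat.card ((R4 φ).X r) = Nat.card ((O4 φ).tw.X' r) :=
  Nat.card_congr (Subgroup.subgroupOfEquivOfLe (TwData.X'_le_G1 r)).toEquiv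

variable [Fintype K] {q : ℕ} (Q : Cub q φ)
include Q

theorem t4_U : (t4 Q).U = (R4 φ).Ui j1 := by
  obtain ⟨p0, p8, p9, p10, p11, n0, n8, n9, n10, n11⟩ := pos_tab
  apply le_antisymm
  · unfold T4.U
    rw [Subgroup.closure_le]
    rintro g (⟨t, rfl⟩ | ⟨t, rfl⟩ | ⟨t, rfl⟩ | ⟨v, hv, rfl⟩ | ⟨v, hv, rfl⟩)
    · exact RGrp.X_le_Ui _ p0 n0 (mem_R4.2 (e0_X φ Q.h3 t))
    · exact RGrp.X_le_Ui _ p8 n8 (mem_R4.2 (e1_X φ Q.h3 t))
    · exact RGrp.X_le_Ui _ p9 n9 (mem_R4.2 (e2_X φ Q.h3 t))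
    · exact RGrp.X_le_Ui _ p10 n10 (mem_R4.2 (by rw [t4_y0 Q hv]; exact y22_X φ hv))
    · exact RGrp.X_le_Ui _ p11 n11 (mem_R4.2 (by rw [t4_y1 Q hv]; exact y23_X φ hv))
  · unfold RGrp.Ui
    rw [gen_le]
    rintro r ⟨h1, h2⟩ g hg
    rcases pos_cases h1 h2 with rfl | rfl | rfl | rfl | rfl
    · obtain ⟨v, hv⟩ := X7_mem (mem_R4.1 hg)
      have : g = (t4 Q).x0 v := Subtype.ext hv
      rw [this]; exact (t4 Q).x0_mem v
    · obtain ⟨v, hv⟩ := X8_mem Q (mem_R4.1 hg)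
      have : g = (t4 Q).x1 v := Subtype.ext hv
      rw [this]; exact (t4 Q).x1_mem v
    · obtain ⟨v, hv⟩ := X9_mem Q (mem_R4.1 hg)
      have : g = (t4 Q).x2 v := Subtype.ext hv
      rw [this]; exact (t4 Q).x2_mem v
    · obtain ⟨v, hv, e⟩ := X10_mem (mem_R4.1 hg)
      have : g = (t4 Q).y0 v := Subtype.ext (by rw [t4_y0 Q hv]; exact e)
      rw [this]; exact (t4 Q).y0_mem hv
    · obtain ⟨v, hv, e⟩ := X11_mem (mem_R4.1 hg)
      have : g = (t4 Q).y1 v := Subtype.ext (by rw [t4_y1 Q hv]; exact e)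
      rw [this]; exact (t4 Q).y1_mem hv

theorem card_R4_U : Nat.card (R4 φ).U = q ^ 12 := by
  have h1 : Nat.card (R4 φ).U = (q ^ 3) ^ 3 * q ^ 3 :=
    card_U_G2 (isG2 dG2) (R4 φ) ((card_X_R4 _).trans (card_X0 φ Q.h3 Q.hK)) ((card_X_R4 _).trans (card_X1 φ Q.hφ Q.two_le Q.hK))
  rw [h1]; ring

theorem card_T1 : Nat.card ↥(T1 φ) = q ^ 12 * (q ^ 2 - 1) * (q ^ 6 - 1) * (q ^ 8 + q ^ 4 + 1) := by
  rw [← card_D4 Q.hq Q.hK]
  have h1 : T1 φ = (twistedD4 K q).subgroupOf (chevD4.group K) := hG_D4 φ Q.hφ Q.h3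
  rw [h1]
  exact Nat.card_congr (Subgroup.subgroupOfEquivOfLe hle_D4).toEquiv

omit [Fintype K] Q in
theorem not_dvd_sub_one {p x : ℕ} (hp : p.Prime) (h : p ∣ x) (hx : 1 ≤ x) : ¬ p ∣ x - 1 := by
  intro h1
  have h2 : x = (x - 1) + 1 := by omega
  rw [h2] at h
  exact hp.one_lt.ne' (Nat.dvd_one.1 ((Nat.dvd_add_right h1).1 h))

theorem index_R4_U {p : ℕ} (hp : p.Prime) (hpq : p ∣ q) : ¬ p ∣ ((R4 φ).U).index := by
  have h1 := (R4 φ).U.index_mul_card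
  rw [card_R4_U Q, card_T1 Q] at h1
  have hq : 2 ≤ q := Q.two_le
  have hq0 : q ^ 12 ≠ 0 := pow_ne_zero _ (by omega)
  have h2 : ((R4 φ).U).index = (q ^ 2 - 1) * (q ^ 6 - 1) * (q ^ 8 + q ^ 4 + 1) := by
    apply mul_right_cancel₀ hq0
    rw [h1]; ring
  rw [h2]
  intro h
  have hd : ∀ n, n ≠ 0 → p ∣ q ^ n := fun n hn => dvd_pow hpq hn
  rcases (hp.dvd_mul).1 h with h | h
  · rcases (hp.dvd_mul).1 h with h | h
    · exact not_dvd_sub_one hp (hd 2 (by norm_num)) (Nat.one_le_pow _ _ (by omega)) h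
    · exact not_dvd_sub_one hp (hd 6 (by norm_num)) (Nat.one_le_pow _ _ (by omega)) h
  · have h3 : p ∣ q ^ 8 + q ^ 4 := dvd_add (hd 8 (by norm_num)) (hd 4 (by norm_num))
    exact hp.one_lt.ne' (Nat.dvd_one.1 ((Nat.dvd_add_right h3).1 h))

/-- the defining characteristic part -/
theorem D4_p {Γ : Type*} [Group Γ] [Finite Γ] {σ : Γ →* ↥(T1 φ)} (hσ : Cfsg.IsStemExtension σ) {p : ℕ} (hpp : p.Prime)
    (hp : p ∣ q) (hcard : Nat.card σ.ker = p) : False := by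
  have : Fact p.Prime := ⟨hpp⟩
  have hU : (R4 φ).X (dG2.rp.wsys.p j1) ⊔ (t4 Q).U = (R4 φ).U := by
    rw [t4_U Q]; exact (RGrp.U_eq j1).symm
  refine T4.false_of Q (t4 Q) hσ hp hcard ((R4 φ).X (dG2.rp.wsys.p j1)) ?_ ?_ ((R4 φ).nn j0)⁻¹ ?_ ?_ ?_
  · intro b hb u hu
    rw [t4_U] at hu ⊢
    exact (R4 φ).XU j1 b hb u hu
  · intro b hb μ hμ
    obtain ⟨v, hv, e⟩ := X6_mem (mem_R4.1 hb)
    apply Subtype.ext
    change (b : ↥(chevD4.group K)) * hb4 φ (μ ^ ex4 q) = hb4 φ (μ ^ ex4 q) * b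
    rw [e]
    have h1 := hb4_14 (nOne_pow hμ (ex4 q)) v
    rw [mul_inv_eq_iff_eq_mul] at h1
    exact h1.symm
  · intro b hb
    have h1 := (R4 φ).nn_X j0 _ b hb
    rw [w_tab.2.2] at h1
    obtain ⟨v, hv, e⟩ := X10_mem (mem_R4.1 h1)
    refine ⟨v, hv, ?_⟩
    have h2 : (R4 φ).nn j0 * b * ((R4 φ).nn j0)⁻¹ = (t4 Q).y0 v := Subtype.ext (by rw [t4_y0 Q hv]; exact e)
    rw [← h2]; group
  · rw [hU]; exact index_R4_U Q hpp hp
  · rw [hU, card_R4_U Q]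

end Cfsg.Agent.MulTw
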