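import Cfsg.Agent.H90.StemTools
import Cfsg.Agent.Schur.Basic

set_option autoImplicit false

/-!
Splitting of the lift of a Sylow subgroup by torus actions.
-/

namespace Cfsg.Agent.MulTw.PSp

open Subgroup
open scoped Pointwise

variable {Γ G : Type*} [Group Γ] [Group G]

/-- a chain of subgroups acted on by a commutative subgroup `T` -/
structure Chn (G : Type*) [Group G] where
  N : ℕ
  X : ℕ → Subgroup G
  W : ℕ → Subgroup G
  T : Subgroup G
  hT : ∀ a ∈ T, ∀ b ∈ T, a * b = b * a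
  TX : ∀ k < N, ∀ h ∈ T, ∀ x ∈ X k, h * x * h⁻¹ ∈ X k
  W_N : W N = ⊥
  W_eq : ∀ k < N, W k = X k ⊔ W (k + 1)
  XW : ∀ k < N, ∀ x ∈ X k, ∀ w ∈ W (k + 1), x * w * x⁻¹ ∈ W (k + 1)
  XW_int : ∀ k < N, ∀ x ∈ X k, x ∈ W (k + 1) → x = 1
  hfp : ∀ k < N, ∃ h ∈ T, ∀ y ∈ X k, ∃ x ∈ X k, h * x * h⁻¹ * x⁻¹ = y
  hkill : ∀ i < N, ∀ j < N, i < j → ∃ h ∈ T, (∀ x ∈ X i, h * x = x * h) ∧
    ∀ y ∈ X j, ∃ x ∈ X j, h * x * h⁻¹ * x⁻¹ = y

/-- the canonical complement over an abelian piece -/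
theorem exists_split [Finite G] {σ : Γ →* G} (hs : Function.Surjective σ) (hc : σ.ker ≤ center Γ) {T X : Subgroup G}
    (hT : ∀ a ∈ T, ∀ b ∈ T, a * b = b * a) (TX : ∀ h ∈ T, ∀ x ∈ X, h * x * h⁻¹ ∈ X)
    (hfp : ∃ h ∈ T, ∀ y ∈ X, ∃ x ∈ X, h * x * h⁻¹ * x⁻¹ = y)
    (hab : ∀ x y : Γ, σ x ∈ X → σ y ∈ X → x * y = y * x) :
    ∃ Y : Subgroup Γ, (∀ y ∈ Y, σ y ∈ X) ∧ (∀ x ∈ X, ∃ y ∈ Y, σ y = x) ∧ (∀ y ∈ Y, σ y = 1 → y = 1) ∧
      ∀ t, σ t ∈ T → ∀ y ∈ Y, t * y * t⁻¹ ∈ Y := by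
  obtain ⟨h, hh, hsur⟩ := hfp
  obtain ⟨t, rfl⟩ := hs h
  have hcX : ∀ x, σ x ∈ X → σ (t * x * t⁻¹ * x⁻¹) ∈ X := by
    intro x hx
    rw [map_mul, map_mul, map_mul, map_inv, map_inv]
    exact mul_mem (TX _ hh _ hx) (inv_mem hx)
  have hmul : ∀ x y, σ x ∈ X → σ y ∈ X → (t * x * t⁻¹ * x⁻¹) * (t * y * t⁻¹ * y⁻¹) = t * (x * y) * t⁻¹ * (x * y)⁻¹ := by
    intro x y hx hy
    have h1 := hab x (t * y * t⁻¹ * y⁻¹) hx (hcX y hy)
    have e : t * (x * y) * t⁻¹ * (x * y)⁻¹ = t * x * t⁻¹ * ((t * y * t⁻¹ * y⁻¹) * x⁻¹) := by group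
    rw [e]
    have h2 : (t * y * t⁻¹ * y⁻¹) * x⁻¹ = x⁻¹ * (t * y * t⁻¹ * y⁻¹) := by
      rw [mul_inv_eq_iff_eq_mul, mul_assoc x⁻¹, ← h1, inv_mul_cancel_left]
    rw [h2]; group
  have hcen : ∀ z, σ z = 1 → ∀ g, g * z = z * g := fun z hz g => mem_center_iff.1 (hc hz) g
  let Y : Subgroup Γ :=
    { carrier := {g | ∃ x, σ x ∈ X ∧ g = t * x * t⁻¹ * x⁻¹}
      one_mem' := ⟨1, by rw [map_one]; exact one_mem _, by group⟩
      mul_mem' := by
        rintro _ _ ⟨x, hx, rfl⟩ ⟨y, hy, rfl⟩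
        exact ⟨x * y, by rw [map_mul]; exact mul_mem hx hy, hmul x y hx hy⟩
      inv_mem' := by
        rintro _ ⟨x, hx, rfl⟩
        have hx' : σ x⁻¹ ∈ X := by rw [map_inv]; exact inv_mem hx
        refine ⟨x⁻¹, hx', ?_⟩
        rw [inv_eq_iff_mul_eq_one, hmul x x⁻¹ hx hx']
        group }
  refine ⟨Y, ?_, ?_, ?_, ?_⟩
  · rintro _ ⟨x, hx, rfl⟩
    exact hcX x hx
  · intro x hx
    obtain ⟨y, hy, e⟩ := hsur x hx
    obtain ⟨y', rfl⟩ := hs y
    exact ⟨_, ⟨y', hy, rfl⟩, by rw [map_mul, map_mul, map_mul, map_inv, map_inv]; exact e⟩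
  · rintro _ ⟨x, hx, rfl⟩ h1
    let f : X → X := fun y => ⟨σ t * y * (σ t)⁻¹ * (y : G)⁻¹, mul_mem (TX _ hh _ y.2) (inv_mem y.2)⟩
    have hf : Function.Surjective f := by
      rintro ⟨y, hy⟩
      obtain ⟨x, hx, e⟩ := hsur y hy
      exact ⟨⟨x, hx⟩, Subtype.ext e⟩
    have hf' : Function.Injective f := Finite.injective_iff_surjective.2 hf
    have h2 : f ⟨σ x, hx⟩ = f 1 := by
      apply Subtype.ext
      change σ t * σ x * (σ t)⁻¹ * (σ x)⁻¹ = σ t * 1 * (σ t)⁻¹ * (1 : G)⁻¹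
      rw [map_mul, map_mul, map_mul, map_inv, map_inv] at h1
      rw [h1]; group
    have h3 : σ x = 1 := congrArg Subtype.val (hf' h2)
    have h4 := hcen x h3 t
    rw [h4]; group
  · rintro s hs' _ ⟨x, hx, rfl⟩
    refine ⟨s * x * s⁻¹, by rw [map_mul, map_mul, map_inv]; exact TX _ hs' _ hx, ?_⟩
    have h1 : σ (t⁻¹ * (s * t * s⁻¹)) = 1 := by
      rw [map_mul, map_inv, map_mul, map_mul, map_inv, hT _ hs' _ hh]; group
    have h2 := hcen _ h1
    set z := t⁻¹ * (s * t * s⁻¹) with hz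
    have h3 : s * t * s⁻¹ = t * z := by rw [hz]; group
    have h4 : s * (t * x * t⁻¹ * x⁻¹) * s⁻¹ = (s * t * s⁻¹) * (s * x * s⁻¹) * (s * t * s⁻¹)⁻¹ * (s * x * s⁻¹)⁻¹ := by group
    rw [h4, h3]
    set y := s * x * s⁻¹
    have h5 : t * z * y * (t * z)⁻¹ = t * y * t⁻¹ := by
      rw [mul_inv_rev]
      calc t * z * y * (z⁻¹ * t⁻¹) = t * (z * y) * z⁻¹ * t⁻¹ := by group
        _ = t * y * t⁻¹ := by rw [← h2 y]; group
    rw [h5]

/-- the main theorem -/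
theorem false_of_chain [Finite Γ] {σ : Γ →* G} (hσ : Cfsg.IsStemExtension σ) {p : ℕ} [Fact p.Prime]
    (hp : p ∣ Nat.card σ.ker) (C : Chn G)
    (hab : ∀ k < C.N, ∀ x y : Γ, σ x ∈ C.X k → σ y ∈ C.X k → x * y = y * x) (hidx : ¬ p ∣ (C.W 0).index) : False := by
  classical
  have hfinG : Finite G := Finite.of_surjective σ hσ.1
  have hs := hσ.1
  have hc := hσ.2.1
  have hcen : ∀ z, σ z = 1 → ∀ g, g * z = z * g := fun z hz g => mem_center_iff.1 (hc hz) g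
  have hY : ∀ k, ∃ Y : Subgroup Γ, k < C.N → (∀ y ∈ Y, σ y ∈ C.X k) ∧ (∀ x ∈ C.X k, ∃ y ∈ Y, σ y = x) ∧
      (∀ y ∈ Y, σ y = 1 → y = 1) ∧ ∀ t, σ t ∈ C.T → ∀ y ∈ Y, t * y * t⁻¹ ∈ Y := by
    intro k
    by_cases hk : k < C.N
    · obtain ⟨Y, h⟩ := exists_split hs hc C.hT (C.TX k hk) (C.hfp k hk) (hab k hk)
      exact ⟨Y, fun _ => h⟩
    · exact ⟨⊥, fun h => absurd h hk⟩
  choose Y hY using hY
  let V : ℕ → Subgroup Γ := fun k => ⨆ j : {j // k ≤ j ∧ j < C.N}, Y j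
  have hle : ∀ k j, k ≤ j → j < C.N → Y j ≤ V k := fun k j h1 h2 => le_iSup (fun j : {j // k ≤ j ∧ j < C.N} => Y j) ⟨j, h1, h2⟩
  have hVle : ∀ k (S : Subgroup Γ), (∀ j, k ≤ j → j < C.N → Y j ≤ S) → V k ≤ S := fun k S h =>
    iSup_le fun j => h j j.2.1 j.2.2
  have hVT : ∀ k, ∀ t, σ t ∈ C.T → ∀ y ∈ V k, t * y * t⁻¹ ∈ V k := by
    intro k t ht y hy
    have h1 : V k ≤ (V k).comap (MulAut.conj t).toMonoidHom := by
      refine hVle k _ fun j h1 h2 y hy => ?_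
      exact hle k j h1 h2 ((hY j h2).2.2.2 t ht y hy)
    exact h1 hy
  have hVs : ∀ k, k < C.N → V k = Y k ⊔ V (k + 1) := by
    intro k hk
    apply le_antisymm
    · refine hVle k _ fun j h1 h2 => ?_
      rcases Nat.eq_or_lt_of_le h1 with h | h
      · subst h; exact le_sup_left
      · exact (hle (k + 1) j h h2).trans le_sup_right
    · refine sup_le (hle k k le_rfl hk) (hVle _ _ fun j h1 h2 => hle k j (by omega) h2)
  have hVN : V C.N = ⊥ := by
    apply le_antisymm _ bot_le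
    exact hVle _ _ fun j h1 h2 => absurd h2 (by omega)
  have key : ∀ m k, k + m = C.N → (V k).map σ = C.W k ∧ ∀ v ∈ V k, σ v = 1 → v = 1 := by
    intro m
    induction m with
    | zero =>
      intro k hk
      have hk' : k = C.N := by omega
      subst hk'
      rw [hVN, Subgroup.map_bot, C.W_N]
      exact ⟨rfl, fun v hv _ => mem_bot.1 hv⟩
    | succ m ih =>
      intro k hk
      have hkN : k < C.N := by omega
      obtain ⟨ih1, ih2⟩ := ih (k + 1) (by omega)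
      obtain ⟨y1, y2, y3, y4⟩ := hY k hkN
      -- `Y k` normalizes `V (k + 1)`
      have hnorm : ∀ x ∈ Y k, ∀ v ∈ V (k + 1), x * v * x⁻¹ ∈ V (k + 1) := by
        intro x hx
        have h1 : V (k + 1) ≤ (V (k + 1)).comap (MulAut.conj x).toMonoidHom := by
          refine hVle _ _ fun j hj1 hj2 z hz => ?_
          obtain ⟨z1, z2, z3, z4⟩ := hY j hj2
          obtain ⟨h, hh, hcomm, hsur⟩ := C.hkill k hkN j hj2 (by omega)
          obtain ⟨t, rfl⟩ := hs h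
          -- `t` commutes with `x`
          have htx : t * x * t⁻¹ = x := by
            have h2 : x⁻¹ * (t * x * t⁻¹) ∈ Y k := mul_mem (inv_mem hx) (y4 t hh x hx)
            have h3 := y3 _ h2 (by
              rw [map_mul, map_inv, map_mul, map_mul, map_inv, hcomm _ (y1 x hx)]; group)
            exact (inv_mul_eq_one.1 h3).symm
          obtain ⟨y, hy, e⟩ := hsur (σ z) (z1 z hz)
          obtain ⟨y', hy', rfl⟩ := z2 y hy
          have hz' : z = t * y' * t⁻¹ * y'⁻¹ := by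
            have h2 : z⁻¹ * (t * y' * t⁻¹ * y'⁻¹) ∈ Y j :=
              mul_mem (inv_mem hz) (mul_mem (z4 t hh y' hy') (inv_mem hy'))
            have h3 := z3 _ h2 (by
              rw [map_mul, map_inv, map_mul, map_mul, map_mul, map_inv, map_inv, e, inv_mul_cancel])
            exact inv_mul_eq_one.1 h3
          -- the conjugate of `y'`
          have hw : σ (x * y' * x⁻¹) ∈ C.W (k + 1) := by
            rw [map_mul, map_mul, map_inv]
            refine C.XW k hkN _ (y1 x hx) _ ?_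
            rw [← ih1]
            exact ⟨y', hle _ j hj1 hj2 hy', rfl⟩
          rw [← ih1] at hw
          obtain ⟨v, hv, hve⟩ := hw
          have hzc : σ (v⁻¹ * (x * y' * x⁻¹)) = 1 := by rw [map_mul, map_inv, hve, inv_mul_cancel]
          have hzc' := hcen _ hzc
          set ζ := v⁻¹ * (x * y' * x⁻¹) with hζ
          have e1 : x * y' * x⁻¹ = v * ζ := by rw [hζ]; group
          have e2 : x * z * x⁻¹ = t * (x * y' * x⁻¹) * t⁻¹ * (x * y' * x⁻¹)⁻¹ := by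
            rw [hz']
            have e3 : x * t = t * x := by rw [← mul_inv_eq_iff_eq_mul.1 htx]
            have e4 : x * t⁻¹ = t⁻¹ * x := by
              rw [mul_inv_eq_iff_eq_mul, mul_assoc, e3, inv_mul_cancel_left]
            calc x * (t * y' * t⁻¹ * y'⁻¹) * x⁻¹ = (x * t) * y' * t⁻¹ * y'⁻¹ * x⁻¹ := by group
              _ = t * x * y' * t⁻¹ * y'⁻¹ * x⁻¹ := by rw [e3]
              _ = t * x * y' * x⁻¹ * (x * t⁻¹) * y'⁻¹ * x⁻¹ := by group
              _ = t * x * y' * x⁻¹ * (t⁻¹ * x) * y'⁻¹ * x⁻¹ := by rw [e4]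
              _ = _ := by group
          have e5 : x * z * x⁻¹ = t * v * t⁻¹ * v⁻¹ := by
            rw [e2, e1, mul_inv_rev]
            calc t * (v * ζ) * t⁻¹ * (ζ⁻¹ * v⁻¹) = t * v * (ζ * t⁻¹) * ζ⁻¹ * v⁻¹ := by group
              _ = _ := by rw [← hzc' t⁻¹]; group
          change x * z * x⁻¹ ∈ V (k + 1)
          rw [e5]
          exact mul_mem (hVT _ t hh v hv) (inv_mem hv)
        intro v hv
        exact h1 hv
      refine ⟨?_, ?_⟩
      · rw [hVs k hkN, Subgroup.map_sup, ih1, C.W_eq k hkN]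
        congr 1
        ext x
        constructor
        · rintro ⟨y, hy, rfl⟩; exact y1 y hy
        · intro hx
          obtain ⟨y, hy, e⟩ := y2 x hx
          exact ⟨y, hy, e⟩
      · intro v hv h1
        rw [hVs k hkN] at hv
        have hN : Y k ≤ Subgroup.normalizer (V (k + 1) : Set Γ) := by
          intro x hx
          rw [Subgroup.mem_normalizer_iff]
          intro v
          constructor
          · exact hnorm x hx v
          · intro h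
            have h2 := hnorm x⁻¹ (inv_mem hx) _ h
            have e : x⁻¹ * (x * v * x⁻¹) * x⁻¹⁻¹ = v := by group
            rwa [e] at h2
        obtain ⟨x, hx, w, hw, rfl⟩ : ∃ x ∈ Y k, ∃ w ∈ V (k + 1), x * w = v := by
          have h3 : (↑(Y k ⊔ V (k + 1)) : Set Γ) = (Y k : Set Γ) * (V (k + 1) : Set Γ) :=
            Subgroup.coe_mul_of_left_le_normalizer_right _ _ hN
          have h4 : v ∈ (Y k : Set Γ) * (V (k + 1) : Set Γ) := by rw [← h3]; exact hv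
          obtain ⟨x, hx, w, hw, e⟩ := h4
          exact ⟨x, hx, w, hw, e⟩
        rw [map_mul] at h1
        have h2 : σ x = (σ w)⁻¹ := eq_inv_of_mul_eq_one_left h1
        have h3 : σ w ∈ C.W (k + 1) := by rw [← ih1]; exact ⟨w, hw, rfl⟩
        have h4 : σ x = 1 := C.XW_int k hkN _ (y1 x hx) (by rw [h2]; exact inv_mem h3)
        have h5 : σ w = 1 := by rw [h4, one_mul] at h1; exact h1
        rw [y3 x hx h4, ih2 w hw h5, one_mul]
  obtain ⟨k1, k2⟩ := key C.N 0 (by omega)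
  refine Cfsg.Agent.H90.Stem.false_of_complement hσ (p := p) hp (V 0) k2 ?_
  rw [k1]; exact hidx

end Cfsg.Agent.MulTw.PSp
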