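import Cfsg.Agent.MulTw.E6T
import Cfsg.Agent.MulTw.PSplit

set_option autoImplicit false
set_option maxRecDepth 100000

/-!
The chain of subgroups of the unipotent subgroup of the twisted group of type E6.
-/

namespace Cfsg.Agent.MulTw.E6

open Cfsg.Lie Cfsg.Agent.Chev Cfsg.Agent.ChevGrp Cfsg.Agent.ChevGrp.DData Cfsg.Agent.ChevWeyl Cfsg.Agent.ChevTw
open Cfsg.Agent.Tw3
open scoped Pointwise

section gnl

variable {D : ChevalleyDatum} (H : Good D) (E : DData D) {K : Type*} [Field K]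

/-- root subgroups of level zero normalize positive root subgroups of positive level -/
theorem norm_fn (a : ℕ → ℤ) {P : Fin D.nroots → Prop}
    (hP : ∀ s : Fin D.nroots, P s ↔ 0 < Grade.fn D (fun _ => 1) s ∧ 0 < Grade.fn D a s)
    {r : Fin D.nroots} (hr : Grade.fn D a r = 0) (hr1 : 0 < Grade.fn D (fun _ => 1) r) :
    ∀ x ∈ (chevG E H K).X r, ∀ u ∈ gen (chevG E H K).X P, x * u * x⁻¹ ∈ gen (chevG E H K).X P := by
  intro x hx u hu
  rw [gen_chevG, Subgroup.mem_subgroupOf] at hu ⊢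
  have h1 : ∀ s : Fin D.nroots, P s → s ≠ r ∧ (s : ℕ) ≠ D.neg r ∧
      ∀ (u : Fin D.nroots) (a b : ℕ), 0 < a → 0 < b →
        (∀ j < D.rank, vec D u j = (a : ℤ) * vec D r j + (b : ℤ) * vec D s j) → P u := by
    intro s hs
    have h2 := (hP s).1 hs
    refine ⟨?_, ?_, ?_⟩
    · rintro rfl
      omega
    · intro h
      have h3 := h2.2
      rw [h, Grade.fn_neg H a r.2, hr] at h3
      omega
    · intro u c d hc hd h3
      have hc' : (0 : ℤ) < c := by exact_mod_cast hc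
      have hd' : (0 : ℤ) < d := by exact_mod_cast hd
      rw [hP]
      constructor
      · rw [Grade.fn_lin _ h3]
        have := h2.1
        positivity
      · rw [Grade.fn_lin a h3, hr, mul_zero, zero_add]
        have := h2.2
        positivity
  exact Inst.norm_gen H h1 (x := (x : GL D.Idx K)) hx _ hu

/-- two commuting families -/
theorem gen_comm {n : ℕ} {G : Type*} [Group G] {X : Fin n → Subgroup G} {P Q : Fin n → Prop}
    (h : ∀ r, P r → ∀ s, Q s → ∀ x ∈ X r, ∀ y ∈ X s, x * y = y * x) :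
    ∀ x ∈ gen X P, ∀ y ∈ gen X Q, x * y = y * x := by
  have h1 : gen X P ≤ Subgroup.centralizer (gen X Q : Set G) := by
    rw [gen_le]
    intro r hr x hx
    rw [Subgroup.mem_centralizer_iff]
    have h2 : gen X Q ≤ Subgroup.centralizer {x} := by
      rw [gen_le]
      intro s hs y hy
      rw [Subgroup.mem_centralizer_iff]
      rintro _ rfl
      exact h r hr s hs _ hx y hy
    intro y hy
    exact (Subgroup.mem_centralizer_iff.1 (h2 hy) x rfl).symm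
  intro x hx y hy
  exact (Subgroup.mem_centralizer_iff.1 (h1 hx) y hy).symm

/-- fixed points of an automorphism and surjectivity of a commutator map -/
theorem fix_surj {A : Type*} [Group A] [Finite A] (σ : A ≃* A) (Q : Subgroup A) (hσQ : ∀ x ∈ Q, σ x ∈ Q) {h : A}
    (hh : σ h = h) (hD : ∀ y ∈ Q, ∃ x ∈ Q, h * x * h⁻¹ * x⁻¹ = y) (hm : ∀ x ∈ Q, h * x * h⁻¹ * x⁻¹ ∈ Q) :
    ∀ y ∈ Q, σ y = y → ∃ x ∈ Q, σ x = x ∧ h * x * h⁻¹ * x⁻¹ = y := by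
  intro y hy hσ
  obtain ⟨x, hx, e⟩ := hD y hy
  refine ⟨x, hx, ?_, e⟩
  let f : Q → Q := fun x => ⟨h * x * h⁻¹ * (x : A)⁻¹, hm _ x.2⟩
  have hf : Function.Surjective f := by
    rintro ⟨y, hy⟩
    obtain ⟨x, hx, e⟩ := hD y hy
    exact ⟨⟨x, hx⟩, Subtype.ext e⟩
  have hf' : Function.Injective f := Finite.injective_iff_surjective.2 hf
  have h1 : f ⟨σ x, hσQ x hx⟩ = f ⟨x, hx⟩ := by
    apply Subtype.ext
    change h * σ x * h⁻¹ * (σ x)⁻¹ = h * x * h⁻¹ * x⁻¹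
    rw [e]
    have h2 := congrArg σ e
    rw [map_mul, map_mul, map_mul, map_inv, map_inv, hh, hσ] at h2
    exact h2
  exact congrArg Subtype.val (hf' h1)

end gnl

variable (K : Type*) [Field K]

/-- the ambient group -/
noncomputable abbrev AE : Amb dE6.rp.wsys ↥(chevE6.group K) K := amb goodE6 dE6 K

/-- the group of a class -/
noncomputable def Qc (k : ℕ) : Subgroup ↥(chevE6.group K) := gen (AE K).R.X (fun s => 36 ≤ (s : ℕ) ∧ idx s = k)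
/-- the group of the classes from `k` on -/
noncomputable def Mc (k : ℕ) : Subgroup ↥(chevE6.group K) := gen (AE K).R.X (fun s => 36 ≤ (s : ℕ) ∧ k ≤ idx s)

theorem Mc_eq (k : ℕ) : Mc K k = Qc K k ⊔ Mc K (k + 1) := by
  apply le_antisymm
  · unfold Mc Qc
    rw [gen_le]
    rintro r ⟨h1, h2⟩ x hx
    rcases Nat.eq_or_lt_of_le h2 with h | h
    · exact Subgroup.mem_sup_left (mem_gen (P := fun s : Fin chevE6.nroots => 36 ≤ (s : ℕ) ∧ idx s = k) ⟨h1, h.symm⟩ hx)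
    · exact Subgroup.mem_sup_right (mem_gen (P := fun s : Fin chevE6.nroots => 36 ≤ (s : ℕ) ∧ k + 1 ≤ idx s) ⟨h1, h⟩ hx)
  · refine sup_le (gen_mono ?_) (gen_mono ?_)
    · rintro r ⟨h1, h2⟩; exact ⟨h1, h2.ge⟩
    · rintro r ⟨h1, h2⟩; exact ⟨h1, by omega⟩

theorem Mc_24 : Mc K 24 = ⊥ := by
  apply le_antisymm _ bot_le
  unfold Mc
  rw [gen_le]
  rintro r ⟨h1, h2⟩
  have := (cls_of_idx r r.2 h1).1
  omega

theorem Mc_0 : Mc K 0 = (AE K).R.U := by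
  apply le_antisymm
  · exact gen_mono fun r hr => (posE6_iff dE6 r).2 hr.1
  · exact gen_mono fun r hr => ⟨(posE6_iff dE6 r).1 hr, Nat.zero_le _⟩

variable {K}

theorem X_norm {k : ℕ} (hk : k < 24) {r : Fin chevE6.nroots} (h1 : 36 ≤ (r : ℕ)) (h2 : idx r = k) :
    ∀ x ∈ (AE K).R.X r, ∀ u ∈ Mc K (k + 1), x * u * x⁻¹ ∈ Mc K (k + 1) := by
  refine norm_fn goodE6 dE6 (aK k) (P := fun s => 36 ≤ (s : ℕ) ∧ k + 1 ≤ idx s) ?_ ?_ ?_
  · intro s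
    rw [pos_spec s s.2]
    constructor
    · rintro ⟨h3, h4⟩; exact ⟨h3, (fn_spec k hk s s.2 h3).1.2 h4⟩
    · rintro ⟨h3, h4⟩; exact ⟨h3, (fn_spec k hk s s.2 h3).1.1 h4⟩
  · exact (fn_spec k hk r r.2 h1).2 h2
  · exact (pos_spec r r.2).2 h1

theorem Q_le_norm {k : ℕ} (hk : k < 24) : Qc K k ≤ Subgroup.normalizer (Mc K (k + 1) : Set ↥(chevE6.group K)) := by
  unfold Qc
  rw [gen_le]
  rintro r ⟨h1, h2⟩ x hx
  rw [Subgroup.mem_normalizer_iff]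
  intro u
  constructor
  · exact X_norm hk h1 h2 x hx u
  · intro h
    have h3 := X_norm hk h1 h2 x⁻¹ (inv_mem hx) _ h
    have e : x⁻¹ * (x * u * x⁻¹) * x⁻¹⁻¹ = u := by group
    rwa [e] at h3

theorem Q_norm {k : ℕ} (hk : k < 24) {x u : ↥(chevE6.group K)} (hx : x ∈ Qc K k) (hu : u ∈ Mc K (k + 1)) :
    x * u * x⁻¹ ∈ Mc K (k + 1) :=
  (Subgroup.mem_normalizer_iff.1 (Q_le_norm hk hx) u).1 hu

theorem Q_inf {k : ℕ} (hk : k < 24) {x : ↥(chevE6.group K)} (hx : x ∈ Qc K k) (hx' : x ∈ Mc K (k + 1)) : x = 1 := by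
  refine LU_gen goodE6 dE6 (aK k) (P := fun s => 36 ≤ (s : ℕ) ∧ k + 1 ≤ idx s) (Q := fun s => 36 ≤ (s : ℕ) ∧ idx s = k)
    ?_ ?_ x (Subgroup.mem_sup_left hx) hx'
  · rintro s ⟨h1, h2⟩; exact (fn_spec k hk s s.2 h1).1.2 h2
  · rintro s ⟨h1, h2⟩; exact (fn_spec k hk s s.2 h1).2 h2

variable (φ : K ≃+* K)

theorem rho_pos (r : Fin chevE6.nroots) : 36 ≤ ((O6 φ).tw.ρ r : ℕ) ↔ 36 ≤ (r : ℕ) := by
  rw [← posE6_iff dE6, ← posE6_iff dE6]
  exact TwData.pos_ρ (T := (O6 φ).tw) r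

theorem rho_idx (r : Fin chevE6.nroots) : idx ((O6 φ).tw.ρ r) = idx r := by
  unfold idx
  have := congrArg Fin.val ((O6 φ).tw.cls_ρ r)
  have h : cE6 ((O6 φ).tw.ρ r) = cE6 r := this
  rw [h]

theorem σ_Q {k : ℕ} {x : ↥(chevE6.group K)} (hx : x ∈ Qc K k) : (O6 φ).tw.σ x ∈ Qc K k :=
  TwData.σ_gen (T := (O6 φ).tw) (fun r hr => ⟨(rho_pos φ r).2 hr.1, by rw [rho_idx]; exact hr.2⟩) hx

theorem σ_M {k : ℕ} {x : ↥(chevE6.group K)} (hx : x ∈ Mc K k) : (O6 φ).tw.σ x ∈ Mc K k :=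
  TwData.σ_gen (T := (O6 φ).tw) (fun r hr => ⟨(rho_pos φ r).2 hr.1, by rw [rho_idx]; exact hr.2⟩) hx

/-- decomposition of the fixed points -/
theorem fix_dec {k : ℕ} (hk : k < 24) {g : ↥(chevE6.group K)} (hg : g ∈ Mc K k) (hσ : (O6 φ).tw.σ g = g) :
    ∃ x ∈ Qc K k, (O6 φ).tw.σ x = x ∧ ∃ m ∈ Mc K (k + 1), (O6 φ).tw.σ m = m ∧ g = x * m := by
  rw [Mc_eq] at hg
  obtain ⟨x, hx, m, hm, rfl⟩ : ∃ x ∈ Qc K k, ∃ m ∈ Mc K (k + 1), x * m = g := by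
    have h3 : (↑(Qc K k ⊔ Mc K (k + 1)) : Set ↥(chevE6.group K)) =
        (Qc K k : Set ↥(chevE6.group K)) * (Mc K (k + 1) : Set ↥(chevE6.group K)) :=
      Subgroup.coe_mul_of_left_le_normalizer_right _ _ (Q_le_norm hk)
    have h4 : g ∈ (Qc K k : Set ↥(chevE6.group K)) * (Mc K (k + 1) : Set ↥(chevE6.group K)) := by rw [← h3]; exact hg
    obtain ⟨x, hx, w, hw, e⟩ := h4
    exact ⟨x, hx, w, hw, e⟩
  rw [map_mul] at hσ
  have h1 : x⁻¹ * (O6 φ).tw.σ x = m * ((O6 φ).tw.σ m)⁻¹ := by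
    rw [eq_mul_inv_iff_mul_eq, mul_assoc, hσ]; group
  have h2 : x⁻¹ * (O6 φ).tw.σ x = 1 :=
    Q_inf hk (mul_mem (inv_mem hx) (σ_Q φ hx)) (by rw [h1]; exact mul_mem hm (inv_mem (σ_M φ hm)))
  have h3 : (O6 φ).tw.σ x = x := (inv_mul_eq_one.1 h2).symm
  have h4 : (O6 φ).tw.σ m = m := by rw [h2] at h1; exact (mul_inv_eq_one.1 h1.symm).symm
  exact ⟨x, hx, h3, m, hm, h4, rfl⟩

/-- the class group is the group of a class -/
theorem Qc_eq {k : ℕ} (hk : k < 24) : Qc K k = gen (AE K).R.X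
    (fun s => (O6 φ).tw.cls s = ⟨ordE k, (ordE_spec k hk).2.1⟩) := by
  unfold Qc
  congr 1
  funext s
  apply propext
  have h1 : (O6 φ).tw.cls s = ⟨ordE k, (ordE_spec k hk).2.1⟩ ↔ cE6 s = ordE k := Fin.ext_iff
  rw [h1]
  constructor
  · rintro ⟨h2, h3⟩
    rw [← (cls_of_idx s s.2 h2).2, h3]
  · intro h
    have h2 : 36 ≤ (s : ℕ) := by
      rw [cE6_pos s s.2, h]; exact (ordE_spec k hk).1
    refine ⟨h2, ?_⟩
    unfold idx
    rw [h]; exact (ordE_spec k hk).2.2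

theorem Q_fix {k : ℕ} (hk : k < 24) {x : ↥(chevE6.group K)} : (x ∈ Qc K k ∧ (O6 φ).tw.σ x = x) ↔
    x ∈ (O6 φ).tw.X' ⟨ordE k, (ordE_spec k hk).2.1⟩ := by
  rw [TwData.mem_X', Qc_eq φ hk]

theorem Q_G1 {k : ℕ} (hk : k < 24) {x : ↥(chevE6.group K)} (hx : x ∈ Qc K k) (hσ : (O6 φ).tw.σ x = x) : x ∈ T6 φ :=
  TwData.X'_le_G1 _ ((Q_fix φ hk).1 ⟨hx, hσ⟩)

/-- the class group is commutative -/
theorem Q_comm {k : ℕ} (hk : k < 24) : ∀ x ∈ Qc K k, ∀ y ∈ Qc K k, x * y = y * x := by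
  apply gen_comm
  rintro r ⟨hr1, hr2⟩ s ⟨hs1, hs2⟩ x hx y hy
  obtain ⟨t, rfl⟩ := ((AE K).mem_X r x).1 hx
  obtain ⟨u, rfl⟩ := ((AE K).mem_X s y).1 hy
  by_cases h : r = s
  · subst h
    rw [← (AE K).x_add, ← (AE K).x_add, add_comm]
  · have m1 := mem_mb r r.2 hr1
    have m2 := mem_mb s s.2 hs1
    rw [hr2] at m1
    rw [hs2] at m2
    have hne : (r : ℕ) ≠ s := fun e => h (Fin.ext e)
    obtain ⟨h1, h2⟩ := mb_comm k hk r m1 s m2 hne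
    exact xG_comm goodE6 r.2 s.2 (Ne.symm hne) h1 h2 t u

theorem Q_conj {k : ℕ} {h : ↥(chevE6.group K)} (hh : h ∈ (AE K).R.H) {x : ↥(chevE6.group K)} (hx : x ∈ Qc K k) :
    h * x * h⁻¹ ∈ Qc K k :=
  conj_gen (fun _ hr y hy => mem_gen hr ((AE K).R.H_X h hh _ y hy)) x hx

theorem M_conj {k : ℕ} {h : ↥(chevE6.group K)} (hh : h ∈ (AE K).R.H) {x : ↥(chevE6.group K)} (hx : x ∈ Mc K k) :
    h * x * h⁻¹ ∈ Mc K k :=
  conj_gen (fun _ hr y hy => mem_gen hr ((AE K).R.H_X h hh _ y hy)) x hx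

/-- torus elements with trivial characters centralize the class group -/
theorem Q_cent {k : ℕ} {h : ↥(chevE6.group K)}
    (hc : ∀ s : Fin chevE6.nroots, (s : ℕ) ∈ mb k → ∀ t, h * (AE K).x s t * h⁻¹ = (AE K).x s t) :
    ∀ x ∈ Qc K k, h * x = x * h := by
  have h1 : Qc K k ≤ Subgroup.centralizer {h} := by
    unfold Qc
    rw [gen_le]
    rintro s ⟨h1, h2⟩ x hx
    obtain ⟨t, rfl⟩ := ((AE K).mem_X s x).1 hx
    rw [Subgroup.mem_centralizer_iff]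
    rintro _ rfl
    have := hc s (by rw [← h2]; exact mem_mb s s.2 h1) t
    rwa [mul_inv_eq_iff_eq_mul] at this
  intro x hx
  exact Subgroup.mem_centralizer_iff.1 (h1 hx) h rfl

/-- torus elements with nontrivial characters act without fixed points -/
theorem Q_surj {k : ℕ} (hk : k < 24) {h : ↥(chevE6.group K)} (hh : h ∈ (AE K).R.H)
    (hc : ∀ s : Fin chevE6.nroots, (s : ℕ) ∈ mb k → ∃ c : K, c ≠ 1 ∧ ∀ t, h * (AE K).x s t * h⁻¹ = (AE K).x s (c * t)) :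
    ∀ y ∈ Qc K k, ∃ x ∈ Qc K k, h * x * h⁻¹ * x⁻¹ = y := by
  have hmul : ∀ x ∈ Qc K k, ∀ y ∈ Qc K k, (h * x * h⁻¹ * x⁻¹) * (h * y * h⁻¹ * y⁻¹) = h * (x * y) * h⁻¹ * (x * y)⁻¹ := by
    intro x hx y hy
    have h1 := Q_comm hk x hx (h * y * h⁻¹ * y⁻¹) (mul_mem (Q_conj hh hy) (inv_mem hy))
    have e : h * (x * y) * h⁻¹ * (x * y)⁻¹ = h * x * h⁻¹ * ((h * y * h⁻¹ * y⁻¹) * x⁻¹) := by group
    rw [e]
    have h2 : (h * y * h⁻¹ * y⁻¹) * x⁻¹ = x⁻¹ * (h * y * h⁻¹ * y⁻¹) := by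
      rw [mul_inv_eq_iff_eq_mul, mul_assoc x⁻¹, ← h1, inv_mul_cancel_left]
    rw [h2]; group
  let S : Subgroup ↥(chevE6.group K) :=
    { carrier := {y | ∃ x ∈ Qc K k, h * x * h⁻¹ * x⁻¹ = y}
      one_mem' := ⟨1, one_mem _, by group⟩
      mul_mem' := by
        rintro _ _ ⟨x, hx, rfl⟩ ⟨y, hy, rfl⟩
        exact ⟨x * y, mul_mem hx hy, (hmul x hx y hy).symm⟩
      inv_mem' := by
        rintro _ ⟨x, hx, rfl⟩
        refine ⟨x⁻¹, inv_mem hx, ?_⟩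
        have h1 := hmul x hx x⁻¹ (inv_mem hx)
        rw [eq_inv_iff_mul_eq_one]
        have h2 := hmul x⁻¹ (inv_mem hx) x hx
        rw [h2]; group }
  have h1 : Qc K k ≤ S := by
    unfold Qc
    rw [gen_le]
    rintro s ⟨h1, h2⟩ y hy
    obtain ⟨u, rfl⟩ := ((AE K).mem_X s y).1 hy
    obtain ⟨c, hc1, hc2⟩ := hc s (by rw [← h2]; exact mem_mb s s.2 h1)
    have hc0 : c - 1 ≠ 0 := sub_ne_zero.2 hc1
    refine ⟨(AE K).x s ((c - 1)⁻¹ * u), mem_gen (P := fun s : Fin chevE6.nroots => 36 ≤ (s : ℕ) ∧ idx s = k) ⟨h1, h2⟩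
      ((AE K).x_mem _ _), ?_⟩
    rw [hc2, ← (AE K).x_neg, ← (AE K).x_add]
    congr 1
    field_simp
    ring
  intro y hy
  exact h1 hy

end Cfsg.Agent.MulTw.E6
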