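import Cfsg.Agent.MulTw.E6K

set_option autoImplicit false
set_option maxRecDepth 100000
set_option linter.unusedSectionVars false

/-!
The chain of subgroups in the twisted group of type E6.
-/

namespace Cfsg.Agent.MulTw.E6

open Cfsg.Lie Cfsg.Agent.Chev Cfsg.Agent.ChevGrp Cfsg.Agent.ChevGrp.DData Cfsg.Agent.ChevWeyl Cfsg.Agent.ChevTw
open Cfsg.Agent.Tw3 Cfsg.Agent.MulTw.PSp

variable {K : Type*} [Field K] [Fintype K] {q : ℕ} {φ : K ≃+* K} (Q : Qud q φ) (hq2 : q ≠ 2)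

theorem mem_fx {g : ↥(chevE6.group K)} : g ∈ (O6 φ).tw.Fx ↔ (O6 φ).tw.σ g = g := Iff.rfl

theorem T6_fix {g : ↥(chevE6.group K)} (hg : g ∈ T6 φ) : (O6 φ).tw.σ g = g := TwData.G1_le_Fx (T := (O6 φ).tw) hg

/-- class subgroups of the twisted group -/
noncomputable def Xt (φ : K ≃+* K) (k : ℕ) : Subgroup ↥(T6 φ) := (Qc K k).subgroupOf (T6 φ)
/-- unipotent subgroups of the twisted group -/
noncomputable def Wt (φ : K ≃+* K) (k : ℕ) : Subgroup ↥(T6 φ) := (Mc K k).subgroupOf (T6 φ)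

theorem mem_Xt {k : ℕ} {g : ↥(T6 φ)} : g ∈ Xt φ k ↔ (g : ↥(chevE6.group K)) ∈ Qc K k := Iff.rfl
theorem mem_Wt {k : ℕ} {g : ↥(T6 φ)} : g ∈ Wt φ k ↔ (g : ↥(chevE6.group K)) ∈ Mc K k := Iff.rfl

theorem surj_Xt {k : ℕ} (hk : k < 24) {h : ↥(chevE6.group K)} (hh : h ∈ (O6 φ).tw.tw.H)
    (hs : ∀ y ∈ Qc K k, ∃ x ∈ Qc K k, h * x * h⁻¹ * x⁻¹ = y) (hG : h ∈ T6 φ) :
    ∀ y ∈ Xt φ k, ∃ x ∈ Xt φ k, (⟨h, hG⟩ : ↥(T6 φ)) * x * (⟨h, hG⟩ : ↥(T6 φ))⁻¹ * x⁻¹ = y := by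
  intro y hy
  have hfin : Finite ↥(chevE6.group K) := inferInstance
  obtain ⟨x, hx, hσ, e⟩ := fix_surj (O6 φ).tw.σ (Qc K k) (fun x hx => σ_Q φ hx) (T6_fix hG) hs
    (fun x hx => mul_mem (Q_conj hh.1 hx) (inv_mem hx)) y hy (T6_fix y.2)
  exact ⟨⟨x, Q_G1 φ hk hx hσ⟩, hx, Subtype.ext e⟩

include Q hq2 in
/-- the chain -/
noncomputable def chn : Chn ↥(T6 φ) where
  N := 24
  X := Xt φ
  W := Wt φ
  T := ((O6 φ).tw.tw.H).subgroupOf (T6 φ)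
  hT a ha b hb := Subtype.ext ((AE K).H_comm ha.1 hb.1)
  TX k _ h hh x hx := Q_conj (K := K) (h := (h : ↥(chevE6.group K))) hh.1 hx
  W_N := by
    rw [Subgroup.eq_bot_iff_forall]
    intro g hg
    rw [mem_Wt, Mc_24, Subgroup.mem_bot] at hg
    exact Subtype.ext hg
  W_eq k hk := by
    apply le_antisymm
    · intro g hg
      obtain ⟨x, hx, hσ, m, hm, hσm, e⟩ := fix_dec φ hk hg (T6_fix g.2)
      have hxG := Q_G1 φ hk hx hσ
      have hmG : m ∈ T6 φ := by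
        have e0 : (g : ↥(chevE6.group K)) = x * m := e
        have : m = x⁻¹ * g := by rw [e0]; group
        rw [this]; exact mul_mem (inv_mem hxG) g.2
      have e' : g = (⟨x, hxG⟩ : ↥(T6 φ)) * ⟨m, hmG⟩ := Subtype.ext e
      rw [e']
      exact mul_mem (Subgroup.mem_sup_left hx) (Subgroup.mem_sup_right hm)
    · refine sup_le ?_ ?_
      · intro g hg
        rw [mem_Wt, Mc_eq]
        exact Subgroup.mem_sup_left hg
      · intro g hg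
        rw [mem_Wt, Mc_eq]
        exact Subgroup.mem_sup_right hg
  XW k hk x hx w hw := Q_norm hk hx hw
  XW_int k hk x hx hx' := Subtype.ext (Q_inf hk hx hx')
  hfp k hk := by
    obtain ⟨h, hh, hs⟩ := exists_fp Q hq2 hk
    exact ⟨⟨h, hh.2⟩, hh, surj_Xt hk hh hs hh.2⟩
  hkill i hi j hj hij := by
    obtain ⟨h, hh, hc, hs⟩ := exists_kill Q hq2 hi hj hij
    exact ⟨⟨h, hh.2⟩, hh, fun x hx => Subtype.ext (hc x hx), surj_Xt hj hh hs hh.2⟩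

theorem Wt_0 : Wt φ 0 = ((O6 φ).tw.tw.U).subgroupOf (T6 φ) := by
  ext g
  rw [mem_Wt, Mc_0, Subgroup.mem_subgroupOf, TwData.tw_U]
  exact ⟨fun h => ⟨h, g.2⟩, fun h => h.1⟩

include Q in
theorem card_T6 : Nat.gcd 3 (q + 1) * Nat.card ↥(T6 φ) =
    q ^ 36 * (q ^ 2 - 1) * (q ^ 5 + 1) * (q ^ 6 - 1) * (q ^ 8 - 1) * (q ^ 9 + 1) * (q ^ 12 - 1) := by
  rw [← card_E6 dF4 (instE6 K) φ Q.h2 Q.hφ Q.two_le Q.hK, hG_E6 φ Q.hφ Q.h2]
  congr 1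
  exact Nat.card_congr (Subgroup.subgroupOfEquivOfLe hle_E6).toEquiv

include Q in
theorem card_Wt : Nat.card ↥(Wt φ 0) = q ^ 36 := by
  rw [Wt_0]
  have hle : (O6 φ).tw.tw.U ≤ T6 φ := by rw [TwData.tw_U]; exact inf_le_right
  rw [Nat.card_congr (Subgroup.subgroupOfEquivOfLe hle).toEquiv, card_tw_U φ Q.hφ Q.h2]
  exact card_U_E6 dF4 (instE6 K) φ Q.h2 Q.hφ Q.two_le Q.hK

include Q in
theorem index_Wt {p : ℕ} (hp : p.Prime) (hpq : p ∣ q) : ¬ p ∣ (Wt φ 0).index := by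
  have h1 := (Wt φ 0).index_mul_card
  have h2 := card_T6 Q
  rw [card_Wt Q] at h1
  rw [← h1] at h2
  have hq : 2 ≤ q := Q.two_le
  have hq0 : q ^ 36 ≠ 0 := pow_ne_zero _ (by omega)
  have h3 : Nat.gcd 3 (q + 1) * (Wt φ 0).index =
      (q ^ 2 - 1) * (q ^ 5 + 1) * (q ^ 6 - 1) * (q ^ 8 - 1) * (q ^ 9 + 1) * (q ^ 12 - 1) := by
    apply mul_right_cancel₀ hq0
    rw [mul_assoc, h2]; ring
  intro h
  have h4 : p ∣ (q ^ 2 - 1) * (q ^ 5 + 1) * (q ^ 6 - 1) * (q ^ 8 - 1) * (q ^ 9 + 1) * (q ^ 12 - 1) := by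
    rw [← h3]; exact h.mul_left _
  have hd : ∀ n, n ≠ 0 → p ∣ q ^ n := fun n hn => dvd_pow hpq hn
  have hp1 : ∀ n, n ≠ 0 → ¬ p ∣ q ^ n - 1 := fun n hn =>
    not_dvd_sub_one hp (hd n hn) (Nat.one_le_pow _ _ (by omega))
  have hp2 : ∀ n, n ≠ 0 → ¬ p ∣ q ^ n + 1 := by
    intro n hn h
    exact hp.one_lt.ne' (Nat.dvd_one.1 ((Nat.dvd_add_right (hd n hn)).1 h))
  rcases (hp.dvd_mul).1 h4 with h | h
  · rcases (hp.dvd_mul).1 h with h | h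
    · rcases (hp.dvd_mul).1 h with h | h
      · rcases (hp.dvd_mul).1 h with h | h
        · rcases (hp.dvd_mul).1 h with h | h
          · exact hp1 2 (by norm_num) h
          · exact hp2 5 (by norm_num) h
        · exact hp1 6 (by norm_num) h
      · exact hp1 8 (by norm_num) h
    · exact hp2 9 (by norm_num) h
  · exact hp1 12 (by norm_num) h

end Cfsg.Agent.MulTw.E6
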