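import Cfsg.Agent.MulTw.E6D

set_option autoImplicit false
set_option maxRecDepth 100000
set_option linter.unusedSectionVars false

/-!
The defining characteristic part of the multiplier of the twisted group of type E6.
-/

namespace Cfsg.Agent.MulTw.E6

open Cfsg.Lie Cfsg.Agent.Chev Cfsg.Agent.ChevGrp Cfsg.Agent.ChevGrp.DData Cfsg.Agent.ChevWeyl Cfsg.Agent.ChevTw
open Cfsg.Agent.Tw3 Cfsg.Agent.MulTw.PSp

theorem idx_tab : (∀ s < 72, (36 ≤ s ∧ idx s = 19 ↔ s = 47)) ∧ (∀ s < 72, (36 ≤ s ∧ idx s = 1 ↔ s = e6p4)) ∧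
    (∀ s < 72, (36 ≤ s ∧ idx s = 23 ↔ s = e6p2)) ∧ (∀ s < 72, (36 ≤ s ∧ idx s = 0 ↔ s = e6p1 ∨ s = e6p6)) ∧
    (∀ s < 72, (36 ≤ s ∧ idx s = 22 ↔ s = e6p3 ∨ s = e6p5)) ∧ (∀ s < 72, (36 ≤ s ∧ idx s = 4 ↔ s = 57 ∨ s = 38)) := by
  decide +kernel

theorem comm_tab : ∀ p ∈ [(1, 19), (19, 23), (0, 4), (4, 22)], ∀ s ∈ mb p.1, ∀ s' ∈ mb p.2,
    s' ≠ s ∧ s' ≠ chevE6.neg s ∧ chevE6.commTerms s s' = [] := by decide +kernel

theorem ord_tab : ordE 19 = 26 ∧ ordE 4 = 34 := by decide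

variable {K : Type*} [Field K] (φ : K ≃+* K)

theorem yone {k r i : ℕ} (hk : k < 24) (hr : r < 72) (hi : i < 6) (hri : cc chevE6 r i = 1 ∨ cc chevE6 r i = -1)
    (hw : wv gpE6_1 r = r) (hb : wb gpE6_1 r = 0) (hP : ∀ a < 72, (36 ≤ a ∧ idx a = k ↔ a = r))
    (x : ↥(chevE6.group K)) : (x ∈ Qc K k ∧ (O6 φ).tw.σ x = x) ↔ x ∈ Y1 goodE6 K φ r :=
  Y1_iff (H := goodE6) (instE6 K) φ hr hi hri hw hb (P := fun a => 36 ≤ (a : ℕ) ∧ idx a = k) (fun a => hP a a.2) x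

theorem ytwo (h2 : ∀ t, φ (φ t) = t) {k r s i i' : ℕ} (hr : r < 72) (hs : s < 72) (hne : r ≠ s) (hi : i < 6)
    (hri : cc chevE6 r i = 1 ∨ cc chevE6 r i = -1) (hi' : i' < 6) (hri' : cc chevE6 s i' = 1 ∨ cc chevE6 s i' = -1)
    (hc : ∀ t u : K, xG goodE6.toGood2 r t * xG goodE6.toGood2 s u = xG goodE6.toGood2 s u * xG goodE6.toGood2 r t)
    (hw : wv gpE6_1 r = s) (hw' : wv gpE6_1 s = r) (hb : wb gpE6_1 r = 0) (hb' : wb gpE6_1 s = 0)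
    (hP : ∀ a < 72, (36 ≤ a ∧ idx a = k ↔ a = r ∨ a = s)) (x : ↥(chevE6.group K)) :
    (x ∈ Qc K k ∧ (O6 φ).tw.σ x = x) ↔ x ∈ Y2 goodE6 K φ r s :=
  Y2_iff (H := goodE6) (instE6 K) φ h2 hr hs hne hi hri hi' hri' hc hw hw' hb hb'
    (P := fun a => 36 ≤ (a : ℕ) ∧ idx a = k) (fun a => hP a a.2) x

/-- the long root elements are commutators -/
theorem long_dec {x : ↥(chevE6.group K)} (hx : x ∈ Qc K 19) (hσ : (O6 φ).tw.σ x = x) :
    ∃ a ∈ Qc K 1, (O6 φ).tw.σ a = a ∧ ∃ b ∈ Qc K 23, (O6 φ).tw.σ b = b ∧ b * a = a * b * x := by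
  obtain ⟨t1, t2, t3, t4, t5, t6⟩ := idx_tab
  obtain ⟨c1, c2, c3⟩ := cc_E6'
  obtain ⟨r1, r2, r3, r4, r5, r6⟩ := rho_E6'
  obtain ⟨a1, a2, a3, a4, a5, a6, -⟩ := cc_E6
  obtain ⟨w1, w2, w3, w4, w5, w6, -⟩ := rho_E6
  obtain ⟨t, ht, rfl⟩ := (yone φ (by norm_num) (by decide) (by decide) (Or.inl c1) r1 r2 t1 x).1 ⟨hx, hσ⟩
  have e := xG_comm_one (K := K) goodE6 (D := chevE6) (r := e6p4) (s := e6p2) (v := 47) (by decide) (by decide) (by decide)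
    (by decide +kernel) comm_E6_L (-t) 1
  have e2 : ((1 : ℤ) : K) * (- -t) * 1 = t := by push_cast; ring
  rw [e2] at e
  have m1 := (yone φ (by norm_num) (by decide) (by decide) (Or.inl a4) w6 (sgn_E6 _ (by simp)) t2
    (xG goodE6.toGood2 e6p4 (-t))).2 ⟨-t, by rw [map_neg, ht], rfl⟩
  have m2 := (yone φ (by norm_num) (by decide) (by decide) (Or.inl a2) w5 (sgn_E6 _ (by simp)) t3
    (xG goodE6.toGood2 e6p2 (1 : K))).2 ⟨1, map_one φ, rfl⟩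
  exact ⟨_, m1.1, m1.2, _, m2.1, m2.2, e⟩

/-- the short root elements are commutators -/
theorem short_dec (h2 : ∀ t, φ (φ t) = t) {x : ↥(chevE6.group K)} (hx : x ∈ Qc K 4) (hσ : (O6 φ).tw.σ x = x) :
    ∃ a ∈ Qc K 0, (O6 φ).tw.σ a = a ∧ ∃ b ∈ Qc K 22, (O6 φ).tw.σ b = b ∧ b * a = a * b * x := by
  obtain ⟨t1, t2, t3, t4, t5, t6⟩ := idx_tab
  obtain ⟨c1, c2, c3⟩ := cc_E6'
  obtain ⟨r1, r2, r3, r4, r5, r6⟩ := rho_E6'
  obtain ⟨a1, a2, a3, a4, a5, a6, -⟩ := cc_E6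
  obtain ⟨w1, w2, w3, w4, w5, w6, -⟩ := rho_E6
  have hc : ∀ t u : K, xG goodE6.toGood2 57 t * xG goodE6.toGood2 38 u = xG goodE6.toGood2 38 u * xG goodE6.toGood2 57 t :=
    comm_pair (H := goodE6) (by decide) (by decide) (by decide) (by decide +kernel) (by decide +kernel)
  have hgen : ∃ a b : K, x = xG goodE6.toGood2 57 a * xG goodE6.toGood2 38 b := by
    have := (mem_gen_two (X := (AE K).R.X) (P := fun s => 36 ≤ (s : ℕ) ∧ idx s = 4)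
      (a := (⟨57, by decide⟩ : Fin chevE6.nroots)) (b := (⟨38, by decide⟩ : Fin chevE6.nroots))
      (fun a => by rw [Fin.ext_iff, Fin.ext_iff]; exact t6 a a.2) (by
        intro y hy z hz
        obtain ⟨t, rfl⟩ := ((AE K).mem_X _ _).1 hy
        obtain ⟨u, rfl⟩ := ((AE K).mem_X _ _).1 hz
        exact hc t u)).1 hx
    obtain ⟨y, hy, z, hz, rfl⟩ := this
    obtain ⟨t, rfl⟩ := ((AE K).mem_X _ _).1 hy
    obtain ⟨u, rfl⟩ := ((AE K).mem_X _ _).1 hz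
    exact ⟨t, u, rfl⟩
  obtain ⟨a, b, rfl⟩ := hgen
  have hb := (fix_two goodE6 (D := chevE6) (r := 57) (r' := 38) (by decide) (by decide) (by decide) (i := 0) (by decide)
    (Or.inl c2) (i' := 5) (by decide) (Or.inl c3) hc (σ := sE6 goodE6 φ) (φ := fun t => -φ t)
    (sE6_x' φ 57 38 (by decide) r3 r4) (sE6_x' φ 38 57 (by decide) r5 r6) hσ).1
  rw [hb]
  -- the two commutators
  have e1 := xG_comm_one (K := K) goodE6 (D := chevE6) (r := e6p1) (s := e6p3) (v := 57) (by decide) (by decide) (by decide)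
    (by decide +kernel) comm_E6_S a 1
  have e2 := xG_comm_one (K := K) goodE6 (D := chevE6) (r := e6p6) (s := e6p5) (v := 38) (by decide) (by decide) (by decide)
    (by decide +kernel) comm_E6_S' (φ a) 1
  rw [show ((-1 : ℤ) : K) * (-a) * 1 = a by push_cast; ring] at e1
  rw [show ((1 : ℤ) : K) * (-φ a) * 1 = -φ a by push_cast; ring] at e2
  have k1 := comm_pair (H := goodE6) (K := K) (r := e6p1) (s := e6p5) (by decide) (by decide) (by decide) (by decide +kernel)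
    comm_E6_T a 1
  have k2 := comm_pair (H := goodE6) (K := K) (r := e6p6) (s := e6p3) (by decide) (by decide) (by decide) (by decide +kernel)
    comm_E6_T' (φ a) 1
  have k3 := comm_pair (H := goodE6) (K := K) (r := 57) (s := e6p6) (by decide) (by decide) (by decide) (by decide +kernel)
    comm_E6_T2 a (φ a)
  have k4 := comm_pair (H := goodE6) (K := K) (r := 57) (s := e6p5) (by decide) (by decide) (by decide) (by decide +kernel)
    comm_E6_T3 a 1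
  have m1 := (ytwo φ h2 (by decide) (by decide) (by decide) (by decide) (Or.inl a1) (by decide) (Or.inl a6)
      (comm_pair (H := goodE6) (by decide) (by decide) (by decide) (by decide +kernel) comm_E6_0) w1 w2
      (sgn_E6 _ (by simp)) (sgn_E6 _ (by simp)) t4 (xG goodE6.toGood2 e6p1 a * xG goodE6.toGood2 e6p6 (φ a))).2 ⟨a, rfl⟩
  have m2 := (ytwo φ h2 (by decide) (by decide) (by decide) (by decide) (Or.inl a3) (by decide) (Or.inl a5)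
      (comm_pair (H := goodE6) (by decide) (by decide) (by decide) (by decide +kernel) comm_E6_1) w3 w4
      (sgn_E6 _ (by simp)) (sgn_E6 _ (by simp)) t5 (xG goodE6.toGood2 e6p3 (1 : K) * xG goodE6.toGood2 e6p5 1)).2
      ⟨1, by rw [map_one]⟩
  refine ⟨_, m1.1, m1.2, _, m2.1, m2.2, ?_⟩
  set A := xG goodE6.toGood2 e6p1 a
  set B := xG goodE6.toGood2 e6p6 (φ a)
  set C := xG goodE6.toGood2 e6p3 (1 : K)
  set D := xG goodE6.toGood2 e6p5 (1 : K)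
  set P := xG goodE6.toGood2 57 a
  set R := xG goodE6.toGood2 38 (-φ a)
  calc C * D * (A * B) = C * (A * D) * B := by rw [k1]; group
    _ = (C * A) * (D * B) := by group
    _ = (A * C * P) * (B * D * R) := by rw [e1, e2]
    _ = A * C * (P * B) * D * R := by group
    _ = A * (B * C) * P * D * R := by rw [k3, k2]; group
    _ = A * B * C * (P * D) * R := by group
    _ = A * B * (C * D) * (P * R) := by rw [k4]; group

/-- commuting classes -/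
theorem Q_comm2 {i j : ℕ} (h : (i, j) ∈ [(1, 19), (19, 23), (0, 4), (4, 22)]) :
    ∀ x ∈ Qc K i, ∀ y ∈ Qc K j, x * y = y * x := by
  have hij : ∀ p ∈ [(1, 19), (19, 23), (0, 4), (4, 22)], p.1 < 24 ∧ p.2 < 24 := by decide
  obtain ⟨hi, hj⟩ := hij _ h
  apply gen_comm
  rintro r ⟨hr1, hr2⟩ s ⟨hs1, hs2⟩ x hx y hy
  obtain ⟨t, rfl⟩ := ((AE K).mem_X r x).1 hx
  obtain ⟨u, rfl⟩ := ((AE K).mem_X s y).1 hy
  have m1 := mem_mb r r.2 hr1
  have m2 := mem_mb s s.2 hs1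
  rw [hr2] at m1
  rw [hs2] at m2
  obtain ⟨h1, h2, h3⟩ := comm_tab _ h r m1 s m2
  exact xG_comm goodE6 r.2 s.2 h1 h2 h3 t u

variable {φ} [Fintype K] {q : ℕ} (Q : Qud q φ) (hq2 : q ≠ 2)

/-- a commutator killed by a torus element -/
theorem kill_comm {Γ G : Type*} [Group Γ] [Group G] {σ : Γ →* G} (hs : Function.Surjective σ)
    (hc : σ.ker ≤ Subgroup.center Γ) {A B : Subgroup G} (hAB : ∀ x ∈ A, ∀ y ∈ B, x * y = y * x) {h : G}
    (hA : ∀ x ∈ A, h * x = x * h) (hB : ∀ y ∈ B, ∃ x ∈ B, h * x * h⁻¹ * x⁻¹ = y) :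
    ∀ x y : Γ, σ x ∈ A → σ y ∈ B → x * y = y * x := by
  have hcen : ∀ z, σ z = 1 → ∀ g, g * z = z * g := fun z hz g => Subgroup.mem_center_iff.1 (hc hz) g
  obtain ⟨t, rfl⟩ := hs h
  intro x y hx hy
  obtain ⟨w, hw, e⟩ := hB _ hy
  obtain ⟨w, rfl⟩ := hs w
  -- `y = t w t⁻¹ w⁻¹ z`
  have hz : σ ((t * w * t⁻¹ * w⁻¹)⁻¹ * y) = 1 := by
    rw [map_mul, map_inv, map_mul, map_mul, map_mul, map_inv, map_inv, e, inv_mul_cancel]
  have hz' := hcen _ hz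
  set z := (t * w * t⁻¹ * w⁻¹)⁻¹ * y with hzd
  have ey : y = t * w * t⁻¹ * w⁻¹ * z := by rw [hzd]; group
  -- `x` and `t` commute up to the centre
  have hu : σ (x⁻¹ * (t * x * t⁻¹)) = 1 := by
    rw [map_mul, map_inv, map_mul, map_mul, map_inv, hA _ hx]; group
  have hu' := hcen _ hu
  set u := x⁻¹ * (t * x * t⁻¹) with hud
  have eu : t * x * t⁻¹ = x * u := by rw [hud]; group
  -- `x w x⁻¹ = w v`
  have hv : σ (w⁻¹ * (x * w * x⁻¹)) = 1 := by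
    rw [map_mul, map_inv, map_mul, map_mul, map_inv, hAB _ hx _ hw]; group
  have hv' := hcen _ hv
  set v := w⁻¹ * (x * w * x⁻¹) with hvd
  have ev : x * w * x⁻¹ = w * v := by rw [hvd]; group
  -- `x (t w t⁻¹) x⁻¹ = (t w t⁻¹) v`
  have e1 : x * (t * w * t⁻¹) * x⁻¹ = t * w * t⁻¹ * v := by
    have e2 : x = t * x * t⁻¹ * u⁻¹ := by rw [eu]; group
    have hui : ∀ g, g * u⁻¹ = u⁻¹ * g := fun g => by
      rw [mul_inv_eq_iff_eq_mul, mul_assoc, hu', inv_mul_cancel_left]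
    have e3 : x * (t * w * t⁻¹) * x⁻¹ = (t * x * t⁻¹) * (t * w * t⁻¹) * (t * x * t⁻¹)⁻¹ := by
      conv_lhs => rw [e2]
      calc t * x * t⁻¹ * u⁻¹ * (t * w * t⁻¹) * (t * x * t⁻¹ * u⁻¹)⁻¹
          = t * x * t⁻¹ * (u⁻¹ * (t * w * t⁻¹)) * u * (t * x * t⁻¹)⁻¹ := by group
        _ = _ := by rw [← hui]; group
    rw [e3]
    calc (t * x * t⁻¹) * (t * w * t⁻¹) * (t * x * t⁻¹)⁻¹ = t * (x * w * x⁻¹) * t⁻¹ := by group
      _ = t * w * (v * t⁻¹) := by rw [ev]; group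
      _ = _ := by rw [← hv' t⁻¹]; group
  have e4 : x * y * x⁻¹ = y := by
    have hvi : ∀ g, g * v⁻¹ = v⁻¹ * g := fun g => by
      rw [mul_inv_eq_iff_eq_mul, mul_assoc, hv', inv_mul_cancel_left]
    have e5 : x * y * x⁻¹ = (x * (t * w * t⁻¹) * x⁻¹) * (x * w * x⁻¹)⁻¹ * (x * z * x⁻¹) := by rw [ey]; group
    rw [e5, e1, ev, hz' x, mul_inv_rev]
    calc t * w * t⁻¹ * v * (v⁻¹ * w⁻¹) * (z * x * x⁻¹) = t * w * t⁻¹ * w⁻¹ * z := by group
      _ = y := ey.symm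
  exact mul_inv_eq_iff_eq_mul.1 e4

include Q hq2 in
/-- lifts of commuting classes commute -/
theorem lift_comm2 {Γ : Type*} [Group Γ] {σ : Γ →* ↥(T6 φ)} (hs : Function.Surjective σ)
    (hc : σ.ker ≤ Subgroup.center Γ) {i j : ℕ} (h : (i, j) ∈ [(1, 19), (19, 23), (0, 4), (4, 22)]) :
    ∀ x y : Γ, σ x ∈ Xt φ i → σ y ∈ Xt φ j → x * y = y * x := by
  have hij : ∀ p ∈ [(1, 19), (19, 23), (0, 4), (4, 22)], p.1 < 24 ∧ p.2 < 24 ∧ p.1 < p.2 := by decide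
  obtain ⟨hi, hj, hlt⟩ := hij _ h
  obtain ⟨t, -, h1, h2⟩ := (chn Q hq2).hkill i hi j hj hlt
  refine kill_comm hs hc (fun x hx y hy => ?_) h1 h2
  have h3 := Q_comm2 (K := K) h (x : ↥(chevE6.group K)) hx (y : ↥(chevE6.group K)) hy
  exact Subtype.ext h3

/-- commutation with commutators -/
theorem comm_of_dec {Γ G : Type*} [Group Γ] [Group G] {σ : Γ →* G} (hs : Function.Surjective σ)
    (hc : σ.ker ≤ Subgroup.center Γ) {A B C : Subgroup G}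
    (hd : ∀ x ∈ C, ∃ a ∈ A, ∃ b ∈ B, b * a = a * b * x)
    (hA : ∀ x y : Γ, σ x ∈ C → σ y ∈ A → x * y = y * x) (hB : ∀ x y : Γ, σ x ∈ C → σ y ∈ B → x * y = y * x) :
    ∀ x y : Γ, σ x ∈ C → σ y ∈ C → x * y = y * x := by
  have hcen : ∀ z, σ z = 1 → ∀ g, g * z = z * g := fun z hz g => Subgroup.mem_center_iff.1 (hc hz) g
  intro x y hx hy
  obtain ⟨a, ha, b, hb, e⟩ := hd _ hy
  obtain ⟨a, rfl⟩ := hs a
  obtain ⟨b, rfl⟩ := hs b
  have hz : σ (((a * b)⁻¹ * (b * a))⁻¹ * y) = 1 := by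
    rw [map_mul, map_inv, map_mul, map_inv, map_mul, map_mul, e]; group
  have hz' := hcen _ hz
  set z := ((a * b)⁻¹ * (b * a))⁻¹ * y with hzd
  have ey : y = (a * b)⁻¹ * (b * a) * z := by rw [hzd]; group
  have ca : Commute x a := hA x a hx ha
  have cb : Commute x b := hB x b hx hb
  have cz : Commute x z := hz' x
  rw [ey]
  exact (((ca.mul_right cb).inv_right.mul_right (cb.mul_right ca)).mul_right cz).eq

include Q hq2 in
/-- lifts of the base classes are commutative -/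
theorem base_comm {Γ : Type*} [Group Γ] {σ : Γ →* ↥(T6 φ)} (hs : Function.Surjective σ)
    (hc : σ.ker ≤ Subgroup.center Γ) {k : ℕ} (hk : k = 19 ∨ k = 4) :
    ∀ x y : Γ, σ x ∈ Xt φ k → σ y ∈ Xt φ k → x * y = y * x := by
  rcases hk with rfl | rfl
  · refine comm_of_dec hs hc (A := Xt φ 1) (B := Xt φ 23) ?_ ?_ ?_
    · intro x hx
      obtain ⟨a, ha, hσa, b, hb, hσb, e⟩ := long_dec φ hx (T6_fix x.2)
      exact ⟨⟨a, Q_G1 φ (by norm_num) ha hσa⟩, ha, ⟨b, Q_G1 φ (by norm_num) hb hσb⟩, hb, Subtype.ext e⟩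
    · intro x y hx hy
      exact (lift_comm2 Q hq2 hs hc (i := 1) (j := 19) (by simp) y x hy hx).symm
    · intro x y hx hy
      exact lift_comm2 Q hq2 hs hc (i := 19) (j := 23) (by simp) x y hx hy
  · refine comm_of_dec hs hc (A := Xt φ 0) (B := Xt φ 22) ?_ ?_ ?_
    · intro x hx
      obtain ⟨a, ha, hσa, b, hb, hσb, e⟩ := short_dec φ Q.h2 hx (T6_fix x.2)
      exact ⟨⟨a, Q_G1 φ (by norm_num) ha hσa⟩, ha, ⟨b, Q_G1 φ (by norm_num) hb hσb⟩, hb, Subtype.ext e⟩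
    · intro x y hx hy
      exact (lift_comm2 Q hq2 hs hc (i := 0) (j := 4) (by simp) y x hy hx).symm
    · intro x y hx hy
      exact lift_comm2 Q hq2 hs hc (i := 4) (j := 22) (by simp) x y hx hy

/-- every class is conjugate to a base class -/
theorem exists_conj {k : ℕ} (hk : k < 24) : ∃ g ∈ T6 φ, ∃ b, (b = 19 ∨ b = 4) ∧
    ∀ x ∈ T6 φ, x ∈ Qc K k → g⁻¹ * x * g ∈ Qc K b := by
  obtain ⟨f1, f2, f3, f4⟩ := refl_F4
  obtain ⟨o1, o2⟩ := ord_tab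
  obtain ⟨v, hv, j, h⟩ := dF4.rp.wsys.exists_conj_p (⟨ordE k, (ordE_spec k hk).2.1⟩ : Fin chevF4.nroots)
  have hw : ∀ (i j : Fin chevF4.rank) (a : Fin chevF4.nroots), chevF4.reflectRoot i (chevF4.simple j) = a →
      dF4.rp.wsys.p j = dF4.rp.wsys.w i a := by
    intro i j a h
    have h2 : dF4.rp.wsys.w i (dF4.rp.wsys.p j) = a := by
      apply Fin.ext
      rw [← h]
      have h1 : ((dF4.rp.wsys.w i (dF4.rp.wsys.p j) : Fin _) : ℕ) = chevF4.reflectRoot i (dF4.rp.wsys.p j : Fin _) :=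
        dF4.hw i _
      rw [h1, pF4_val]
    rw [← h2, dF4.rp.wsys.w_w]
  have key : ∃ i : Fin chevF4.rank, ∃ b, (b = 19 ∨ b = 4) ∧ ∃ hb : b < 24,
      dF4.rp.wsys.p j = dF4.rp.wsys.w i ⟨ordE b, (ordE_spec b hb).2.1⟩ := by
    obtain ⟨j, hj0⟩ := j
    have hj' : j < 4 := hj0
    interval_cases j
    · exact ⟨⟨1, by decide⟩, 4, Or.inr rfl, by norm_num, hw ⟨1, by decide⟩ ⟨0, hj0⟩ _ (by rw [f4, ← o2])⟩
    · exact ⟨⟨0, by decide⟩, 4, Or.inr rfl, by norm_num, hw ⟨0, by decide⟩ ⟨1, hj0⟩ _ (by rw [f3, ← o2])⟩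
    · exact ⟨⟨3, by decide⟩, 19, Or.inl rfl, by norm_num, hw ⟨3, by decide⟩ ⟨2, hj0⟩ _ (by rw [f1, ← o1])⟩
    · exact ⟨⟨2, by decide⟩, 19, Or.inl rfl, by norm_num, hw ⟨2, by decide⟩ ⟨3, hj0⟩ _ (by rw [f2, ← o1])⟩
  obtain ⟨i, b, hb, hb24, hp⟩ := key
  have hv' : v * dF4.rp.wsys.w i ∈ dF4.rp.wsys.W := mul_mem hv (dF4.rp.wsys.w_mem i)
  obtain ⟨u, hu, g, hg, hgN, hg1⟩ := TwData.exists_lift (T := (O6 φ).tw) hv'
  refine ⟨g, hg1, b, hb, ?_⟩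
  intro x hx hxQ
  have h1 := TwData.conj_X'_inv hg hu ((O6 φ).tw.G1_le_Fx hg1) ((Q_fix φ hk).1 ⟨hxQ, T6_fix hx⟩)
  have h2 : (v * dF4.rp.wsys.w i)⁻¹ (⟨ordE k, (ordE_spec k hk).2.1⟩ : Fin chevF4.nroots) =
      ⟨ordE b, (ordE_spec b hb24).2.1⟩ := by
    rw [Equiv.Perm.inv_eq_iff_eq, Equiv.Perm.mul_apply, ← hp, h]
  rw [h2] at h1
  exact ((Q_fix φ hb24).2 h1).1

include Q hq2 in
/-- lifts of all classes are commutative -/
theorem all_comm {Γ : Type*} [Group Γ] {σ : Γ →* ↥(T6 φ)} (hs : Function.Surjective σ)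
    (hc : σ.ker ≤ Subgroup.center Γ) {k : ℕ} (hk : k < 24) :
    ∀ x y : Γ, σ x ∈ Xt φ k → σ y ∈ Xt φ k → x * y = y * x := by
  obtain ⟨g, hg, b, hb, h⟩ := exists_conj (φ := φ) hk
  obtain ⟨t, ht⟩ := hs ⟨g, hg⟩
  intro x y hx hy
  have h1 : ∀ x : Γ, σ x ∈ Xt φ k → σ (t⁻¹ * x * t) ∈ Xt φ b := by
    intro x hx
    rw [map_mul, map_mul, map_inv, ht]
    exact h _ (σ x).2 hx
  have h2 := base_comm Q hq2 hs hc hb _ _ (h1 x hx) (h1 y hy)
  have h3 : x * y = t * ((t⁻¹ * x * t) * (t⁻¹ * y * t)) * t⁻¹ := by group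
  rw [h3, h2]; group

include Q hq2 in
/-- the defining characteristic part of the multiplier -/
theorem E6_p {Γ : Type*} [Group Γ] [Finite Γ] {σ : Γ →* ↥(T6 φ)} (hσ : Cfsg.IsStemExtension σ) {p : ℕ} (hpp : p.Prime)
    (hpq : p ∣ q) (hcard : p ∣ Nat.card σ.ker) : False := by
  have : Fact p.Prime := ⟨hpp⟩
  exact false_of_chain hσ hcard (chn Q hq2) (fun k hk => all_comm Q hq2 hσ.1 hσ.2.1 hk) (index_Wt Q hpp hpq)

end Cfsg.Agent.MulTw.E6
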