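import Cfsg.Agent.MulTw.E6E
import Cfsg.Agent.Mult.Cen
import Cfsg.Agent.Mult.Cover

set_option autoImplicit false
set_option maxRecDepth 100000
set_option linter.unusedSectionVars false

/-!
The triple cover of the twisted group of type E6.
-/

namespace Cfsg.Agent.MulTw.E6

open Cfsg.Lie Cfsg.Agent.Chev Cfsg.Agent.ChevGrp Cfsg.Agent.ChevGrp.DData Cfsg.Agent.ChevWeyl Cfsg.Agent.ChevTw
open Cfsg.Agent.Tw3 Cfsg.Agent.MulTw.PSp Cfsg.Agent.Steinb Cfsg.Agent.Mult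
open scoped commutatorElement

/-- data of a block with two roots -/
structure Blk (i k : ℕ) : Prop where
  hi : i < 6
  hk : k < 6
  cm : ∀ a ∈ [chevE6.simple i, chevE6.neg (chevE6.simple i)], ∀ b ∈ [chevE6.simple k, chevE6.neg (chevE6.simple k)],
    a < 72 ∧ b < 72 ∧ b ≠ a ∧ b ≠ chevE6.neg a ∧ chevE6.commTerms a b = []
  c1 : chevE6.cartan i (chevE6.simple i) = 2
  c2 : chevE6.cartan i (chevE6.neg (chevE6.simple i)) = -2
  c3 : chevE6.cartan i (chevE6.simple k) = 0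
  c4 : chevE6.cartan i (chevE6.neg (chevE6.simple k)) = 0
  d1 : chevE6.cartan k (chevE6.simple k) = 2
  d2 : chevE6.cartan k (chevE6.neg (chevE6.simple k)) = -2
  d3 : chevE6.cartan k (chevE6.simple i) = 0
  d4 : chevE6.cartan k (chevE6.neg (chevE6.simple i)) = 0

theorem blk05 : Blk 0 5 := by
  constructor <;> decide +kernel
theorem blk24 : Blk 2 4 := by
  constructor <;> decide +kernel

theorem mmc {G : Type*} [Group G] {x1 y1 x2 y2 : G} (h : Commute x2 y1) : (x1 * y1) * (x2 * y2) = (x1 * x2) * (y1 * y2) := by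
  calc (x1 * y1) * (x2 * y2) = x1 * (y1 * x2) * y2 := by group
    _ = x1 * (x2 * y1) * y2 := by rw [h.eq]
    _ = _ := by group

section blk

variable {F : Type*} [Field F] (φ : F ≃+* F) {Γ : Type*} [Group Γ] (Q : StSt goodE6 F Γ) {i k : ℕ} (B : Blk i k)

include B

theorem Blk.comm {a b : ℕ} (ha : a ∈ [chevE6.simple i, chevE6.neg (chevE6.simple i)])
    (hb : b ∈ [chevE6.simple k, chevE6.neg (chevE6.simple k)]) (t u : F) : Commute (Q.x a t) (Q.x b u) := by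
  obtain ⟨h1, h2, h3, h4, h5⟩ := B.cm a ha b hb
  have h := Q.comm h1 h2 h3 h4 t u
  unfold ChevalleyDatum.commWord at h
  rw [h5, List.map_nil, List.map_nil, List.prod_nil] at h
  have e : Q.x a t * Q.x b u = Q.x b u * Q.x a t * ((Q.x b u)⁻¹ * (Q.x a t)⁻¹ * Q.x b u * Q.x a t)⁻¹ := by
    rw [h, inv_one, mul_one]
    have h6 : Q.x b u * Q.x a t = Q.x a t * Q.x b u := by
      have h7 : Q.x a t * Q.x b u * ((Q.x b u)⁻¹ * (Q.x a t)⁻¹ * Q.x b u * Q.x a t) = Q.x b u * Q.x a t := by group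
      rw [← h7, h, mul_one]
    exact h6.symm
  rw [h, inv_one, mul_one] at e
  exact e

/-- the elements of the block -/
def Blk.X (_ : Blk i k) (t : F) : Γ := Q.x (chevE6.simple i) t * Q.x (chevE6.simple k) (φ t)
/-- the negative elements of the block -/
def Blk.Y (_ : Blk i k) (t : F) : Γ := Q.x (chevE6.neg (chevE6.simple i)) t * Q.x (chevE6.neg (chevE6.simple k)) (φ t)
/-- the torus elements of the block -/
def Blk.T (B : Blk i k) (c : Fˣ) : Γ := Q.hHom ⟨i, B.hi⟩ c * Q.hHom ⟨k, B.hk⟩ (fu φ c)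

theorem Blk.T_eq (c : Fˣ) : B.T φ Q c = (B.X φ Q c * B.Y φ Q (-(c : F)⁻¹) * B.X φ Q c) * (B.X φ Q (-1) * B.Y φ Q 1 * B.X φ Q (-1)) := by
  have m1 : chevE6.simple i ∈ [chevE6.simple i, chevE6.neg (chevE6.simple i)] := by simp
  have m2 : chevE6.neg (chevE6.simple i) ∈ [chevE6.simple i, chevE6.neg (chevE6.simple i)] := by simp
  have m3 : chevE6.simple k ∈ [chevE6.simple k, chevE6.neg (chevE6.simple k)] := by simp
  have m4 : chevE6.neg (chevE6.simple k) ∈ [chevE6.simple k, chevE6.neg (chevE6.simple k)] := by simp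
  unfold Blk.T Blk.X Blk.Y
  have e1 : Q.hHom ⟨i, B.hi⟩ c = Q.x (chevE6.simple i) c * Q.x (chevE6.neg (chevE6.simple i)) (-(c : F)⁻¹) * Q.x (chevE6.simple i) c *
      (Q.x (chevE6.simple i) (-1) * Q.x (chevE6.neg (chevE6.simple i)) 1 * Q.x (chevE6.simple i) (-1)) := by
    have h : Q.hHom ⟨i, B.hi⟩ c = Q.x (chevE6.simple i) c * Q.x (chevE6.neg (chevE6.simple i)) (-(c : F)⁻¹) * Q.x (chevE6.simple i) c *
      (Q.x (chevE6.simple i) (-1) * Q.x (chevE6.neg (chevE6.simple i)) (-(-1)⁻¹) * Q.x (chevE6.simple i) (-1)) := rfl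
    rw [h]; simp
  have e2 : Q.hHom ⟨k, B.hk⟩ (fu φ c) = Q.x (chevE6.simple k) (φ c) * Q.x (chevE6.neg (chevE6.simple k)) (-(φ c)⁻¹) * Q.x (chevE6.simple k) (φ c) *
      (Q.x (chevE6.simple k) (-1) * Q.x (chevE6.neg (chevE6.simple k)) 1 * Q.x (chevE6.simple k) (-1)) := by
    have h : Q.hHom ⟨k, B.hk⟩ (fu φ c) = Q.x (chevE6.simple k) (φ c) * Q.x (chevE6.neg (chevE6.simple k)) (-(φ c)⁻¹) * Q.x (chevE6.simple k) (φ c) *
      (Q.x (chevE6.simple k) (-1) * Q.x (chevE6.neg (chevE6.simple k)) (-(-1)⁻¹) * Q.x (chevE6.simple k) (-1)) := rfl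
    rw [h]; simp
  have f1 : φ (-(c : F)⁻¹) = -(φ c)⁻¹ := by rw [map_neg, map_inv₀]
  have f2 : φ (-1 : F) = -1 := by simp
  have f3 : φ (1 : F) = 1 := map_one φ
  rw [e1, e2, f1, f2, f3]
  have cm := fun {a b : ℕ} (ha : a ∈ [chevE6.simple i, chevE6.neg (chevE6.simple i)])
    (hb : b ∈ [chevE6.simple k, chevE6.neg (chevE6.simple k)]) (t u : F) => B.comm Q ha hb t u
  have k1 := cm m1 m3 (c : F) (φ c)
  have k2 := cm m2 m3 (-(c : F)⁻¹) (φ c)
  have k3 := cm m1 m4 (c : F) (-(φ c)⁻¹)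
  have k4 := cm m1 m3 (-1) (-1)
  have k5 := cm m2 m3 1 (-1)
  have k6 := cm m1 m4 (-1) 1
  have k7 := cm m1 m3 (-1) (φ c)
  have k8 := cm m2 m3 1 (φ c)
  have k9 := cm m1 m4 (-1) (-(φ c)⁻¹)
  have k10 := cm m2 m4 1 (-(φ c)⁻¹)
  set a := Q.x (chevE6.simple i) (c : F)
  set b := Q.x (chevE6.neg (chevE6.simple i)) (-(c : F)⁻¹)
  set a' := Q.x (chevE6.simple i) (-1 : F)
  set b' := Q.x (chevE6.neg (chevE6.simple i)) (1 : F)
  set d := Q.x (chevE6.simple k) (φ c)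
  set e := Q.x (chevE6.neg (chevE6.simple k)) (-(φ c)⁻¹)
  set d' := Q.x (chevE6.simple k) (-1 : F)
  set e' := Q.x (chevE6.neg (chevE6.simple k)) (1 : F)
  rw [mmc (x1 := a) (y1 := d) (x2 := b) (y2 := e) k2, mmc (x1 := a * b) (y1 := d * e) (x2 := a) (y2 := d) (k1.mul_right k3),
    mmc (x1 := a') (y1 := d') (x2 := b') (y2 := e') k5, mmc (x1 := a' * b') (y1 := d' * e') (x2 := a') (y2 := d') (k4.mul_right k6)]
  rw [mmc (x1 := a * b * a) (y1 := d * e * d) (x2 := a' * b' * a') (y2 := d' * e' * d')]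
  have p1 : Commute a' (d * e * d) := (k7.mul_right k9).mul_right k7
  have p2 : Commute b' (d * e * d) := (k8.mul_right k10).mul_right k8
  exact (p1.mul_left p2).mul_left p1

theorem Blk.X_add (t u : F) : B.X φ Q (t + u) = B.X φ Q t * B.X φ Q u := by
  unfold Blk.X
  have h1 : chevE6.simple i < chevE6.nroots := (B.cm _ (by simp) (chevE6.simple k) (by simp)).1
  have h2 : chevE6.simple k < chevE6.nroots := (B.cm (chevE6.simple i) (by simp) _ (by simp)).2.1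
  rw [map_add, ← Q.add h1, ← Q.add h2]
  exact (mmc (B.comm Q (by simp) (by simp) u (φ t))).symm

theorem Blk.Y_add (t u : F) : B.Y φ Q (t + u) = B.Y φ Q t * B.Y φ Q u := by
  unfold Blk.Y
  have h1 : chevE6.neg (chevE6.simple i) < chevE6.nroots := (B.cm _ (by simp) (chevE6.simple k) (by simp)).1
  have h2 : chevE6.neg (chevE6.simple k) < chevE6.nroots := (B.cm (chevE6.simple i) (by simp) _ (by simp)).2.1
  rw [map_add, ← Q.add h1, ← Q.add h2]
  exact (mmc (B.comm Q (by simp) (by simp) u (φ t))).symm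

theorem hHom_act {j : ℕ} (hj : j < 6) (c : Fˣ) {s : ℕ} (hs : s < 72) (u : F) :
    Q.hHom ⟨j, hj⟩ c * Q.x s u * (Q.hHom ⟨j, hj⟩ c)⁻¹ = Q.x s (((c ^ chevE6.cartan j s : Fˣ) : F) * u) := by
  have h := (Q.hHom_tact sp_E6 (⟨j, hj⟩ : Fin chevE6.rank) c).act s hs u
  rw [chr_chiH goodE6.toGood1 _ _ hs, pr_simple goodE6.toGood1 hj] at h
  exact h

theorem Blk.T_X (c : Fˣ) (t : F) : B.T φ Q c * B.X φ Q t * (B.T φ Q c)⁻¹ = B.X φ Q ((c : F) ^ 2 * t) := by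
  unfold Blk.T Blk.X
  have h1 : chevE6.simple i < 72 := (B.cm _ (by simp) (chevE6.simple k) (by simp)).1
  have h2 : chevE6.simple k < 72 := (B.cm (chevE6.simple i) (by simp) _ (by simp)).2.1
  have e : ∀ a b x y : Γ, a * b * (x * y) * (a * b)⁻¹ = a * (b * x * b⁻¹) * a⁻¹ * (a * (b * y * b⁻¹) * a⁻¹) := by
    intro a b x y; group
  rw [e, hHom_act Q B B.hk _ h1, hHom_act Q B B.hk _ h2, hHom_act Q B B.hi _ h1, hHom_act Q B B.hi _ h2,
    B.c1, B.c3, B.d1, B.d3]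
  simp [fu]

theorem Blk.T_Y (c : Fˣ) (t : F) : B.T φ Q c * B.Y φ Q t * (B.T φ Q c)⁻¹ = B.Y φ Q (((c : F)⁻¹) ^ 2 * t) := by
  unfold Blk.T Blk.Y
  have h1 : chevE6.neg (chevE6.simple i) < 72 := (B.cm _ (by simp) (chevE6.simple k) (by simp)).1
  have h2 : chevE6.neg (chevE6.simple k) < 72 := (B.cm (chevE6.simple i) (by simp) _ (by simp)).2.1
  have e : ∀ a b x y : Γ, a * b * (x * y) * (a * b)⁻¹ = a * (b * x * b⁻¹) * a⁻¹ * (a * (b * y * b⁻¹) * a⁻¹) := by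
    intro a b x y; group
  rw [e, hHom_act Q B B.hk _ h1, hHom_act Q B B.hk _ h2, hHom_act Q B B.hi _ h1, hHom_act Q B B.hi _ h2,
    B.c2, B.c4, B.d2, B.d4]
  simp [fu, zpow_neg]

/-- torus elements in the commutator subgroup -/
theorem Blk.T_mem {H1 : Subgroup Γ} (hX : ∀ t, B.X φ Q t ∈ H1) (hY : ∀ t, B.Y φ Q t ∈ H1) {d : Fˣ} (hd : d ^ 2 ≠ 1)
    (c : Fˣ) : B.T φ Q c ∈ ⁅H1, H1⁆ := by
  have hT : ∀ c, B.T φ Q c ∈ H1 := by
    intro c
    rw [B.T_eq]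
    exact mul_mem (mul_mem (mul_mem (hX _) (hY _)) (hX _)) (mul_mem (mul_mem (hX _) (hY _)) (hX _))
  have hd1 : (d : F) ^ 2 - 1 ≠ 0 := by
    intro h
    apply hd
    apply Units.ext
    rw [Units.val_pow_eq_pow_val, Units.val_one]
    exact sub_eq_zero.1 h
  have hd2 : ((d : F)⁻¹) ^ 2 - 1 ≠ 0 := by
    intro h
    have h1 : ((d : F)⁻¹) ^ 2 = 1 := sub_eq_zero.1 h
    rw [inv_pow, inv_eq_one] at h1
    apply hd1
    rw [h1, sub_self]
  have hX' : ∀ t, B.X φ Q t ∈ ⁅H1, H1⁆ := by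
    intro t
    have h1 := B.T_X φ Q d (((d : F) ^ 2 - 1)⁻¹ * t)
    have h2 : B.X φ Q t * B.X φ Q (((d : F) ^ 2 - 1)⁻¹ * t) = B.X φ Q ((d : F) ^ 2 * (((d : F) ^ 2 - 1)⁻¹ * t)) := by
      rw [← B.X_add]
      congr 1
      field_simp
      ring
    rw [← h1] at h2
    have h3 : B.X φ Q t = ⁅B.T φ Q d, B.X φ Q (((d : F) ^ 2 - 1)⁻¹ * t)⁆ := by
      rw [commutatorElement_def, ← h2, mul_inv_cancel_right]
    rw [h3]
    exact Subgroup.commutator_mem_commutator (hT d) (hX _)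
  have hY' : ∀ t, B.Y φ Q t ∈ ⁅H1, H1⁆ := by
    intro t
    have h1 := B.T_Y φ Q d ((((d : F)⁻¹) ^ 2 - 1)⁻¹ * t)
    have h2 : B.Y φ Q t * B.Y φ Q ((((d : F)⁻¹) ^ 2 - 1)⁻¹ * t) = B.Y φ Q (((d : F)⁻¹) ^ 2 * ((((d : F)⁻¹) ^ 2 - 1)⁻¹ * t)) := by
      rw [← B.Y_add]
      congr 1
      generalize ((d : F)⁻¹) ^ 2 = w at hd2
      field_simp
      ring
    rw [← h1] at h2
    have h3 : B.Y φ Q t = ⁅B.T φ Q d, B.Y φ Q ((((d : F)⁻¹) ^ 2 - 1)⁻¹ * t)⁆ := by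
      rw [commutatorElement_def, ← h2, mul_inv_cancel_right]
    rw [h3]
    exact Subgroup.commutator_mem_commutator (hT d) (hY _)
  rw [B.T_eq]
  exact mul_mem (mul_mem (mul_mem (hX' _) (hY' _)) (hX' _)) (mul_mem (mul_mem (hX' _) (hY' _)) (hX' _))

end blk

end Cfsg.Agent.MulTw.E6
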