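import Cfsg.Agent.MulTw.E6F
import Cfsg.Agent.Mult.SLMult

set_option autoImplicit false
set_option maxRecDepth 100000
set_option linter.unusedSectionVars false

/-!
The multiplier of the twisted group of type E6.
-/

namespace Cfsg.Agent.MulTw.E6

open Cfsg.Lie Cfsg.Agent.Chev Cfsg.Agent.ChevGrp Cfsg.Agent.ChevGrp.DData Cfsg.Agent.ChevWeyl Cfsg.Agent.ChevTw
open Cfsg.Agent.Tw3 Cfsg.Agent.MulTw.PSp Cfsg.Agent.Steinb Cfsg.Agent.Mult
open scoped commutatorElement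

/-- order of the kernel of a composite -/
theorem card_ker_comp {A B C : Type*} [Group A] [Group B] [Group C] [Finite A] {f : A →* B} {g : B →* C}
    (hf : Function.Surjective f) : Nat.card (g.comp f).ker = Nat.card f.ker * Nat.card g.ker := by
  have hB : Finite B := Finite.of_surjective f hf
  let h : ↥(g.comp f).ker →* ↥g.ker := (f.comp (g.comp f).ker.subtype).codRestrict g.ker fun x => x.2
  have hh : Function.Surjective h := by
    rintro ⟨b, hb⟩
    obtain ⟨a, rfl⟩ := hf b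
    exact ⟨⟨a, hb⟩, rfl⟩
  have h1 := Subgroup.card_mul_index h.ker
  rw [Subgroup.index_ker, MonoidHom.range_eq_top.2 hh, Subgroup.card_top] at h1
  rw [← h1]
  congr 1
  refine Nat.card_congr
    { toFun := fun x => ⟨x.1.1, congrArg Subtype.val x.2⟩
      invFun := fun x => ⟨⟨x.1, ?_⟩, ?_⟩
      left_inv := fun _ => rfl
      right_inv := fun _ => rfl }
  · rw [MonoidHom.mem_ker, MonoidHom.comp_apply, (MonoidHom.mem_ker).1 x.2, map_one]
  · rw [MonoidHom.mem_ker]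
    exact Subtype.ext x.2

theorem tor_tab : ∀ j < 6, ∃ m : ℤ, (chevE6.cartan 0 (chevE6.simple j) - chevE6.cartan 5 (chevE6.simple j)) +
    2 * (chevE6.cartan 2 (chevE6.simple j) - chevE6.cartan 4 (chevE6.simple j)) = 3 * m := by
  intro j hj
  have h : ∀ j < 6, (3 : ℤ) ∣ (chevE6.cartan 0 (chevE6.simple j) - chevE6.cartan 5 (chevE6.simple j)) +
    2 * (chevE6.cartan 2 (chevE6.simple j) - chevE6.cartan 4 (chevE6.simple j)) := by decide +kernel
  exact h j hj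

/-- the character of a single torus element -/
theorem torChi_single {F : Type*} [Field F] {i : ℕ} (hi : i < chevE6.rank) (c : Fˣ) (j : ℕ) :
    StSt.torChi chevE6 (Pi.mulSingle (⟨i, hi⟩ : Fin chevE6.rank) c) j = c ^ chevE6.cartan i (chevE6.simple j) := by
  classical
  unfold StSt.torChi
  rw [Finset.prod_eq_single (⟨i, hi⟩ : Fin chevE6.rank)]
  · rw [Pi.mulSingle_eq_same]
  · intro b _ hb
    rw [Pi.mulSingle_eq_of_ne hb, one_zpow]
  · intro h; exact absurd (Finset.mem_univ _) h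

section cover

variable {K : Type*} [Field K] {φ : K ≃+* K}

/-- the parameters of the central element -/
def tz (φ : K ≃+* K) (ζ : Kˣ) : Fin chevE6.rank → Kˣ :=
  Pi.mulSingle ⟨0, by decide⟩ ζ * Pi.mulSingle ⟨5, by decide⟩ (fu φ ζ) *
    (Pi.mulSingle ⟨2, by decide⟩ (ζ ^ 2) * Pi.mulSingle ⟨4, by decide⟩ (fu φ (ζ ^ 2)))

theorem tz_chi {ζ : Kˣ} (h3 : ζ ^ 3 = 1) (hφ : fu φ ζ = ζ⁻¹) : ∀ j < chevE6.rank, StSt.torChi chevE6 (tz φ ζ) j = 1 := by
  intro j hj
  unfold tz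
  rw [StSt.torChi_mul, StSt.torChi_mul, StSt.torChi_mul]
  simp only [torChi_single]
  obtain ⟨m, hm⟩ := tor_tab j hj
  rw [map_pow, hφ, ← zpow_natCast ζ 2, ← zpow_natCast ζ⁻¹ 2, inv_zpow, inv_zpow, inv_zpow, ← zpow_neg, ← zpow_mul, ← zpow_neg,
    ← zpow_mul, ← zpow_add, ← zpow_add, ← zpow_add]
  have e : chevE6.cartan 0 (chevE6.simple j) + -chevE6.cartan 5 (chevE6.simple j) +
      (((2 : ℕ) : ℤ) * chevE6.cartan 2 (chevE6.simple j) + ((2 : ℕ) : ℤ) * -chevE6.cartan 4 (chevE6.simple j)) = 3 * m := by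
    rw [← hm]; push_cast; ring
  rw [e, zpow_mul]
  have : ζ ^ (3 : ℤ) = 1 := by exact_mod_cast h3
  rw [this, one_zpow]

theorem tz_ne {ζ : Kˣ} (h1 : ζ ≠ 1) : tz φ ζ ≠ 1 := by
  intro h
  apply h1
  have h2 := congrFun h ⟨0, by decide⟩
  unfold tz at h2
  simp only [Pi.mul_apply, Pi.one_apply] at h2
  rw [Pi.mulSingle_eq_same, Pi.mulSingle_eq_of_ne (by decide), Pi.mulSingle_eq_of_ne (by decide),
    Pi.mulSingle_eq_of_ne (by decide), mul_one, mul_one, mul_one] at h2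
  exact h2

theorem tz_cube {ζ : Kˣ} (h3 : ζ ^ 3 = 1) : tz φ ζ ^ 3 = 1 := by
  have h6 : (ζ ^ 2) ^ 3 = 1 := by rw [← pow_mul, mul_comm, pow_mul, h3, one_pow]
  unfold tz
  rw [mul_pow, mul_pow, mul_pow, ← Pi.mulSingle_pow, ← Pi.mulSingle_pow, ← Pi.mulSingle_pow, ← Pi.mulSingle_pow,
    ← map_pow, ← map_pow, h3, h6, map_one]
  simp

/-- the central element -/
theorem tz_eq (ζ : Kˣ) : (stOf goodE6 K).tor sp_E6 (tz φ ζ) =
    blk05.T φ (stOf goodE6 K) ζ * blk24.T φ (stOf goodE6 K) (ζ ^ 2) := by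
  unfold tz
  rw [map_mul, map_mul, map_mul, StSt.tor_single, StSt.tor_single, StSt.tor_single, StSt.tor_single]
  rfl

/-- the map of the Steinberg group -/
noncomputable abbrev thS (K : Type*) [Field K] : chevE6.SteinbergGroup K →* ↥(chevE6.group K) :=
  (stOf goodE6 K).toPreSt.θG (stOf_gen goodE6)

theorem thS_x {r : ℕ} (hr : r < 72) (t : K) : thS K ((stOf goodE6 K).x r t) = xG goodE6.toGood2 r t := by
  apply eq_of_coe
  have h1 : ((thS K ((stOf goodE6 K).x r t) : GL chevE6.Idx K) : Matrix chevE6.Idx chevE6.Idx K) = chevE6.x K r t := by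
    rw [PreSt.θG_coe]; exact (stOf goodE6 K).θ_coe hr t
  rw [h1, xG_coe]

/-- the preimage of the twisted group -/
noncomputable def HS (φ : K ≃+* K) : Subgroup (chevE6.SteinbergGroup K) := (T6 φ).comap (thS K)

theorem blk_mem (h2 : ∀ t, φ (φ t) = t) (t : K) :
    blk05.X φ (stOf goodE6 K) t ∈ HS φ ∧ blk05.Y φ (stOf goodE6 K) t ∈ HS φ ∧
    blk24.X φ (stOf goodE6 K) t ∈ HS φ ∧ blk24.Y φ (stOf goodE6 K) t ∈ HS φ := by
  obtain ⟨s1, s2, s3, s4, s5, s6, n1, n2, n3, n4, n5, n6⟩ := simple_E6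
  have hX : ∀ (j : Fin chevF4.rank) (x : ↥(chevE6.group K)), x ∈ YJ goodE6 K φ j → x ∈ T6 φ := fun j x hx =>
    TwData.X'_le_G1 (T := (O6 φ).tw) _ ((YJ_iff dF4 (instE6 K) φ h2 j x).2 hx)
  have hY : ∀ (j : Fin chevF4.rank) (x : ↥(chevE6.group K)), x ∈ YJm goodE6 K φ j → x ∈ T6 φ := fun j x hx =>
    TwData.X'_le_G1 (T := (O6 φ).tw) _ ((YJm_iff dF4 (instE6 K) φ h2 j x).2 hx)
  unfold Blk.X Blk.Y HS
  rw [s1, s3, s5, s6, n1, n3, n5, n6]
  simp only [Subgroup.mem_comap, map_mul]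
  rw [thS_x (by decide), thS_x (by decide), thS_x (by decide), thS_x (by decide), thS_x (by decide), thS_x (by decide),
    thS_x (by decide), thS_x (by decide)]
  have g1 : xG goodE6.toGood2 e6p1 t * xG goodE6.toGood2 e6p6 (φ t) ∈ YJ goodE6 K φ 0 := ⟨t, rfl⟩
  have g2 : xG goodE6.toGood2 e6m1 t * xG goodE6.toGood2 e6m6 (φ t) ∈ YJm goodE6 K φ 0 := ⟨t, rfl⟩
  have g3 : xG goodE6.toGood2 e6p3 t * xG goodE6.toGood2 e6p5 (φ t) ∈ YJ goodE6 K φ 1 := ⟨t, rfl⟩
  have g4 : xG goodE6.toGood2 e6m3 t * xG goodE6.toGood2 e6m5 (φ t) ∈ YJm goodE6 K φ 1 := ⟨t, rfl⟩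
  exact ⟨hX ⟨0, by decide⟩ _ g1, hY ⟨0, by decide⟩ _ g2, hX ⟨1, by decide⟩ _ g3, hY ⟨1, by decide⟩ _ g4⟩

theorem tz_mem (h2 : ∀ t, φ (φ t) = t) {d : Kˣ} (hd : d ^ 2 ≠ 1) (ζ : Kˣ) :
    (stOf goodE6 K).tor sp_E6 (tz φ ζ) ∈ ⁅HS φ, HS φ⁆ := by
  rw [tz_eq]
  exact mul_mem
    (blk05.T_mem φ _ (fun t => (blk_mem h2 t).1) (fun t => (blk_mem h2 t).2.1) hd ζ)
    (blk24.T_mem φ _ (fun t => (blk_mem h2 t).2.2.1) (fun t => (blk_mem h2 t).2.2.2) hd (ζ ^ 2))

/-- the restricted map -/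
noncomputable def thH (φ : K ≃+* K) : ↥(HS φ) →* ↥(T6 φ) :=
  ((thS K).comp (HS φ).subtype).codRestrict (T6 φ) fun x => x.2

theorem ce_thH (φ : K ≃+* K) : CE (thH φ) := by
  have C : CE (thS K) := ce_θG (by simp [data]) (stOf goodE6 K).toPreSt (stOf_gen goodE6)
  constructor
  · rintro ⟨g, hg⟩
    obtain ⟨x, rfl⟩ := C.surj g
    exact ⟨⟨x, hg⟩, rfl⟩
  · intro x hx
    have h1 : (x : chevE6.SteinbergGroup K) ∈ Subgroup.center (chevE6.SteinbergGroup K) := by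
      apply C.central
      rw [MonoidHom.mem_ker]
      exact congrArg Subtype.val ((MonoidHom.mem_ker).1 hx)
    rw [Subgroup.mem_center_iff] at h1 ⊢
    intro y
    exact Subtype.ext (h1 y)

/-- the cover -/
noncomputable def thC (φ : K ≃+* K) : ↥(commutator ↥(HS φ)) →* ↥(T6 φ) := (thH φ).comp (commutator ↥(HS φ)).subtype

theorem ce_thC (hT : commutator ↥(T6 φ) = ⊤) : CE (thC φ) := by
  have C := ce_thH φ
  constructor
  · intro d
    have : d ∈ (commutator ↥(HS φ)).map (thH φ) := by rw [map_comm C hT]; exact Subgroup.mem_top _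
    obtain ⟨x, hx, rfl⟩ := this
    exact ⟨⟨x, hx⟩, rfl⟩
  · intro x hx
    have h1 : (x : ↥(HS φ)) ∈ Subgroup.center ↥(HS φ) := C.central hx
    rw [Subgroup.mem_center_iff] at h1 ⊢
    intro y
    exact Subtype.ext (h1 y)

end cover

variable {K : Type*} [Field K] [Fintype K] {φ : K ≃+* K} {q : ℕ} (Q : Qud q φ) (hq2 : q ≠ 2)

include Q in
theorem perf_T6 : commutator ↥(T6 φ) = ⊤ := by
  have hG := hG_E6 φ Q.hφ Q.h2
  have e : ↥(T6 φ) ≃* ↥(twistedE6 K q) := (MulEquiv.subgroupCongr hG).trans (Subgroup.subgroupOfEquivOfLe hle_E6)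
  have h2 := perfect_E6 dF4 (instE6 K) φ Q.h2 Q.hφ
  have h3 : (commutator ↥(twistedE6 K q)).map e.symm.toMonoidHom = commutator ↥(T6 φ) := by
    rw [commutator_def, commutator_def, Subgroup.map_commutator]
    rw [← MonoidHom.range_eq_map, MonoidHom.range_eq_top.2 e.symm.surjective]
  rw [← h3, h2, ← MonoidHom.range_eq_map, MonoidHom.range_eq_top.2 e.symm.surjective]

include Q hq2 in
/-- the bound for the kernels of stem extensions -/
theorem stem_le {Γ : Type*} [Group Γ] [Finite Γ] {σ : Γ →* ↥(T6 φ)} (hσ : Cfsg.IsStemExtension σ) :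
    Nat.card σ.ker ≤ Nat.gcd 3 (q + 1) := by
  obtain ⟨p, k, hp, hk, hqp⟩ := Q.hq
  have hpp : p.Prime := hp.nat_prime
  exact E6_p' Q hσ hpp k hqp.symm fun h => E6_p Q hq2 hσ hpp (by rw [← hqp]; exact dvd_pow_self _ hk.ne') h

include Q in
theorem fin_HS : Finite ↥(HS φ) := by
  have hf : Finite (chevE6.SteinbergGroup K) :=
    finite_of_pre (by simp [data]) (stOf goodE6 K).toPreSt (stOf_gen goodE6)
  infer_instance

include Q hq2 in
/-- the order of the kernel of the cover -/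
theorem card_ker_thC (h3 : 3 ∣ q + 1) : Nat.card (thC φ).ker = 3 := by
  have hfin := fin_HS Q
  have C := ce_thC (perf_T6 Q)
  have hperf := perfect_comm (ce_thH φ) (perf_T6 Q)
  have hst : Cfsg.IsStemExtension (thC φ) := ⟨C.surj, C.central, by rw [hperf]; exact le_top⟩
  have hle := stem_le Q hq2 hst
  have hg : Nat.gcd 3 (q + 1) = 3 := Nat.gcd_eq_left h3
  rw [hg] at hle
  classical
  -- the elements `ζ` and `d`
  obtain ⟨g, hgen⟩ := IsCyclic.exists_generator (α := Kˣ)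
  have ho : orderOf g = q ^ 2 - 1 := by
    rw [orderOf_eq_card_of_forall_mem_zpowers hgen, Nat.card_eq_fintype_card, Fintype.card_units, Q.hK]
  have h2q := Q.two_le
  have h4 : q ^ 2 - 1 = (q + 1) * (q - 1) := by
    have := Nat.sq_sub_sq q 1
    rw [one_pow] at this
    exact this
  obtain ⟨m, hm⟩ := h3
  have hφu : ∀ t : Kˣ, fu φ t = t ^ q := fun t => Units.ext (by
    rw [Units.val_pow_eq_pow_val]; exact Q.hφ t)
  have hone : g ^ ((q + 1) * (q - 1)) = 1 := by rw [← h4, ← ho, pow_orderOf_eq_one]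
  set ζ : Kˣ := g ^ (m * (q - 1)) with hζ
  have hm0 : 0 < m := by omega
  have hz3 : ζ ^ 3 = 1 := by
    rw [hζ, ← pow_mul, show m * (q - 1) * 3 = (q + 1) * (q - 1) by rw [hm]; ring]
    exact hone
  have hz1 : ζ ≠ 1 := by
    intro h
    have h5 := orderOf_dvd_of_pow_eq_one h
    rw [ho, h4, hm] at h5
    have h6 : 0 < m * (q - 1) := Nat.mul_pos hm0 (by omega)
    have h7 := Nat.le_of_dvd h6 h5
    have h8 : 3 * m * (q - 1) = 3 * (m * (q - 1)) := by ring
    omega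
  have hzφ : fu φ ζ = ζ⁻¹ := by
    rw [hφu, eq_inv_iff_mul_eq_one, ← pow_succ, hm, mul_comm, pow_mul', hz3, one_pow]
  have hd : g ^ 2 ≠ 1 := by
    intro h
    have h5 := orderOf_dvd_of_pow_eq_one h
    rw [ho] at h5
    have h6 := Nat.le_of_dvd (by norm_num) h5
    have h7 : 2 ^ 2 ≤ q ^ 2 := Nat.pow_le_pow_left h2q 2
    omega
  -- the element of the kernel
  have hz := tz_mem (φ := φ) Q.h2 hd ζ
  have hmap : ⁅HS φ, HS φ⁆ = (commutator ↥(HS φ)).map (HS φ).subtype := by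
    rw [commutator_def, Subgroup.map_commutator, ← MonoidHom.range_eq_map, Subgroup.range_subtype]
  rw [hmap] at hz
  obtain ⟨z, hzc, hzv⟩ := hz
  have hzv' : (z : chevE6.SteinbergGroup K) = (stOf goodE6 K).tor sp_E6 (tz φ ζ) := hzv
  have hinj := tor_injective (F := K) goodE6 sp_E6 (good_of_mem (D := chevE8) (by simp [data]))
    (emb_of_chk good1_E6 slData_E6.sl slData_E8.sl chkEmb_E6) (by decide)
  have hθ : (stOf goodE6 K).θ ((stOf goodE6 K).tor sp_E6 (tz φ ζ)) = 1 :=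
    ((stOf goodE6 K).θ_tor_iff sp_E6 _).2 (tz_chi hz3 hzφ)
  have hker : (⟨z, hzc⟩ : ↥(commutator ↥(HS φ))) ∈ (thC φ).ker := by
    rw [MonoidHom.mem_ker]
    apply Subtype.ext
    apply Subtype.ext
    show (stOf goodE6 K).θ (z : chevE6.SteinbergGroup K) = 1
    rw [hzv', hθ]
  have hne : (⟨⟨z, hzc⟩, hker⟩ : (thC φ).ker) ≠ 1 := by
    intro h
    have h5 : (z : chevE6.SteinbergGroup K) = 1 := congrArg (fun y : (thC φ).ker => ((y.1.1 : ↥(HS φ)) : chevE6.SteinbergGroup K)) h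
    rw [hzv'] at h5
    exact tz_ne hz1 (hinj (h5.trans (map_one _).symm))
  have hcube : (⟨⟨z, hzc⟩, hker⟩ : (thC φ).ker) ^ 3 = 1 := by
    apply Subtype.ext
    apply Subtype.ext
    apply Subtype.ext
    show (z : chevE6.SteinbergGroup K) ^ 3 = 1
    rw [hzv', ← map_pow]
    rw [tz_cube hz3, map_one]
  have hord : orderOf (⟨⟨z, hzc⟩, hker⟩ : (thC φ).ker) = 3 := by
    have : Fact (Nat.Prime 3) := ⟨by norm_num⟩
    exact orderOf_eq_prime hcube hne
  have hdvd := orderOf_dvd_natCard (⟨⟨z, hzc⟩, hker⟩ : (thC φ).ker)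
  rw [hord] at hdvd
  have hpos : 0 < Nat.card (thC φ).ker := Nat.card_pos
  have := Nat.le_of_dvd hpos hdvd
  omega

include Q hq2 in
/-- the cover has trivial multiplier -/
theorem mult_cover (h3 : 3 ∣ q + 1) : Cfsg.HasCyclicSchurMultiplier ↥(commutator ↥(HS φ)) 1 := by
  have hfin := fin_HS Q
  apply Cfsg.Agent.Schur.hasCyclicSchurMultiplier_one_of
  intro Γ _ _ σ hσ
  have hperf := perfect_comm (ce_thH φ) (perf_T6 Q)
  have hΓ := stem_perfect hσ hperf
  have C : CE σ := ⟨hσ.1, hσ.2.1⟩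
  have C2 := C.comp_perfect (ce_thC (perf_T6 Q)) hΓ
  have hst : Cfsg.IsStemExtension ((thC φ).comp σ) := ⟨C2.surj, C2.central, by rw [hΓ]; exact le_top⟩
  have hle := stem_le Q hq2 hst
  rw [card_ker_comp hσ.1, card_ker_thC Q hq2 h3, Nat.gcd_eq_left h3] at hle
  have hpos : 0 < Nat.card σ.ker := Nat.card_pos
  exact Subgroup.card_eq_one.1 (by omega)

universe u in
/-- the multiplier of the twisted group of type E6 -/
theorem mult_E6 {K : Type u} [Field K] [Fintype K] {q : ℕ} (hq : IsPrimePow q) (hK : Fintype.card K = q ^ 2)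
    (h2 : q ≠ 2) : Cfsg.HasCyclicSchurMultiplier ↥(twistedE6 K q) (Nat.gcd 3 (q + 1)) := by
  obtain ⟨φ, hφ, hφφ⟩ := setup2 hq hK
  have Q : Qud q φ := ⟨hq, hK, hφ, hφφ⟩
  have hG := hG_E6 φ Q.hφ Q.h2
  have e : ↥(T6 φ) ≃* ↥(twistedE6 K q) := (MulEquiv.subgroupCongr hG).trans (Subgroup.subgroupOfEquivOfLe hle_E6)
  rcases (Nat.dvd_prime (by norm_num : Nat.Prime 3)).1 (Nat.gcd_dvd_left 3 (q + 1)) with h | h
  · rw [h]
    have hfin : Finite ↥(twistedE6 K q) := inferInstance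
    apply mult_one_of_prime
    intro Γ _ _ σ r hr hσ hc
    obtain ⟨hσ', hker⟩ := stem_comp hσ e.symm
    have := stem_le Q h2 hσ'
    rw [h, hker, hc] at this
    exact absurd hr.one_lt (by omega)
  · have h3 : 3 ∣ q + 1 := by rw [← h]; exact Nat.gcd_dvd_right 3 (q + 1)
    rw [h]
    have hfin := fin_HS Q
    have hperf := perfect_comm (ce_thH φ) (perf_T6 Q)
    have C := ce_thC (perf_T6 Q)
    have hst : Cfsg.IsStemExtension (thC φ) := ⟨C.surj, C.central, by rw [hperf]; exact le_top⟩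
    obtain ⟨hst', hker⟩ := stem_comp hst e
    have hc3 := card_ker_thC Q h2 h3
    have : Fact (Nat.Prime 3) := ⟨by norm_num⟩
    have hcyc : IsCyclic (thC φ).ker := isCyclic_of_prime_card hc3
    have hcard : Nat.card (thC φ).ker = Nat.card (Multiplicative (ZMod 3)) := by
      rw [hc3]; simp
    have e0 : (thC φ).ker ≃* Multiplicative (ZMod 3) := mulEquivOfCyclicCardEq hcard
    exact mult_of_central hperf (mult_cover Q h2 h3) (e.toMonoidHom.comp (thC φ)) hst'.1 hst'.2.1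
      ((MulEquiv.subgroupCongr hker).trans e0)

end Cfsg.Agent.MulTw.E6
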