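import Cfsg.Agent.MulTw.E6C

set_option autoImplicit false
set_option maxRecDepth 100000

/-!
Torus elements of the twisted group of type E6.
-/

namespace Cfsg.Agent.MulTw.E6

open Cfsg.Lie Cfsg.Agent.Chev Cfsg.Agent.ChevGrp Cfsg.Agent.ChevGrp.DData Cfsg.Agent.ChevWeyl Cfsg.Agent.ChevTw
open Cfsg.Agent.Tw3

variable {K : Type*} [Field K] (φ : K ≃+* K)

/-- `φ` on units -/
def fu : Kˣ →* Kˣ := Units.map (φ : K →* K)

/-- block data -/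
noncomputable abbrev B6 := bdE6 goodE6 dE6 dF4 φ

/-- torus elements -/
noncomputable def thE (t u v w : Kˣ) : ↥(chevE6.group K) :=
  (B6 φ).hb ⟨0, by decide⟩ t * (B6 φ).hb ⟨1, by decide⟩ u * (B6 φ).hb ⟨2, by decide⟩ v * (B6 φ).hb ⟨3, by decide⟩ w

theorem thE_mem (h2 : ∀ t : K, φ (φ t) = t) (t u v w : Kˣ) (hv : φ (v : K) = v) (hw : φ (w : K) = w) :
    thE φ t u v w ∈ (O6 φ).tw.tw.H := by
  refine mul_mem (mul_mem (mul_mem ?_ ?_) ?_) ?_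
  · exact (B6 φ).H0_le _ ⟨t, fxE0 φ h2 _, rfl⟩
  · exact (B6 φ).H0_le _ ⟨u, fxE1 φ h2 _, rfl⟩
  · exact (B6 φ).H0_le _ ⟨v, (fxE2 φ _).2 hv, rfl⟩
  · exact (B6 φ).H0_le _ ⟨w, (fxE3 φ _).2 hw, rfl⟩

/-- the characters -/
def chE (t u v w : Kˣ) (s : ℕ) : Kˣ :=
  t ^ ct 0 s * (fu φ t) ^ ct 5 s * (u ^ ct 2 s * (fu φ u) ^ ct 4 s) * v ^ ct 3 s * w ^ ct 1 s

theorem m_eq (i : Fin chevE6.rank) (s : Fin chevE6.nroots) : (AE K).m i s = ct i s := dE6.hm i s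

theorem thE_conj (t u v w : Kˣ) (s : Fin chevE6.nroots) (y : K) :
    thE φ t u v w * (AE K).x s y * (thE φ t u v w)⁻¹ = (AE K).x s (chE φ t u v w s * y) := by
  have e : ∀ a b c d x : ↥(chevE6.group K), a * b * c * d * x * (a * b * c * d)⁻¹ =
      a * (b * (c * (d * x * d⁻¹) * c⁻¹) * b⁻¹) * a⁻¹ := by intro a b c d x; group
  unfold thE
  rw [e, BData.hb_conj, BData.hb_conj, BData.hb_conj, BData.hb_conj]
  have h0 : (B6 φ).chb ⟨0, by decide⟩ t s = t ^ ct 0 s * (fu φ t) ^ ct 5 s := by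
    have : (B6 φ).chb ⟨0, by decide⟩ t s = t ^ (AE K).m ⟨0, by decide⟩ s * ((fu φ t) ^ (AE K).m ⟨5, by decide⟩ s * 1) := rfl
    rw [this, m_eq, m_eq, mul_one]
  have h1 : (B6 φ).chb ⟨1, by decide⟩ u s = u ^ ct 2 s * (fu φ u) ^ ct 4 s := by
    have : (B6 φ).chb ⟨1, by decide⟩ u s = u ^ (AE K).m ⟨2, by decide⟩ s * ((fu φ u) ^ (AE K).m ⟨4, by decide⟩ s * 1) := rfl
    rw [this, m_eq, m_eq, mul_one]
  have h2 : (B6 φ).chb ⟨2, by decide⟩ v s = v ^ ct 3 s := by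
    have : (B6 φ).chb ⟨2, by decide⟩ v s = v ^ (AE K).m ⟨3, by decide⟩ s * 1 := rfl
    rw [this, m_eq, mul_one]
  have h3 : (B6 φ).chb ⟨3, by decide⟩ w s = w ^ ct 1 s := by
    have : (B6 φ).chb ⟨3, by decide⟩ w s = w ^ (AE K).m ⟨1, by decide⟩ s * 1 := rfl
    rw [this, m_eq, mul_one]
  rw [h0, h1, h2, h3]
  unfold chE
  push_cast
  congr 1
  ring

theorem ch_one {z : Kˣ} (hz : fu φ z = z⁻¹) (m0 m1 : ℤ) (s : ℕ) :
    chE φ (z ^ m0) (z ^ m1) 1 1 s = z ^ ex1 m0 m1 s := by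
  unfold chE ex1
  rw [map_zpow, map_zpow, hz, one_zpow, one_zpow, mul_one, mul_one, ← zpow_mul, ← zpow_mul, inv_zpow, inv_zpow,
    ← zpow_neg, ← zpow_neg, ← zpow_mul, ← zpow_mul, ← zpow_add, ← zpow_add, ← zpow_add]
  congr 1
  ring

theorem ch_two {c : Kˣ} (hc : fu φ c = c) (m0 m1 m2 m3 : ℤ) (s : ℕ) :
    chE φ (c ^ m0) (c ^ m1) (c ^ m2) (c ^ m3) s = c ^ ex2 m0 m1 m2 m3 s := by
  unfold chE ex2
  rw [map_zpow, map_zpow, hc]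
  simp only [← zpow_mul, ← zpow_add]
  congr 1
  ring

theorem ch_three {g c : Kˣ} (hg : g * fu φ g = c) (m0 m1 m2 m3 : ℤ) {s : ℕ} (h0 : ct 0 s = ct 5 s) (h1 : ct 2 s = ct 4 s) :
    chE φ (g ^ m0) (g ^ m1) (c ^ m2) (c ^ m3) s = c ^ ex3 m0 m1 m2 m3 s := by
  unfold chE ex3
  rw [map_zpow, map_zpow, ← h0, ← h1, ← mul_zpow, ← mul_zpow, ← mul_zpow, ← mul_zpow, hg]
  simp only [← zpow_mul, ← zpow_add]

/-- the elements of the field -/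
theorem exists_elts [Fintype K] {q : ℕ} {φ : K ≃+* K} (Q : Qud q φ) (hq : q ≠ 2) :
    ∃ z c g : Kˣ, fu φ z = z⁻¹ ∧ fu φ c = c ∧ g * fu φ g = c ∧ c ≠ 1 ∧ z ≠ 1 ∧ z ^ 2 ≠ 1 ∧ z ^ 3 ≠ 1 := by
  classical
  obtain ⟨g, hg⟩ := IsCyclic.exists_generator (α := Kˣ)
  have ho : orderOf g = q ^ 2 - 1 := by
    rw [orderOf_eq_card_of_forall_mem_zpowers hg, Nat.card_eq_fintype_card, Fintype.card_units, Q.hK]
  have h3 : 3 ≤ q := by have := Q.two_le; omega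
  have h4 : q ^ 2 - 1 = (q + 1) * (q - 1) := by
    have := Nat.sq_sub_sq q 1
    rw [one_pow] at this
    exact this
  have hφu : ∀ t : Kˣ, fu φ t = t ^ q := fun t => Units.ext (by
    rw [Units.val_pow_eq_pow_val]; exact Q.hφ t)
  have hdvd : ∀ n : ℕ, 0 < n → n < q ^ 2 - 1 → g ^ n ≠ 1 := by
    intro n h1 h2 h
    have := orderOf_dvd_of_pow_eq_one h
    rw [ho] at this
    exact absurd (Nat.le_of_dvd h1 this) (by omega)
  have hone : g ^ ((q + 1) * (q - 1)) = 1 := by rw [← h4, ← ho, pow_orderOf_eq_one]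
  refine ⟨g ^ (q - 1), g ^ (q + 1), g, ?_, ?_, ?_, ?_, ?_, ?_, ?_⟩
  · rw [hφu, eq_inv_iff_mul_eq_one, ← pow_succ, ← pow_mul, mul_comm (q - 1)]; exact hone
  · rw [hφu, ← pow_mul]
    have : (q + 1) * q = (q + 1) * (q - 1) + (q + 1) := by
      obtain ⟨m, rfl⟩ : ∃ m, q = m + 1 := ⟨q - 1, by omega⟩
      rw [Nat.add_sub_cancel]; ring
    rw [this, pow_add, hone, one_mul]
  · rw [hφu, ← pow_succ']
  · apply hdvd _ (by omega)
    rw [h4]; nlinarith [Nat.sub_le q 1, Nat.le_sub_of_add_le (show 2 + 1 ≤ q from h3)]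
  · apply hdvd _ (by omega)
    rw [h4]; nlinarith [Nat.le_sub_of_add_le (show 2 + 1 ≤ q from h3)]
  · rw [← pow_mul]
    apply hdvd _ (by omega)
    rw [h4]; nlinarith [Nat.le_sub_of_add_le (show 2 + 1 ≤ q from h3)]
  · rw [← pow_mul]
    apply hdvd _ (by omega)
    rw [h4]; nlinarith [Nat.le_sub_of_add_le (show 2 + 1 ≤ q from h3)]

/-- small powers -/
theorem small_ne {z : Kˣ} (h1 : z ≠ 1) (h2 : z ^ 2 ≠ 1) (h3 : z ^ 3 ≠ 1) {e : ℤ}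
    (he : e = 1 ∨ e = 2 ∨ e = 3 ∨ e = -1 ∨ e = -2 ∨ e = -3) : z ^ e ≠ 1 := by
  rcases he with rfl | rfl | rfl | rfl | rfl | rfl
  · rwa [zpow_one]
  · exact_mod_cast h2
  · exact_mod_cast h3
  · rwa [zpow_neg, zpow_one, ne_eq, inv_eq_one]
  · rw [zpow_neg, ne_eq, inv_eq_one]; exact_mod_cast h2
  · rw [zpow_neg, ne_eq, inv_eq_one]; exact_mod_cast h3

theorem mb0_ok : ∀ s ∈ mb 0, ex1 1 0 s = 1 ∨ ex1 1 0 s = 2 ∨ ex1 1 0 s = 3 ∨ ex1 1 0 s = -1 ∨ ex1 1 0 s = -2 ∨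
    ex1 1 0 s = -3 := by decide +kernel

/-- the torus elements of a pair of classes -/
theorem exists_kill [Fintype K] {q : ℕ} {φ : K ≃+* K} (Q : Qud q φ) (hq : q ≠ 2) {i j : ℕ} (hi : i < 24) (hj : j < 24)
    (hij : i < j) : ∃ h ∈ (O6 φ).tw.tw.H, (∀ x ∈ Qc K i, h * x = x * h) ∧
      ∀ y ∈ Qc K j, ∃ x ∈ Qc K j, h * x * h⁻¹ * x⁻¹ = y := by
  obtain ⟨z, c, g, hz, hc, hg, hc1, hz1, hz2, hz3⟩ := exists_elts Q hq
  have hcv : φ (c : K) = c := congrArg Units.val hc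
  have hcz : ∀ n : ℤ, φ ((c ^ n : Kˣ) : K) = ((c ^ n : Kˣ) : K) := by
    intro n
    have : fu φ (c ^ n) = c ^ n := by rw [map_zpow, hc]
    exact congrArg Units.val this
  have hin : ∀ {h}, h ∈ (O6 φ).tw.tw.H → h ∈ (AE K).R.H := fun h => h.1
  -- from characters
  have key : ∀ t u v w : Kˣ, φ (v : K) = v → φ (w : K) = w → (∀ s ∈ mb i, chE φ t u v w s = 1) →
      (∀ s ∈ mb j, chE φ t u v w s ≠ 1) → ∃ h ∈ (O6 φ).tw.tw.H, (∀ x ∈ Qc K i, h * x = x * h) ∧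
      ∀ y ∈ Qc K j, ∃ x ∈ Qc K j, h * x * h⁻¹ * x⁻¹ = y := by
    intro t u v w hv hw h1 h2
    have hm := thE_mem φ Q.h2 t u v w hv hw
    refine ⟨thE φ t u v w, hm, ?_, ?_⟩
    · apply Q_cent
      intro s hs y
      rw [thE_conj, h1 s hs, Units.val_one, one_mul]
    · apply Q_surj hj (hin hm)
      intro s hs
      exact ⟨chE φ t u v w s, fun h => h2 s hs (Units.ext h), fun y => thE_conj φ t u v w s y⟩
  have hok := okPair_all i hi j hj hij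
  unfold okPair at hok
  simp only [Bool.or_eq_true, Bool.and_eq_true, beq_iff_eq, List.all_eq_true] at hok
  rcases hok with (⟨⟨-, h1⟩, h2⟩ | ⟨⟨-, h1⟩, h2⟩) | ⟨⟨-, h1⟩, h2⟩
  · refine key (z ^ kp i j 1) (z ^ kp i j 2) 1 1 (by simp) (by simp) ?_ ?_
    · intro s hs
      rw [ch_one φ hz, h1 s hs, zpow_zero]
    · intro s hs
      rw [ch_one φ hz]
      exact small_ne hz1 hz2 hz3 (by have := h2 s hs; tauto)
  · refine key (c ^ kp i j 1) (c ^ kp i j 2) (c ^ kp i j 3) (c ^ kp i j 4) (hcz _) (hcz _) ?_ ?_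
    · intro s hs
      rw [ch_two φ hc, h1 s hs, zpow_zero]
    · intro s hs
      rw [ch_two φ hc]
      rcases h2 s hs with h | h <;> rw [h]
      · rwa [zpow_one]
      · rwa [zpow_neg, zpow_one, ne_eq, inv_eq_one]
  · refine key (g ^ kp i j 1) (g ^ kp i j 2) (c ^ kp i j 3) (c ^ kp i j 4) (hcz _) (hcz _) ?_ ?_
    · intro s hs
      obtain ⟨⟨h3, h4⟩, h5⟩ := h1 s hs
      rw [ch_three φ hg _ _ _ _ h4 h5, h3, zpow_zero]
    · intro s hs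
      obtain ⟨⟨h3, h4⟩, h5⟩ := h2 s hs
      rw [ch_three φ hg _ _ _ _ h4 h5]
      rcases h3 with h | h <;> rw [h]
      · rwa [zpow_one]
      · rwa [zpow_neg, zpow_one, ne_eq, inv_eq_one]

/-- the torus elements of a class -/
theorem exists_fp [Fintype K] {q : ℕ} {φ : K ≃+* K} (Q : Qud q φ) (hq : q ≠ 2) {k : ℕ} (hk : k < 24) :
    ∃ h ∈ (O6 φ).tw.tw.H, ∀ y ∈ Qc K k, ∃ x ∈ Qc K k, h * x * h⁻¹ * x⁻¹ = y := by
  rcases Nat.eq_zero_or_pos k with rfl | h0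
  · obtain ⟨z, c, g, hz, hc, hg, hc1, hz1, hz2, hz3⟩ := exists_elts Q hq
    have hm := thE_mem φ Q.h2 (z ^ (1 : ℤ)) (z ^ (0 : ℤ)) 1 1 (by simp) (by simp)
    refine ⟨_, hm, ?_⟩
    apply Q_surj hk hm.1
    intro s hs
    refine ⟨chE φ (z ^ (1 : ℤ)) (z ^ (0 : ℤ)) 1 1 s, fun h => ?_, fun y => thE_conj φ _ _ _ _ s y⟩
    have h1 : chE φ (z ^ (1 : ℤ)) (z ^ (0 : ℤ)) 1 1 s = 1 := Units.ext h
    rw [ch_one φ hz] at h1
    exact small_ne hz1 hz2 hz3 (mb0_ok s hs) h1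
  · obtain ⟨h, hh, -, h1⟩ := exists_kill Q hq (i := 0) (j := k) (by norm_num) hk h0
    exact ⟨h, hh, h1⟩

end Cfsg.Agent.MulTw.E6
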