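import Cfsg.Agent.Tw3.Levi
import Cfsg.Agent.ChevTw.RowsE6

set_option autoImplicit false
set_option maxRecDepth 100000

/-!
The twisted group of type E6 as a twisted system with orthogonal blocks.
-/

namespace Cfsg.Agent.MulTw

open Cfsg.Lie Cfsg.Agent.Chev Cfsg.Agent.ChevGrp Cfsg.Agent.ChevWeyl Cfsg.Agent.ChevTw Cfsg.Agent.Tw3

theorem cE6_neg : ∀ r < 72, cE6 (chevE6.neg r) = chevF4.neg (cE6 r) := by decide +kernel
theorem cE6_simple' : ∀ r < 72, ∀ j < 4, (cE6 r = chevF4.simple j ↔ ∃ i ∈ blE6 j, r = chevE6.simple i) := by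
  decide +kernel
theorem comm_E6all : ∀ j < 4, ∀ i ∈ blE6 j, ∀ k ∈ blE6 j, i ≠ k →
    ∀ s ∈ [chevE6.simple i, chevE6.neg (chevE6.simple i)], ∀ s' ∈ [chevE6.simple k, chevE6.neg (chevE6.simple k)],
    s < 72 ∧ s' < 72 ∧ s' ≠ s ∧ s' ≠ chevE6.neg s ∧ chevE6.commTerms s s' = [] := by decide +kernel
theorem lpm_E6 : ∀ i < 6, lpm [5, 1, 4, 3, 2, 0] i < 6 ∧ lpm [5, 1, 4, 3, 2, 0] (lpm [5, 1, 4, 3, 2, 0] i) = i := by decide
theorem simp_E6_1 : ∀ i < 6, wv gpE6_1 (chevE6.simple i) = chevE6.simple (lpm [5, 1, 4, 3, 2, 0] i) ∧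
    wb gpE6_1 (chevE6.simple i) = 0 := by decide +kernel

variable {K : Type*} [Field K] (H : Good chevE6) (E : DData chevE6) (E' : DData chevF4) (φ : K ≃+* K)

/-- the permutation of the diagram -/
def piE6 : Equiv.Perm (Fin 6) where
  toFun i := ⟨lpm [5, 1, 4, 3, 2, 0] i, (lpm_E6 i i.2).1⟩
  invFun i := ⟨lpm [5, 1, 4, 3, 2, 0] i, (lpm_E6 i i.2).1⟩
  left_inv i := Fin.ext (lpm_E6 i i.2).2
  right_inv i := Fin.ext (lpm_E6 i i.2).2

/-- the blocks -/
def LE6 (j : Fin 4) : List (Fin 6) := match j.val with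
  | 0 => [⟨0, by decide⟩, ⟨5, by decide⟩]
  | 1 => [⟨2, by decide⟩, ⟨4, by decide⟩]
  | 2 => [⟨3, by decide⟩]
  | _ => [⟨1, by decide⟩]

/-- the signs -/
def epsE6 (K : Type*) [Field K] (r : Fin chevE6.nroots) : Kˣ := if gs gpE6_1 r = 1 then 1 else -1

theorem epsE6_val (r : Fin chevE6.nroots) : ((epsE6 K r : Kˣ) : K) = ((gs gpE6_1 r : ℤ) : K) := by
  unfold epsE6
  rcases gs_or gpE6_1 r with h | h
  · rw [h]; simp
  · rw [h, if_neg (by decide)]; simp

theorem mem_LE6 (j : Fin chevF4.rank) (i : Fin chevE6.rank) : i ∈ LE6 j ↔ (i : ℕ) ∈ blE6 j := by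
  have : ∀ j : Fin 4, ∀ i : Fin 6, i ∈ LE6 j ↔ (i : ℕ) ∈ blE6 j := by decide
  exact this j i

theorem npE6_val (i : Fin chevE6.rank) : ((E.rp.wsys.neg (E.rp.wsys.p i) : Fin _) : ℕ) = chevE6.neg (chevE6.simple i) := by
  rw [← pE6_val (E := E) i]; exact E.hneg _
theorem npF4_val (i : Fin chevF4.rank) : ((E'.rp.wsys.neg (E'.rp.wsys.p i) : Fin _) : ℕ) = chevF4.neg (chevF4.simple i) := by
  rw [← pF4_val E' i]; exact E'.hneg _

theorem wdE6_val (j : Fin chevF4.rank) (r : Fin chevE6.nroots) : ((E.rp.wsys.wd (LE6 j) r : Fin _) : ℕ) = jwE6 j r := by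
  obtain ⟨j, hj⟩ := j
  have hj' : j < 4 := hj
  interval_cases j
  · show ((E.rp.w ⟨0, _⟩ (E.rp.w ⟨5, _⟩ r) : Fin _) : ℕ) = _
    rw [E.hw, E.hw]; rfl
  · show ((E.rp.w ⟨2, _⟩ (E.rp.w ⟨4, _⟩ r) : Fin _) : ℕ) = _
    rw [E.hw, E.hw]; rfl
  · show ((E.rp.w ⟨3, _⟩ r : Fin _) : ℕ) = _
    rw [E.hw]; rfl
  · show ((E.rp.w ⟨1, _⟩ r : Fin _) : ℕ) = _
    rw [E.hw]; rfl

theorem piE6_gs (i : Fin chevE6.rank) : gs gpE6_1 (chevE6.simple i) = 1 := by
  unfold gs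
  rw [(simp_E6_1 i i.2).2]; rfl

/-- the data of the twist -/
noncomputable def oE6 : OData (amb H E K) E'.rp.wsys where
  cls := clsE6
  ρ := rho gok_E6_1
  π := piE6
  θ := φ
  ε := epsE6 K
  σ := sgm H gok_E6_1 piok_E6_1 pj_E6_1 φ
  L := LE6
  σ_x r t := by
    show sgm H gok_E6_1 piok_E6_1 pj_E6_1 φ (xG H.toGood2 r t) = xG H.toGood2 (rho gok_E6_1 r : Fin _) _
    rw [sgm_xG H _ _ _ φ r.2, epsE6_val]; rfl
  ρ_p i := by
    apply Fin.ext
    rw [rho_val, pE6_val, pE6_val]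
    exact (simp_E6_1 i i.2).1
  ρ_np i := by
    apply Fin.ext
    rw [rho_val, npE6_val, npE6_val, gok_E6_1.neg _ (H.simple_lt i i.2), (simp_E6_1 i i.2).1]
    rfl
  ε_p i := by
    unfold epsE6
    rw [pE6_val, piE6_gs, if_pos rfl]
  ε_np i := by
    unfold epsE6
    rw [npE6_val, gok_E6_1.sneg _ (H.simple_lt i i.2), piE6_gs, if_pos rfl]
  pos_cls r := by
    rw [posE6_iff, posF4_iff]
    exact cE6_pos r r.2
  cls_Jw j r := by
    apply Fin.ext
    show cE6 ((E.rp.wsys.wd (LE6 j) r : Fin _) : ℕ) = ((E'.rp.w j (clsE6 r) : Fin _) : ℕ)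
    rw [wdE6_val, E'.hw]
    exact cE6_jw j j.2 r r.2
  cls_ρ r := Fin.ext (cE6_rho r r.2)
  cls_neg r := by
    apply Fin.ext
    show cE6 ((E.rp.neg r : Fin _) : ℕ) = ((E'.rp.neg (clsE6 r) : Fin _) : ℕ)
    rw [E.hneg, E'.hneg]
    exact cE6_neg r r.2
  cls_iff j r := by
    rw [clsE6_eq_p_iff, cE6_simple' r r.2 j j.2]
    constructor
    · rintro ⟨i, hi, h⟩
      have hi4 : i < 6 := by
        have : ∀ j < 4, ∀ i ∈ blE6 j, i < 6 := by decide
        exact this j j.2 i hi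
      exact ⟨⟨i, hi4⟩, (mem_LE6 _ _).2 hi, Fin.ext (by rw [pE6_val]; exact h)⟩
    · rintro ⟨i, hi, rfl⟩
      exact ⟨i, (mem_LE6 _ _).1 hi, pE6_val (E := E) i⟩
  wd_p j i hi := by
    apply Fin.ext
    rw [wdE6_val, npE6_val, pE6_val]
    exact jwE6_simple i i.2 j j.2 ((mem_LE6 _ _).1 hi)
  L_nodup j := by
    have : ∀ j : Fin 4, (LE6 j).Nodup := by decide
    exact this j
  L_ne j := by
    have : ∀ j : Fin 4, LE6 j ≠ [] := by decide
    exact this j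
  L_all i := by
    have : ∀ i : Fin 6, ∃ j : Fin 4, i ∈ LE6 j := by decide
    exact this i
  L_trans j i hi i' hi' := by
    have : ∀ j : Fin 4, ∀ i ∈ LE6 j, ∀ i' ∈ LE6 j, ∃ k < 2, (piE6 ^ k) i = i' := by decide
    obtain ⟨k, -, hk⟩ := this j i hi i' hi'
    exact ⟨k, hk⟩
  orth j i hi k hk hne s hs s' hs' t u := by
    show xG H.toGood2 s t * xG H.toGood2 s' u = xG H.toGood2 s' u * xG H.toGood2 s t
    have hi1 := (mem_LE6 _ _).1 hi
    have hk1 := (mem_LE6 _ _).1 hk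
    have hs1 : (s : ℕ) ∈ [chevE6.simple i, chevE6.neg (chevE6.simple i)] := by
      rcases hs with rfl | rfl
      · rw [pE6_val]; simp
      · rw [npE6_val]; simp
    have hs2 : (s' : ℕ) ∈ [chevE6.simple k, chevE6.neg (chevE6.simple k)] := by
      rcases hs' with rfl | rfl
      · rw [pE6_val]; simp
      · rw [npE6_val]; simp
    obtain ⟨h1, h2, h3, h4, h5⟩ := comm_E6all j j.2 i hi1 k hk1 (fun h => hne (Fin.ext h)) s hs1 s' hs2
    exact xG_comm H h1 h2 h3 h4 h5 t u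
  XU j r hr := by
    apply XU_gen H E (aE6 j)
    · intro s
      exact blE6_P E' j s
    · exact blE6_Q E' j r hr
  LU j := by
    apply LU_gen H E (aE6 j)
    · intro s hs
      exact (blE6_P E' j s).1 hs
    · exact blE6_Q E' j

/-- block data -/
noncomputable def bdE6 : BData (oE6 H E E' φ) where
  b j := match j.val with
    | 0 => ⟨0, by decide⟩
    | 1 => ⟨2, by decide⟩
    | 2 => ⟨3, by decide⟩
    | _ => ⟨1, by decide⟩
  sz j := match j.val with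
    | 0 => 2
    | 1 => 2
    | _ => 1
  e i := match i.val with
    | 4 => 1
    | 5 => 1
    | _ => 0
  b_mem j := by
    obtain ⟨j, hj⟩ := j
    have hj' : j < 4 := hj
    interval_cases j
    · exact List.mem_cons_self
    · exact List.mem_cons_self
    · exact List.mem_cons_self
    · exact List.mem_cons_self
  e_b j := by
    obtain ⟨j, hj⟩ := j
    have hj' : j < 4 := hj
    interval_cases j <;> rfl
  per j := by
    obtain ⟨j, hj⟩ := j
    have hj' : j < 4 := hj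
    interval_cases j
    · show (piE6 ^ 2) (⟨0, _⟩ : Fin 6) = ⟨0, _⟩
      decide
    · show (piE6 ^ 2) (⟨2, _⟩ : Fin 6) = ⟨2, _⟩
      decide
    · show (piE6 ^ 1) (⟨3, _⟩ : Fin 6) = ⟨3, _⟩
      decide
    · show (piE6 ^ 1) (⟨1, _⟩ : Fin 6) = ⟨1, _⟩
      decide
  e_succ j i hi := by
    obtain ⟨j, hj⟩ := j
    have hj' : j < 4 := hj
    interval_cases j
    · have key : ∀ i : Fin 6, i ∈ LE6 0 → i = 0 ∨ i = 5 := by decide
      have h : i = (0 : Fin 6) ∨ i = (5 : Fin 6) := key i hi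
      rcases h with rfl | rfl
      · left; rfl
      · right; exact ⟨rfl, rfl⟩
    · have key : ∀ i : Fin 6, i ∈ LE6 1 → i = 2 ∨ i = 4 := by decide
      have h : i = (2 : Fin 6) ∨ i = (4 : Fin 6) := key i hi
      rcases h with rfl | rfl
      · left; rfl
      · right; exact ⟨rfl, rfl⟩
    · have key : ∀ i : Fin 6, i ∈ LE6 2 → i = 3 := by decide
      have h : i = (3 : Fin 6) := key i hi
      subst h
      right; exact ⟨rfl, rfl⟩
    · have key : ∀ i : Fin 6, i ∈ LE6 3 → i = 1 := by decide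
      have h : i = (1 : Fin 6) := key i hi
      subst h
      right; exact ⟨rfl, rfl⟩

end Cfsg.Agent.MulTw
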