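import Cfsg.Agent.MulTw.E6O
import Cfsg.Agent.MulTw.D4X
import Cfsg.Agent.ChevTw.OrdE6

set_option autoImplicit false
set_option maxRecDepth 100000

/-!
The part of the multiplier of the twisted group of type E6 prime to the characteristic.
-/

namespace Cfsg.Agent.MulTw

open Cfsg.Lie Cfsg.Agent.Chev Cfsg.Agent.ChevGrp Cfsg.Agent.ChevGrp.DData Cfsg.Agent.ChevWeyl Cfsg.Agent.ChevTw
open Cfsg.Agent.Tw3 Cfsg.Agent.Mult
open scoped commutatorElement

/-- the data of a quadratic extension -/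
structure Qud {K : Type*} [Field K] [Fintype K] (q : ℕ) (φ : K ≃+* K) : Prop where
  hq : IsPrimePow q
  hK : Fintype.card K = q ^ 2
  hφ : ∀ t : K, φ t = t ^ q
  h2 : ∀ t : K, φ (φ t) = t

variable {K : Type*} [Field K] (φ : K ≃+* K)

/-- the twisted system -/
noncomputable abbrev O6 := oE6 goodE6 dE6 dF4 φ
/-- the twisted group -/
noncomputable abbrev T6 : Subgroup ↥(chevE6.group K) := (O6 φ).tw.G1

/-- the twisted group -/
theorem hG_E6 {q : ℕ} (hφ : ∀ t : K, φ t = t ^ q) (h2 : ∀ t : K, φ (φ t) = t) :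
    T6 φ = (twistedE6 K q).subgroupOf (chevE6.group K) :=
  (twE6 dF4 (instE6 K) φ h2 hφ).G1_eq.symm

theorem hle_E6 {q : ℕ} : twistedE6 K q ≤ chevE6.group K := genSub_le goodE6.toGood2 _

/-- the instance -/
noncomputable def A6 {q : ℕ} (hφ : ∀ t : K, φ t = t ^ q) (h2 : ∀ t : K, φ (φ t) = t) :
    TwInst chevE6 K dF4.rp.wsys (twistedE6 K q) where
  H := goodE6
  E := dE6
  I := instE6 K
  T := (O6 φ).tw
  le := hle_E6
  eq := hG_E6 φ hφ h2

theorem card_tw_U {q : ℕ} (hφ : ∀ t : K, φ t = t ^ q) (h2 : ∀ t : K, φ (φ t) = t) :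
    Nat.card ↥(O6 φ).tw.tw.U = Nat.card ↥(chevE6.posUnipotent K ⊓ twistedE6 K q) := by
  rw [← (A6 φ hφ h2).R_U]
  have h : (A6 φ hφ h2).R.U = (O6 φ).tw.tw.U.map (chevE6.group K).subtype := RGrp.mapR_U ..
  rw [h, Subgroup.card_map_of_injective (Subgroup.subtype_injective _)]

theorem card_tw_H {q : ℕ} (hφ : ∀ t : K, φ t = t ^ q) (h2 : ∀ t : K, φ (φ t) = t) :
    Nat.card ↥(O6 φ).tw.tw.H = Nat.card ↥(chevE6.diagonalSubgroup K ⊓ twistedE6 K q) := by
  rw [← (A6 φ hφ h2).R_H]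
  have h : (A6 φ hφ h2).R.H = (O6 φ).tw.tw.H.map (chevE6.group K).subtype := RGrp.mapR_H ..
  rw [h, Subgroup.card_map_of_injective (Subgroup.subtype_injective _)]

theorem fxE0 (h2 : ∀ t : K, φ (φ t) = t) (c : K) : (bdE6 goodE6 dE6 dF4 φ).IsFx ⟨0, by decide⟩ c := h2 c
theorem fxE1 (h2 : ∀ t : K, φ (φ t) = t) (c : K) : (bdE6 goodE6 dE6 dF4 φ).IsFx ⟨1, by decide⟩ c := h2 c
theorem fxE2 (c : K) : (bdE6 goodE6 dE6 dF4 φ).IsFx ⟨2, by decide⟩ c ↔ φ c = c := Iff.rfl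
theorem fxE3 (c : K) : (bdE6 goodE6 dE6 dF4 φ).IsFx ⟨3, by decide⟩ c ↔ φ c = c := Iff.rfl

variable {φ} [Fintype K] {q : ℕ} (Q : Qud q φ)
include Q

theorem Qud.two_le : 2 ≤ q := Q.hq.two_le

open Classical in
/-- the part prime to the characteristic -/
theorem E6_p' {Γ : Type*} [Group Γ] [Finite Γ] {σ : Γ →* ↥(T6 φ)} (hσ : Cfsg.IsStemExtension σ) {p : ℕ} (hpp : p.Prime)
    (k : ℕ) (hqp : q = p ^ k) (hcop : ¬ p ∣ Nat.card σ.ker) : Nat.card σ.ker ≤ Nat.gcd 3 (q + 1) := by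
  have : Fact p.Prime := ⟨hpp⟩
  set R := (O6 φ).tw.tw with hR
  have hGrp : R.Grp = T6 φ := TwData.tw_Grp _
  have hker : ((T6 φ).subtype.comp σ).ker = σ.ker := by
    ext x
    simp [MonoidHom.mem_ker]
  have E : PExt p ((T6 φ).subtype.comp σ) :=
    { prime := hpp
      central := by rw [hker]; exact hσ.2.1
      cop := by
        rw [hker]
        exact (Nat.Prime.coprime_iff_not_dvd hpp).2 hcop }
  have hrange : ((T6 φ).subtype.comp σ).range = R.Grp := by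
    rw [hGrp, MonoidHom.range_comp, MonoidHom.range_eq_top.2 hσ.1, ← MonoidHom.range_eq_map, Subgroup.range_subtype]
  have hgen : R.Grp ≤ gen R.X (fun _ => True) := by
    rw [hGrp]
    unfold T6
    rw [TwData.G1_eq']
    exact iSup_le fun j => sup_le (le_gen (X := R.X) (P := fun _ => True) trivial) (le_gen (X := R.X) (P := fun _ => True) trivial)
  have hG := hG_E6 φ Q.hφ Q.h2
  have hcU : Nat.card R.U = q ^ 36 := by
    rw [card_tw_U φ Q.hφ Q.h2]
    exact card_U_E6 dF4 (instE6 K) φ Q.h2 Q.hφ Q.two_le Q.hK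
  have pU : IsPGroup p R.U := by
    apply IsPGroup.of_card (n := k * 36)
    rw [hcU, hqp, ← pow_mul]
  have hperfT : commutator ↥(T6 φ) = ⊤ := by
    have e : ↥(T6 φ) ≃* ↥(twistedE6 K q) := (MulEquiv.subgroupCongr hG).trans (Subgroup.subgroupOfEquivOfLe hle_E6)
    have h2 := perfect_E6 dF4 (instE6 K) φ Q.h2 Q.hφ
    have h3 : (commutator ↥(twistedE6 K q)).map e.symm.toMonoidHom = commutator ↥(T6 φ) := by
      rw [commutator_def, commutator_def, Subgroup.map_commutator]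
      rw [← MonoidHom.range_eq_map, MonoidHom.range_eq_top.2 e.symm.surjective]
    rw [← h3, h2, ← MonoidHom.range_eq_map, MonoidHom.range_eq_top.2 e.symm.surjective]
  have hperf := stem_perfect hσ hperfT
  have key := card_ker_le E pU (pV_of_pU pU) hrange hgen hperf (rkTw (bdE6 goodE6 dE6 dF4 φ) (amb_eta goodE6 dE6 K))
  have hH : Nat.gcd 3 (q + 1) * Nat.card R.H = (q - 1) ^ 4 * (q + 1) ^ 2 := by
    rw [card_tw_H φ Q.hφ Q.h2]
    exact card_H_E6 dF4 (instE6 K) φ Q.two_le Q.hK Q.h2 Q.hφ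
  have c2 : ∀ j : Fin chevF4.rank, (∀ c, (bdE6 goodE6 dE6 dF4 φ).IsFx j c) →
      Nat.card ↥(FxF (bdE6 goodE6 dE6 dF4 φ) j) = q ^ 2 := by
    intro j hj
    rw [← Q.hK, ← Nat.card_eq_fintype_card]
    exact Nat.card_congr (Equiv.subtypeUnivEquiv fun c => hj c)
  have c1 : ∀ j : Fin chevF4.rank, (∀ c, (bdE6 goodE6 dE6 dF4 φ).IsFx j c ↔ φ c = c) →
      Nat.card ↥(FxF (bdE6 goodE6 dE6 dF4 φ) j) = q := by
    intro j hj
    have h2 : Nat.card ↥(FxF (bdE6 goodE6 dE6 dF4 φ) j) = Nat.card {c : K // c ^ q = c} :=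
      Nat.card_congr (Equiv.subtypeEquivRight fun c => by
        rw [mem_FxF, hj, Q.hφ])
    rw [h2, card_fix Q.two_le Q.hK]
  have hprod : ∀ f : Fin chevF4.rank → ℕ, ∏ j, f j = f ⟨0, by decide⟩ * f ⟨1, by decide⟩ * f ⟨2, by decide⟩ * f ⟨3, by decide⟩ :=
    fun f => Fin.prod_univ_four (f := fun j : Fin 4 => f j)
  rw [hprod] at key
  simp only [← Nat.card_eq_fintype_card] at key
  rw [c2 ⟨0, by decide⟩ (fxE0 φ Q.h2), c2 ⟨1, by decide⟩ (fxE1 φ Q.h2), c1 ⟨2, by decide⟩ (fxE2 φ), c1 ⟨3, by decide⟩ (fxE3 φ)] at key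
  rw [hker] at key
  have hq := Q.two_le
  have h4 : q ^ 2 - 1 = (q + 1) * (q - 1) := by
    have := Nat.sq_sub_sq q 1
    rw [one_pow] at this
    exact this
  rw [h4] at key
  have hpos : 0 < Nat.card R.H := by
    by_contra h
    have h5 : Nat.card R.H = 0 := by omega
    rw [h5, mul_zero] at hH
    have : 0 < (q - 1) ^ 4 * (q + 1) ^ 2 := Nat.mul_pos (Nat.pow_pos (by omega)) (Nat.pow_pos (by omega))
    omega
  have h5 : (q + 1) * (q - 1) * ((q + 1) * (q - 1)) * (q - 1) * (q - 1) = Nat.gcd 3 (q + 1) * Nat.card R.H := by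
    rw [hH]; ring
  rw [h5] at key
  exact Nat.le_of_mul_le_mul_right key hpos

end Cfsg.Agent.MulTw
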