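import Cfsg.Agent.Tw3.PerfD4

set_option autoImplicit false

/-!
Cubic extensions of finite fields: invariant biadditive maps.
-/

namespace Cfsg.Agent.MulTw

open Cfsg.Agent.Tw3

variable {K : Type*} [Field K] [Fintype K] {q : ℕ} {φ : K ≃+* K}

/-- hypotheses on the field automorphism -/
structure Cub (q : ℕ) (φ : K ≃+* K) : Prop where
  hq : IsPrimePow q
  hK : Fintype.card K = q ^ 3
  hφ : ∀ t : K, φ t = t ^ q
  h3 : ∀ t : K, φ (φ (φ t)) = t

/-- elements of norm one -/
def NOne (φ : K ≃+* K) (μ : Kˣ) : Prop := (μ : K) * φ μ * φ (φ μ) = 1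

variable (C : Cub q φ)

include C

theorem Cub.two_le : 2 ≤ q := C.hq.two_le

omit [Fintype K] C in
theorem NOne.mul {μ ν : Kˣ} (h1 : NOne φ μ) (h2 : NOne φ ν) : NOne φ (μ * ν) := by
  unfold NOne at *
  rw [Units.val_mul, map_mul, map_mul]
  have : (μ : K) * ν * (φ μ * φ ν) * (φ (φ μ) * φ (φ ν)) = ((μ : K) * φ μ * φ (φ μ)) * ((ν : K) * φ ν * φ (φ ν)) := by ring
  rw [this, h1, h2, one_mul]

omit [Fintype K] C in
theorem NOne.inv {μ : Kˣ} (h1 : NOne φ μ) : NOne φ μ⁻¹ := by
  unfold NOne at *
  rw [Units.val_inv_eq_inv_val, map_inv₀, map_inv₀, ← mul_inv, ← mul_inv, h1, inv_one]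

theorem nOne_div (x : Kˣ) : NOne φ (x * (Units.map (φ : K →* K) x)⁻¹) := by
  unfold NOne
  have h0 : (x : K) ≠ 0 := x.ne_zero
  have h1 : φ (x : K) ≠ 0 := by rw [ne_eq, map_eq_zero_iff _ φ.injective]; exact h0
  have h2 : φ (φ (x : K)) ≠ 0 := by rw [ne_eq, map_eq_zero_iff _ φ.injective]; exact h1
  have e : ((x * (Units.map (φ : K →* K) x)⁻¹ : Kˣ) : K) = x * (φ x)⁻¹ := by
    rw [Units.val_mul, Units.val_inv_eq_inv_val]; rfl
  rw [e, map_mul, map_inv₀, map_mul, map_inv₀, C.h3]
  field_simp

/-- there are nontrivial elements of norm one -/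
theorem exists_nOne : ∃ μ : Kˣ, NOne φ μ ∧ (μ : K) ≠ 1 := by
  -- an element not fixed by `φ`
  have h : ∃ x : K, φ x ≠ x := by
    by_contra hcon
    push Not at hcon
    have h1 := card_fix (K := K) C.two_le C.hK
    have h2 : Nat.card {c : K // c ^ q = c} = Nat.card K :=
      Nat.card_congr (Equiv.subtypeUnivEquiv fun c => by rw [← C.hφ, hcon c])
    rw [h1, Nat.card_eq_fintype_card, C.hK] at h2
    have h3 := C.two_le
    have : q < q ^ 3 := by
      have : q ^ 3 = q * (q * q) := by ring
      rw [this]; nlinarith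
    omega
  obtain ⟨x, hx⟩ := h
  have hx0 : x ≠ 0 := by
    rintro rfl
    exact hx (map_zero φ)
  refine ⟨_, nOne_div C (Units.mk0 x hx0), ?_⟩
  intro h1
  apply hx
  have e : ((Units.mk0 x hx0 * (Units.map (φ : K →* K) (Units.mk0 x hx0))⁻¹ : Kˣ) : K) = x * (φ x)⁻¹ := by
    rw [Units.val_mul, Units.val_inv_eq_inv_val]; rfl
  rw [e] at h1
  have h2 : φ x ≠ 0 := by rw [ne_eq, map_eq_zero_iff _ φ.injective]; exact hx0
  rw [mul_inv_eq_one₀ h2] at h1
  exact h1.symm

/-- the number of elements of norm one -/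
theorem card_nOne_ge : q ^ 2 < Nat.card {μ : Kˣ // NOne φ μ} := by
  classical
  let f : Kˣ →* Kˣ :=
    { toFun := fun x => x * (Units.map (φ : K →* K) x)⁻¹
      map_one' := by simp
      map_mul' := fun x y => by
        rw [map_mul, mul_inv]
        exact mul_mul_mul_comm _ _ _ _ }
  have hf : ∀ x, f x = x * (Units.map (φ : K →* K) x)⁻¹ := fun _ => rfl
  have h1 : Nat.card f.range ≤ Nat.card {μ : Kˣ // NOne φ μ} := by
    have : Finite {μ : Kˣ // NOne φ μ} := inferInstance
    refine Nat.card_le_card_of_injective (fun y : f.range => (⟨(y : Kˣ), ?_⟩ : {μ : Kˣ // NOne φ μ})) ?_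
    · obtain ⟨x, hx⟩ := y.2
      rw [← hx]; exact nOne_div C x
    · intro a b h
      exact Subtype.ext (congrArg (fun z : {μ : Kˣ // NOne φ μ} => (z : Kˣ)) h)
  have h2 : Nat.card f.ker = q - 1 := by
    rw [← card_fix_units (K := K) C.two_le C.hK]
    refine Nat.card_congr (Equiv.subtypeEquivRight fun x => ?_)
    rw [MonoidHom.mem_ker, hf, mul_inv_eq_one, ← C.hφ]
    constructor
    · intro h; exact (congrArg Units.val h).symm
    · intro h; exact Units.ext h.symm
  have h3 := Subgroup.card_mul_index f.ker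
  rw [Subgroup.index_ker, h2, Nat.card_units, Nat.card_eq_fintype_card (α := K), C.hK] at h3
  have h4 := C.two_le
  obtain ⟨m, rfl⟩ : ∃ m, q = m + 1 := ⟨q - 1, by omega⟩
  have e1 : (m + 1) ^ 3 - 1 = m * ((m + 1) ^ 2 + (m + 1) + 1) := by
    have : (m + 1) ^ 3 = m * ((m + 1) ^ 2 + (m + 1) + 1) + 1 := by ring
    omega
  rw [e1, Nat.add_sub_cancel] at h3
  have h5 : Nat.card f.range = (m + 1) ^ 2 + (m + 1) + 1 := Nat.eq_of_mul_eq_mul_left (by omega) h3
  omega

/-- a subring containing the elements of norm one is the whole field -/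
theorem subring_top (R : Subring K) (hR : ∀ μ : Kˣ, NOne φ μ → (μ : K) ∈ R) (x : K) : x ∈ R := by
  classical
  -- `R` is a subfield
  let E : Subfield K :=
    { R with
      inv_mem' := by
        intro a ha
        by_cases h : a = 0
        · rw [h, inv_zero]; exact R.zero_mem
        · have h1 : a ^ (Fintype.card K - 1) = 1 := FiniteField.pow_card_sub_one_eq_one a h
          have h2 : a⁻¹ = a ^ (Fintype.card K - 2) := by
            have h3 : 2 ≤ Fintype.card K := by
              have : 1 < Fintype.card K := Fintype.one_lt_card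
              omega
            have h4 : a * a ^ (Fintype.card K - 2) = 1 := by
              rw [← pow_succ', ← h1]; congr 1; omega
            exact (eq_inv_of_mul_eq_one_right h4).symm
          rw [h2]
          exact R.pow_mem ha _ }
  have hE : ∀ y, y ∈ E ↔ y ∈ R := fun _ => Iff.rfl
  have h1 : Nat.card {μ : Kˣ // NOne φ μ} ≤ Nat.card E := by
    refine Nat.card_le_card_of_injective (fun μ : {μ : Kˣ // NOne φ μ} => (⟨((μ : Kˣ) : K), hR _ μ.2⟩ : E)) ?_
    intro a b h
    exact Subtype.ext (Units.ext (congrArg (fun z : E => (z : K)) h))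
  have h2 := card_nOne_ge C
  have h3 : Fintype.card K = Fintype.card E ^ Module.finrank E K := Module.card_eq_pow_finrank
  have h4 : Nat.card E = Fintype.card E := Nat.card_eq_fintype_card
  have h5 : q ^ 2 < Fintype.card E := by omega
  have h6 : Module.finrank E K ≤ 1 := by
    by_contra hcon
    have h7 : 2 ≤ Module.finrank E K := by omega
    have h8 : Fintype.card E ^ 2 ≤ Fintype.card E ^ Module.finrank E K :=
      Nat.pow_le_pow_right (by omega) h7
    rw [← h3, C.hK] at h8
    have h9 : (q ^ 2) ^ 2 < Fintype.card E ^ 2 := Nat.pow_lt_pow_left h5 (by norm_num)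
    have h10 : q ^ 3 ≤ (q ^ 2) ^ 2 := by
      rw [← pow_mul]
      exact Nat.pow_le_pow_right (by have := C.two_le; omega) (by norm_num)
    omega
  have h7 : Fintype.card K ≤ Fintype.card E := by
    rw [h3]
    calc Fintype.card E ^ Module.finrank E K ≤ Fintype.card E ^ 1 := Nat.pow_le_pow_right (by omega) h6
      _ = _ := pow_one _
  have h8 : Function.Bijective (fun y : E => (y : K)) := by
    rw [Fintype.bijective_iff_injective_and_card]
    exact ⟨Subtype.val_injective, le_antisymm (Fintype.card_le_of_injective _ Subtype.val_injective) h7⟩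
  obtain ⟨y, hy⟩ := h8.2 x
  rw [← hy]; exact y.2

variable {A : Type*} [Group A]

/-- biadditive maps (written multiplicatively) -/
structure BiAdd (f : K → K → A) : Prop where
  left : ∀ t t' u, f (t + t') u = f t u * f t' u
  right : ∀ t u u', f t (u + u') = f t u * f t u'

omit [Fintype K] C in
theorem BiAdd.zero_left {f : K → K → A} (h : BiAdd f) (u : K) : f 0 u = 1 := by
  have := h.left 0 0 u
  rw [add_zero] at this
  exact mul_eq_left.1 this.symm

omit [Fintype K] C in
theorem BiAdd.zero_right {f : K → K → A} (h : BiAdd f) (u : K) : f u 0 = 1 := by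
  have := h.right u 0 0
  rw [add_zero] at this
  exact mul_eq_left.1 this.symm

omit [Fintype K] C in
theorem BiAdd.neg_left {f : K → K → A} (h : BiAdd f) (t u : K) : f (-t) u = (f t u)⁻¹ := by
  rw [eq_inv_iff_mul_eq_one, ← h.left, neg_add_cancel, h.zero_left]

omit [Fintype K] C in
theorem BiAdd.neg_right {f : K → K → A} (h : BiAdd f) (t u : K) : f t (-u) = (f t u)⁻¹ := by
  rw [eq_inv_iff_mul_eq_one, ← h.right, neg_add_cancel, h.zero_right]

/-- (F2) -/
theorem F2 {f : K → K → A} (h : BiAdd f) (hf : ∀ μ : Kˣ, NOne φ μ → ∀ u v, f (μ * u) ((μ : K)⁻¹ * v) = f u v) (u v : K) :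
    f u v = f 1 (u * v) := by
  let R : Subring K :=
    { carrier := {r | ∀ u v, f (r * u) v = f u (r * v)}
      mul_mem' := fun {a b} ha hb u v => by
        change f (a * b * u) v = f u (a * b * v)
        rw [mul_assoc, ha, hb]
        congr 1; ring
      one_mem' := fun u v => by rw [one_mul, one_mul]
      add_mem' := fun {a b} ha hb u v => by
        change f ((a + b) * u) v = f u ((a + b) * v)
        rw [add_mul, add_mul, h.left, h.right, ha, hb]
      zero_mem' := fun u v => by rw [zero_mul, zero_mul, h.zero_left, h.zero_right]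
      neg_mem' := fun {a} ha u v => by
        change f (-a * u) v = f u (-a * v)
        rw [neg_mul, neg_mul, h.neg_left, h.neg_right, ha] }
  have h1 : ∀ r, ∀ u v, f (r * u) v = f u (r * v) := by
    intro r
    have : r ∈ R := subring_top C R (fun μ hμ u v => by
      have h2 := hf μ hμ u (μ * v)
      rw [inv_mul_cancel_left₀ μ.ne_zero] at h2
      exact h2) r
    exact this
  have h2 := h1 u 1 v
  rw [mul_one] at h2
  exact h2

/-- (F1) -/
theorem F1 {f : K → K → A} (h : BiAdd f) (hf : ∀ μ : Kˣ, NOne φ μ → ∀ u v, f (μ * u) (μ * v) = f u v) (u v : K) :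
    f u v = 1 := by
  by_contra hne
  have huniq : ∀ s, (∀ u v, f u (s * v) = 1) → s = 0 := by
    intro s hs
    by_contra hs0
    apply hne
    have := hs u (s⁻¹ * v)
    rwa [mul_inv_cancel_left₀ hs0] at this
  -- the relation
  let R : Subring K :=
    { carrier := {r | ∃ s, ∀ u v, f (r * u) v = f u (s * v)}
      mul_mem' := by
        rintro a b ⟨s, hs⟩ ⟨s', hs'⟩
        refine ⟨s' * s, fun u v => ?_⟩
        rw [mul_assoc, hs, hs', mul_assoc]
      one_mem' := ⟨1, fun u v => by rw [one_mul, one_mul]⟩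
      add_mem' := by
        rintro a b ⟨s, hs⟩ ⟨s', hs'⟩
        refine ⟨s + s', fun u v => ?_⟩
        rw [add_mul, add_mul, h.left, h.right, hs, hs']
      zero_mem' := ⟨0, fun u v => by rw [zero_mul, zero_mul, h.zero_left, h.zero_right]⟩
      neg_mem' := by
        rintro a ⟨s, hs⟩
        refine ⟨-s, fun u v => ?_⟩
        rw [neg_mul, neg_mul, h.neg_left, h.neg_right, hs] }
  have hall : ∀ r : K, ∃ s, ∀ u v, f (r * u) v = f u (s * v) := by
    intro r
    have : r ∈ R := subring_top C R (fun μ hμ => ⟨(μ : K)⁻¹, fun u v => by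
      have h2 := hf μ hμ u ((μ : K)⁻¹ * v)
      rw [mul_inv_cancel_left₀ μ.ne_zero] at h2
      exact h2⟩) r
    exact this
  choose θ hθ using hall
  have hθu : ∀ r s, (∀ u v, f (r * u) v = f u (s * v)) → s = θ r := by
    intro r s hs
    have : s - θ r = 0 := by
      apply huniq
      intro u v
      rw [sub_mul, sub_eq_add_neg, h.right, h.neg_right, ← hs, ← hθ, mul_inv_cancel]
    exact sub_eq_zero.1 this
  have hadd : ∀ a b, θ (a + b) = θ a + θ b := fun a b => (hθu _ _ fun u v => by
    rw [add_mul, add_mul, h.left, h.right, hθ, hθ]).symm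
  have hmul : ∀ a b, θ (a * b) = θ b * θ a := fun a b => (hθu _ _ fun u v => by
    rw [mul_assoc, hθ, hθ, mul_assoc]).symm
  have hone : θ 1 = 1 := (hθu _ _ fun u v => by rw [one_mul, one_mul]).symm
  have hT : ∀ μ : Kˣ, NOne φ μ → θ μ = (μ : K)⁻¹ := fun μ hμ => (hθu _ _ fun u v => by
    have h2 := hf μ hμ u ((μ : K)⁻¹ * v)
    rw [mul_inv_cancel_left₀ μ.ne_zero] at h2
    exact h2).symm
  have hpow : ∀ a (n : ℕ), θ (a ^ n) = θ a ^ n := by
    intro a n
    induction n with
    | zero => rw [pow_zero, pow_zero, hone]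
    | succ n ih => rw [pow_succ, hmul, ih, pow_succ']
  have hφθ : ∀ a, θ (φ a) = φ (θ a) := fun a => by rw [C.hφ, C.hφ, hpow]
  -- `x θ(x)` is fixed
  have hfix : ∀ x : K, φ (x * θ x) = x * θ x := by
    intro x
    by_cases hx : x = 0
    · rw [hx, zero_mul, map_zero]
    · have h1 := nOne_div C (Units.mk0 x hx)
      have h2 := hT _ h1
      have e : ((Units.mk0 x hx * (Units.map (φ : K →* K) (Units.mk0 x hx))⁻¹ : Kˣ) : K) = x * (φ x)⁻¹ := by
        rw [Units.val_mul, Units.val_inv_eq_inv_val]; rfl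
      have h3 : φ x ≠ 0 := by rw [ne_eq, map_eq_zero_iff _ φ.injective]; exact hx
      rw [e, mul_inv, inv_inv] at h2
      -- θ (x * (φ x)⁻¹) * θ (φ x) = θ x
      have h4 : θ (φ x) * θ (x * (φ x)⁻¹) = θ x := by
        rw [← hmul]; congr 1; field_simp
      rw [h2, hφθ] at h4
      rw [map_mul]
      have h5 : φ (θ x) * (x⁻¹ * φ x) * x = θ x * x := by rw [h4]
      have h6 : φ (θ x) * (x⁻¹ * φ x) * x = φ x * φ (θ x) := by field_simp
      rw [← h6, h5]; ring
  have hsum : ∀ x : K, φ (x + θ x) = x + θ x := by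
    intro x
    have h1 := hfix (x + 1)
    rw [hadd, hone] at h1
    have h2 : (x + 1) * (θ x + 1) = x * θ x + (x + θ x) + 1 := by ring
    rw [h2, map_add, map_add, hfix, map_one] at h1
    linear_combination h1
  -- every element is a root of a quadratic polynomial over the fixed field
  have hquad : ∀ x : K, φ x = x := by
    intro x
    obtain ⟨s, hs⟩ : ∃ s, s = x + θ x := ⟨_, rfl⟩
    obtain ⟨m, hm⟩ : ∃ m, m = x * θ x := ⟨_, rfl⟩
    have hs' : φ s = s := by rw [hs]; exact hsum x
    have hm' : φ m = m := by rw [hm]; exact hfix x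
    have e0 : x * x - s * x + m = 0 := by rw [hs, hm]; ring
    have e1 : φ x * φ x - s * φ x + m = 0 := by
      have := congrArg φ e0
      rw [map_add, map_sub, map_mul, map_mul, hs', hm', map_zero] at this
      exact this
    have e2 : φ (φ x) * φ (φ x) - s * φ (φ x) + m = 0 := by
      have := congrArg φ e1
      rw [map_add, map_sub, map_mul, map_mul, hs', hm', map_zero] at this
      exact this
    have d1 : (φ x - x) * (φ x + x - s) = 0 := by linear_combination e1 - e0
    rcases mul_eq_zero.1 d1 with h1 | h1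
    · exact sub_eq_zero.1 h1
    · have d2 : (φ (φ x) - x) * (φ (φ x) + x - s) = 0 := by linear_combination e2 - e0
      rcases mul_eq_zero.1 d2 with h2 | h2
      · have h3 : φ (φ x) = x := sub_eq_zero.1 h2
        have h4 := C.h3 x
        rw [h3] at h4
        exact h4
      · have h3 : φ (φ x) = φ x := by linear_combination h2 - h1
        exact φ.injective h3
  obtain ⟨μ, hμ, hμ1⟩ := exists_nOne C
  have h1 : NOne φ μ := hμ
  -- the whole field is fixed, contradiction with the cardinality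
  have h2 := card_fix (K := K) C.two_le C.hK
  have h3 : Nat.card {c : K // c ^ q = c} = Nat.card K :=
    Nat.card_congr (Equiv.subtypeUnivEquiv fun c => by rw [← C.hφ, hquad c])
  rw [h2, Nat.card_eq_fintype_card, C.hK] at h3
  have h4 := C.two_le
  have : q < q ^ 3 := by
    have : q ^ 3 = q * (q * q) := by ring
    rw [this]; nlinarith
  omega

/-- (F3) -/
theorem F3 {g : K → A} (h : ∀ t u, g (t + u) = g t * g u) (hg : ∀ μ : Kˣ, NOne φ μ → ∀ u, g (μ * u) = g u) (u : K) :
    g u = 1 := by
  obtain ⟨μ, hμ, hμ1⟩ := exists_nOne C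
  have h0 : g 0 = 1 := by
    have := h 0 0
    rw [add_zero] at this
    exact mul_eq_left.1 this.symm
  have hneg : ∀ t, g (-t) = (g t)⁻¹ := fun t => by rw [eq_inv_iff_mul_eq_one, ← h, neg_add_cancel, h0]
  have h1 : (μ : K) - 1 ≠ 0 := sub_ne_zero.2 hμ1
  have h2 := hg μ hμ (((μ : K) - 1)⁻¹ * u)
  have h3 : u = (μ : K) * (((μ : K) - 1)⁻¹ * u) + -((((μ : K) - 1)⁻¹ * u)) := by
    field_simp
    ring
  rw [h3, h, hneg, h2, mul_inv_cancel]

/-- (F3), inverse form -/
theorem F3' {g : K → A} (h : ∀ t u, g (t + u) = g t * g u) (hg : ∀ μ : Kˣ, NOne φ μ → ∀ u, g ((μ : K)⁻¹ * u) = g u) (u : K) :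
    g u = 1 := F3 C h (fun μ hμ u => by
      have := hg μ⁻¹ hμ.inv u
      rwa [Units.val_inv_eq_inv_val, inv_inv] at this) u

/-- additive Hilbert 90 -/
theorem F4 {w : K} (hw : w + φ w + φ (φ w) = 0) : ∃ z, w = z - φ z := by
  obtain ⟨c, hc⟩ := tr_surj (K := K) C.two_le C.hK C.hφ C.h3 (map_one φ)
  refine ⟨w * φ c + (w + φ w) * φ (φ c), ?_⟩
  simp only [map_add, map_mul, C.h3]
  linear_combination (-w) * hc + c * hw

end Cfsg.Agent.MulTw
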