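import Cfsg.Agent.ChevGrp.Transfer
import Mathlib.GroupTheory.SchurZassenhaus

set_option autoImplicit false

/-!
Lifting of `p`-subgroups and of systems of root subgroups to central extensions with kernel of order prime to `p`.
-/

namespace Cfsg.Agent.MulTw

open Subgroup Cfsg.Agent.ChevGrp Cfsg.Agent.ChevWeyl

variable {Γ G : Type*} [Group Γ] [Group G]

/-- `p`-elements -/
def PE (p : ℕ) (x : Γ) : Prop := ∃ k : ℕ, x ^ p ^ k = 1

theorem PE.conj {p : ℕ} {x : Γ} (h : PE p x) (g : Γ) : PE p (g * x * g⁻¹) := by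
  obtain ⟨k, hk⟩ := h
  exact ⟨k, by rw [conj_pow, hk, mul_one, mul_inv_cancel]⟩

theorem PE.inv {p : ℕ} {x : Γ} (h : PE p x) : PE p x⁻¹ := by
  obtain ⟨k, hk⟩ := h
  exact ⟨k, by rw [inv_pow, hk, inv_one]⟩

theorem PE.one (p : ℕ) : PE p (1 : Γ) := ⟨0, one_pow _⟩

theorem PE.map {p : ℕ} {x : Γ} (h : PE p x) (ρ : Γ →* G) : PE p (ρ x) := by
  obtain ⟨k, hk⟩ := h
  exact ⟨k, by rw [← map_pow, hk, map_one]⟩

/-- central extension with kernel of order prime to `p` -/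
structure PExt (p : ℕ) (ρ : Γ →* G) : Prop where
  prime : p.Prime
  central : ρ.ker ≤ center Γ
  cop : p.Coprime (Nat.card ρ.ker)

namespace PExt

variable {p : ℕ} {ρ : Γ →* G} (E : PExt p ρ)

include E

theorem pos : 0 < Nat.card ρ.ker := by
  rcases Nat.eq_zero_or_pos (Nat.card ρ.ker) with h | h
  · have h1 := E.cop
    rw [h, Nat.coprime_zero_right] at h1
    exact absurd h1 E.prime.one_lt.ne'
  · exact h

theorem pow_card {z : Γ} (hz : ρ z = 1) : z ^ Nat.card ρ.ker = 1 := by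
  have h1 : (⟨z, hz⟩ : ρ.ker) ^ Nat.card ρ.ker = 1 := pow_card_eq_one'
  exact congrArg Subtype.val h1

theorem eq_one {z : Γ} (hz : ρ z = 1) (h : PE p z) : z = 1 := by
  obtain ⟨k, hk⟩ := h
  have h2 := E.pow_card hz
  have h3 : Nat.Coprime (p ^ k) (Nat.card ρ.ker) := Nat.Coprime.pow_left k E.cop
  have h4 : orderOf z ∣ 1 := by
    rw [← h3.gcd_eq_one]
    exact Nat.dvd_gcd (orderOf_dvd_of_pow_eq_one hk) (orderOf_dvd_of_pow_eq_one h2)
  rw [Nat.dvd_one, orderOf_eq_one_iff] at h4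
  exact h4

theorem comm {z : Γ} (hz : ρ z = 1) (g : Γ) : g * z = z * g := mem_center_iff.1 (E.central hz) g

theorem uniq {a b : Γ} (ha : PE p a) (hb : PE p b) (h : ρ a = ρ b) : a = b := by
  have hz : ρ (b⁻¹ * a) = 1 := by rw [map_mul, map_inv, h, inv_mul_cancel]
  obtain ⟨k, hk⟩ := ha
  obtain ⟨m, hm⟩ := hb
  have h1 : PE p (b⁻¹ * a) := by
    refine ⟨k + m, ?_⟩
    have hc : Commute b (b⁻¹ * a) := E.comm hz b
    have e : a = b * (b⁻¹ * a) := by group
    have h3 : a ^ p ^ (k + m) = b ^ p ^ (k + m) * (b⁻¹ * a) ^ p ^ (k + m) := by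
      conv_lhs => rw [e]
      exact hc.mul_pow _
    have h4 : a ^ p ^ (k + m) = 1 := by rw [pow_add, pow_mul, hk, one_pow]
    have h5 : b ^ p ^ (k + m) = 1 := by rw [pow_add, mul_comm, pow_mul, hm, one_pow]
    rw [h4, h5, one_mul] at h3
    exact h3.symm
  have h2 := E.eq_one hz h1
  exact (inv_mul_eq_one.1 h2).symm

theorem exists_lift {x : Γ} (h : PE p (ρ x)) : ∃ a, PE p a ∧ ρ a = ρ x := by
  obtain ⟨k, hk⟩ := h
  have h3 : Nat.Coprime (Nat.card ρ.ker) (p ^ k) := (Nat.Coprime.pow_left k E.cop).symm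
  have hz : ρ (x ^ p ^ k) = 1 := by rw [map_pow, hk]
  have h4 := E.pow_card hz
  have h5 := Int.gcd_eq_gcd_ab (Nat.card ρ.ker : ℤ) ((p ^ k : ℕ) : ℤ)
  rw [Int.gcd_natCast_natCast, h3.gcd_eq_one] at h5
  obtain ⟨a, b, hab⟩ : ∃ a b : ℤ, (1 : ℤ) = (Nat.card ρ.ker : ℤ) * a + ((p ^ k : ℕ) : ℤ) * b := ⟨_, _, by exact_mod_cast h5⟩
  refine ⟨x ^ ((Nat.card ρ.ker : ℤ) * a), ⟨k, ?_⟩, ?_⟩
  · rw [← zpow_natCast, ← zpow_mul]
    have e : (Nat.card ρ.ker : ℤ) * a * ((p ^ k : ℕ) : ℤ) = ((p ^ k : ℕ) : ℤ) * ((Nat.card ρ.ker : ℤ) * a) := by ring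
    rw [e, zpow_mul, zpow_mul, zpow_natCast, zpow_natCast, h4, one_zpow]
  · rw [map_zpow]
    have e : (ρ x) ^ ((Nat.card ρ.ker : ℤ) * a + ((p ^ k : ℕ) : ℤ) * b) = ρ x := by rw [← hab, zpow_one]
    rw [zpow_add, zpow_mul (ρ x) ((p ^ k : ℕ) : ℤ), zpow_natCast, hk, one_zpow, mul_one] at e
    exact e

/-- products of `p`-elements with images in a `p`-subgroup -/
theorem pe_mul [Finite Γ] {P : Subgroup G} (hP : IsPGroup p P) {a b : Γ} (ha : PE p a) (hb : PE p b) (ha' : ρ a ∈ P)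
    (hb' : ρ b ∈ P) : PE p (a * b) := by
  have : Fact p.Prime := ⟨E.prime⟩
  -- the preimage
  let A : Subgroup Γ := P.comap ρ
  have hkA : ρ.ker ≤ A := fun z hz => by
    have h1 : ρ z = 1 := hz
    change ρ z ∈ P
    rw [h1]; exact one_mem _
  let N : Subgroup A := ρ.ker.subgroupOf A
  have hN : N.Normal := inferInstance
  have hcN : Nat.card N = Nat.card ρ.ker := Nat.card_congr (Subgroup.subgroupOfEquivOfLe hkA).toEquiv
  have hA : ∀ x : A, ∃ k : ℕ, x ^ p ^ k ∈ N := by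
    intro x
    obtain ⟨k, hk⟩ := hP ⟨ρ x, x.2⟩
    refine ⟨k, ?_⟩
    change ρ ((x ^ p ^ k : A) : Γ) = 1
    rw [Subgroup.coe_pow, map_pow]
    exact congrArg Subtype.val hk
  have hq : IsPGroup p (A ⧸ N) := by
    intro x
    obtain ⟨x, rfl⟩ := QuotientGroup.mk_surjective x
    obtain ⟨k, hk⟩ := hA x
    exact ⟨k, by rw [← QuotientGroup.mk_pow]; exact (QuotientGroup.eq_one_iff _).2 hk⟩
  have hcop : Nat.Coprime (Nat.card N) N.index := by
    obtain ⟨k, hk⟩ := IsPGroup.iff_card.1 hq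
    rw [hcN, Subgroup.index, hk]
    exact (Nat.Coprime.pow_left k E.cop).symm
  obtain ⟨V, hV⟩ := Subgroup.exists_right_complement'_of_coprime hcop
  -- elements of the complement are `p`-elements
  have hVp : ∀ v ∈ V, PE p (v : Γ) := by
    intro v hv
    obtain ⟨k, hk⟩ := hA v
    refine ⟨k, ?_⟩
    have h1 : v ^ p ^ k = 1 := by
      have := Subgroup.mem_inf.2 ⟨hk, V.pow_mem hv _⟩
      rw [hV.disjoint.eq_bot] at this
      exact this
    exact congrArg Subtype.val h1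
  have hdec : ∀ x : A, PE p (x : Γ) → x ∈ V := by
    intro x hx
    have : x ∈ N ⊔ V := by rw [hV.sup_eq_top]; trivial
    obtain ⟨z, hz, v, hv, rfl⟩ := Subgroup.mem_sup_of_normal_left.1 this
    have hz1 : ρ (z : Γ) = 1 := hz
    have h2 : ((z * v : A) : Γ) = v := by
      apply E.uniq hx (hVp v hv)
      rw [Subgroup.coe_mul, map_mul, hz1, one_mul]
    have h3 : z * v = v := Subtype.ext h2
    rw [h3]; exact hv
  have h1 := hdec ⟨a, ha'⟩ ha
  have h2 := hdec ⟨b, hb'⟩ hb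
  exact hVp _ (V.mul_mem h1 h2)

end PExt

/-- the canonical lift of a `p`-subgroup -/
def lift (p : ℕ) (ρ : Γ →* G) (P : Subgroup G) : Subgroup Γ := closure {x | PE p x ∧ ρ x ∈ P}

section

variable {p : ℕ} {ρ : Γ →* G} (E : PExt p ρ) [Finite Γ]

include E

theorem mem_lift {P : Subgroup G} (hP : IsPGroup p P) {x : Γ} : x ∈ lift p ρ P ↔ PE p x ∧ ρ x ∈ P := by
  constructor
  · intro hx
    unfold lift at hx
    induction hx using closure_induction with
    | mem x hx => exact hx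
    | one => exact ⟨PE.one p, by rw [map_one]; exact one_mem _⟩
    | mul x y _ _ hx hy => exact ⟨E.pe_mul hP hx.1 hy.1 hx.2 hy.2, by rw [map_mul]; exact mul_mem hx.2 hy.2⟩
    | inv x _ hx => exact ⟨hx.1.inv, by rw [map_inv]; exact inv_mem hx.2⟩
  · intro hx
    exact subset_closure hx

theorem lift_map {P : Subgroup G} (hP : IsPGroup p P) (hr : P ≤ ρ.range) : (lift p ρ P).map ρ = P := by
  apply le_antisymm
  · rintro _ ⟨x, hx, rfl⟩
    exact ((mem_lift E hP).1 hx).2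
  · intro g hg
    obtain ⟨x, rfl⟩ := hr hg
    obtain ⟨k, hk⟩ := hP ⟨_, hg⟩
    obtain ⟨a, ha, h⟩ := E.exists_lift (x := x) ⟨k, congrArg Subtype.val hk⟩
    exact ⟨a, (mem_lift E hP).2 ⟨ha, by rw [h]; exact hg⟩, h⟩

/-- a subgroup generated by lifts is the lift of the subgroup generated -/
theorem gen_lift {n : ℕ} {X : Fin n → Subgroup G} (hX : ∀ r, X r ≤ ρ.range) {Q : Fin n → Prop}
    (hQ : IsPGroup p (gen X Q)) : gen (fun r => lift p ρ (X r)) Q = lift p ρ (gen X Q) := by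
  have hXr : ∀ r, Q r → IsPGroup p (X r) := fun r hr => hQ.to_le (le_gen hr)
  apply le_antisymm
  · rw [gen_le]
    intro r hr x hx
    have h1 := (mem_lift E (hXr r hr)).1 hx
    exact (mem_lift E hQ).2 ⟨h1.1, mem_gen hr h1.2⟩
  · intro x hx
    obtain ⟨h1, h2⟩ := (mem_lift E hQ).1 hx
    have h3 : gen X Q ≤ (gen (fun r => lift p ρ (X r)) Q).map ρ := by
      rw [gen_le]
      intro r hr g hg
      rw [← lift_map E (hXr r hr) (hX r)] at hg
      obtain ⟨y, hy, rfl⟩ := hg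
      exact ⟨y, mem_gen hr hy, rfl⟩
    obtain ⟨y, hy, hyx⟩ := h3 h2
    have hy' : PE p y := by
      have h4 : gen (fun r => lift p ρ (X r)) Q ≤ lift p ρ (gen X Q) := by
        rw [gen_le]
        intro r hr x hx
        have h1 := (mem_lift E (hXr r hr)).1 hx
        exact (mem_lift E hQ).2 ⟨h1.1, mem_gen hr h1.2⟩
      exact ((mem_lift E hQ).1 (h4 hy)).1
    rw [E.uniq h1 hy' hyx.symm]
    exact hy

end

end Cfsg.Agent.MulTw
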