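import Cfsg.Agent.MulTw.PLift

set_option autoImplicit false

/-!
Lifting of systems of root subgroups to central extensions with kernel of order prime to `p`.
-/

namespace Cfsg.Agent.MulTw

open Subgroup Cfsg.Agent.ChevGrp Cfsg.Agent.ChevWeyl
open scoped commutatorElement Pointwise

variable {l n : ℕ} {S : WSys l n} {Γ G : Type*} [Group Γ] [Group G] [Finite Γ]

/-- the data for lifting a system of root subgroups -/
structure LData {p : ℕ} {ρ : Γ →* G} (E : PExt p ρ) (R : RGrp S G) where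
  pU : IsPGroup p R.U
  pV : IsPGroup p R.V
  range : ∀ r, R.X r ≤ ρ.range
  nh : Fin l → Γ
  ρ_nh : ∀ i, ρ (nh i) = R.nn i

namespace LData

variable {p : ℕ} {ρ : Γ →* G} {E : PExt p ρ} {R : RGrp S G} (D : LData E R)

include D

theorem pX (r : Fin n) : IsPGroup p (R.X r) := by
  by_cases h : S.Pos r
  · exact D.pU.to_le (R.X_le_U h)
  · exact D.pV.to_le (R.X_le_V h)

theorem mem {r : Fin n} {x : Γ} : x ∈ lift p ρ (R.X r) ↔ PE p x ∧ ρ x ∈ R.X r := mem_lift E (D.pX r)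

theorem exists_mem {r : Fin n} {g : G} (hg : g ∈ R.X r) : ∃ x ∈ lift p ρ (R.X r), ρ x = g := by
  have h := lift_map E (D.pX r) (D.range r)
  rw [← h] at hg
  obtain ⟨x, hx, rfl⟩ := hg
  exact ⟨x, hx, rfl⟩

/-- the lifted system of root subgroups -/
noncomputable def RL : RGrp S Γ where
  X r := lift p ρ (R.X r)
  nn := D.nh
  H := R.H.comap ρ
  nn_X i s x hx := by
    rw [D.mem] at hx ⊢
    refine ⟨hx.1.conj _, ?_⟩
    rw [map_mul, map_mul, map_inv, D.ρ_nh]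
    exact R.nn_X i s _ hx.2
  H_X h hh s x hx := by
    rw [D.mem] at hx ⊢
    refine ⟨hx.1.conj _, ?_⟩
    rw [map_mul, map_mul, map_inv]
    exact R.H_X _ hh s _ hx.2
  nn_H i h hh := by
    rw [mem_comap, map_mul, map_mul, map_inv, D.ρ_nh]
    exact R.nn_H i _ hh
  nn_sq i := by
    rw [mem_comap, map_mul, D.ρ_nh]
    exact R.nn_sq i
  conj_nn L j k h := by
    rw [mem_comap, map_mul, map_mul, map_mul, map_inv, map_inv, map_list_prod, List.map_map, D.ρ_nh, D.ρ_nh]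
    have e : (ρ ∘ D.nh : Fin l → G) = R.nn := funext D.ρ_nh
    rw [e]
    exact R.conj_nn L j k h
  rank1 i y hy hy1 := by
    rw [D.mem] at hy
    have h1 : ρ y ≠ 1 := fun h => hy1 (E.eq_one h hy.1)
    obtain ⟨a, ha, h, hh, b, hb, e⟩ := R.rank1 i _ hy.2 h1
    obtain ⟨a, ha', rfl⟩ := D.exists_mem ha
    obtain ⟨b, hb', rfl⟩ := D.exists_mem hb
    refine ⟨a, ha', (a * D.nh i)⁻¹ * y * b⁻¹, ?_, b, hb', by group⟩
    rw [mem_comap, map_mul, map_mul, map_inv, map_inv, map_mul, D.ρ_nh, e]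
    have : (ρ a * R.nn i)⁻¹ * (ρ a * R.nn i * h * ρ b) * (ρ b)⁻¹ = h := by group
    rw [this]; exact hh
  X_ne i h := by
    apply R.X_ne i
    rw [eq_bot_iff_forall]
    intro g hg
    obtain ⟨x, hx, rfl⟩ := D.exists_mem hg
    rw [h, mem_bot] at hx
    rw [hx, map_one]
  XU i x hx u hu := by
    rw [gen_lift E D.range (D.pU.to_le (R.Ui_le_U i))] at hu ⊢
    have hu' := (mem_lift E (D.pU.to_le (R.Ui_le_U i))).1 hu
    rw [D.mem] at hx
    refine (mem_lift E (D.pU.to_le (R.Ui_le_U i))).2 ⟨hu'.1.conj _, ?_⟩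
    rw [map_mul, map_mul, map_inv]
    exact R.XU i _ hx.2 _ hu'.2
  BV g hg hg' := by
    rw [gen_lift E D.range D.pV] at hg'
    have hg2 := (mem_lift E D.pV).1 hg'
    apply E.eq_one _ hg2.1
    apply R.BV _ _ hg2.2
    have h1 : gen (fun r => lift p ρ (R.X r)) S.Pos ⊔ R.H.comap ρ ≤ (R.U ⊔ R.H).comap ρ := by
      refine sup_le ?_ (comap_mono le_sup_right)
      rw [gen_le]
      intro r hr x hx
      rw [D.mem] at hx
      exact mem_sup_left (R.X_le_U hr hx.2)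
    exact h1 hg
  UH g hg hg' := by
    rw [gen_lift E D.range D.pU] at hg
    have hg2 := (mem_lift E D.pU).1 hg
    apply E.eq_one _ hg2.1
    exact R.UH _ hg2.2 hg'

theorem RL_X (r : Fin n) : D.RL.X r = lift p ρ (R.X r) := rfl
theorem RL_H : D.RL.H = R.H.comap ρ := rfl
theorem RL_nn (i : Fin l) : D.RL.nn i = D.nh i := rfl

/-- the root subgroups generate a perfect extension -/
theorem gen_top (hperf : commutator Γ = ⊤) (hgen : ρ.range ≤ gen R.X (fun _ => True)) :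
    gen D.RL.X (fun _ => True) = ⊤ := by
  set T := gen D.RL.X (fun _ => True) with hT
  have h1 : gen R.X (fun _ => True) ≤ T.map ρ := by
    rw [gen_le]
    intro r hr g hg
    obtain ⟨x, hx, rfl⟩ := D.exists_mem hg
    exact ⟨x, mem_gen hr hx, rfl⟩
  have h2 : ∀ x : Γ, ∃ t ∈ T, ∃ z, ρ z = 1 ∧ x = t * z := by
    intro x
    obtain ⟨t, ht, hx⟩ := h1 (hgen ⟨x, rfl⟩)
    exact ⟨t, ht, t⁻¹ * x, by rw [map_mul, map_inv, hx, inv_mul_cancel], by group⟩
  rw [eq_top_iff, ← hperf, commutator_def, commutator_le]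
  intro x _ y _
  obtain ⟨t, ht, z, hz, rfl⟩ := h2 x
  obtain ⟨u, hu, w, hw, rfl⟩ := h2 y
  have hz' := E.comm hz
  have hw' := E.comm hw
  have e : ⁅t * z, u * w⁆ = ⁅t, u⁆ := by
    rw [commutatorElement_def, commutatorElement_def, mul_inv_rev, mul_inv_rev]
    calc t * z * (u * w) * (z⁻¹ * t⁻¹) * (w⁻¹ * u⁻¹)
        = t * (z * (u * w)) * z⁻¹ * t⁻¹ * (w⁻¹ * u⁻¹) := by group
      _ = t * ((u * w) * z) * z⁻¹ * t⁻¹ * (w⁻¹ * u⁻¹) := by rw [← hz']
      _ = t * u * (w * t⁻¹) * (w⁻¹ * u⁻¹) := by group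
      _ = t * u * (t⁻¹ * w) * (w⁻¹ * u⁻¹) := by rw [← hw']
      _ = t * u * t⁻¹ * u⁻¹ := by group
  rw [e, commutatorElement_def]
  exact mul_mem (mul_mem (mul_mem ht hu) (inv_mem ht)) (inv_mem hu)

omit [Finite Γ] D in
/-- cardinality of a product of subgroups of a group which they generate and which normalizes them -/
theorem card_iSup_le [Finite Γ] {l : ℕ} (A : Fin l → Subgroup Γ) (hn : ∀ j, (A j).Normal) (h : ⨆ j, A j = ⊤) :
    Nat.card Γ ≤ ∏ j, Nat.card (A j) := by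
  classical
  have key : ∀ s : Finset (Fin l), Nat.card ↥(⨆ j ∈ s, A j) ≤ ∏ j ∈ s, Nat.card (A j) := by
    intro s
    induction s using Finset.induction_on with
    | empty => simp
    | insert a s ha ih =>
      rw [Finset.prod_insert ha, Finset.iSup_insert]
      have hn' := hn a
      have h1 : (↑(A a ⊔ ⨆ j ∈ s, A j) : Set Γ) = (A a : Set Γ) * (↑(⨆ j ∈ s, A j) : Set Γ) :=
        (Subgroup.normal_mul _ _)
      have h2 : Nat.card ↥(A a ⊔ ⨆ j ∈ s, A j) ≤ Nat.card (A a) * Nat.card ↥(⨆ j ∈ s, A j) := by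
        have h3 : Nat.card ↥(A a ⊔ ⨆ j ∈ s, A j) = Nat.card ↥((A a : Set Γ) * (↑(⨆ j ∈ s, A j) : Set Γ)) := by
          rw [← h1]; rfl
        rw [h3]
        exact Set.natCard_mul_le
      exact h2.trans (Nat.mul_le_mul_left _ ih)
  have h1 := key Finset.univ
  have h2 : (⨆ j ∈ Finset.univ, A j) = (⊤ : Subgroup Γ) := by
    rw [← h]; simp
  rw [h2] at h1
  simpa using h1

/-- the order of the kernel is bounded by the orders of the tori of the lifted rank one groups -/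
theorem card_le (hnn : ∀ i, D.nh i ∈ D.RL.Li i) (hperf : commutator Γ = ⊤)
    (hgen : ρ.range ≤ gen R.X (fun _ => True)) (hHr : R.H ≤ ρ.range) :
    Nat.card ρ.ker * Nat.card R.H ≤ ∏ i, Nat.card ↥(D.RL.H ⊓ D.RL.Li i) := by
  have h1 := RGrp.H_eq_iSup D.RL hnn (by rw [D.gen_top hperf hgen]; exact le_top)
  let A : Fin l → Subgroup D.RL.H := fun i => (D.RL.H ⊓ D.RL.Li i).subgroupOf D.RL.H
  have hle : ∀ i, D.RL.H ⊓ D.RL.Li i ≤ D.RL.H := fun i => inf_le_left
  have hn : ∀ i, (A i).Normal := by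
    intro i
    constructor
    rintro ⟨x, hx⟩ hx' ⟨g, hg⟩
    change g * x * g⁻¹ ∈ D.RL.H ⊓ D.RL.Li i
    exact ⟨D.RL.H.mul_mem (D.RL.H.mul_mem hg hx) (D.RL.H.inv_mem hg), D.RL.H_norm_Li i hg x hx'.2⟩
  have hs : ⨆ i, A i = ⊤ := by
    rw [eq_top_iff]
    rintro ⟨x, hx⟩ _
    have h2 : (⨆ i, D.RL.H ⊓ D.RL.Li i) ≤ (⨆ i, A i).map D.RL.H.subtype := by
      refine iSup_le fun i => ?_
      intro y hy
      exact ⟨⟨y, hy.1⟩, mem_iSup_of_mem i (show (⟨y, hy.1⟩ : D.RL.H) ∈ A i from hy), rfl⟩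
    have h3 : x ∈ (⨆ i, A i).map D.RL.H.subtype := by
      apply h2
      rw [← h1]; exact hx
    obtain ⟨y, hy, hyx⟩ := h3
    have : y = ⟨x, hx⟩ := Subtype.ext hyx
    rw [← this]; exact hy
  have h4 := card_iSup_le A hn hs
  have h5 : ∀ i, Nat.card (A i) = Nat.card ↥(D.RL.H ⊓ D.RL.Li i) := fun i =>
    Nat.card_congr (Subgroup.subgroupOfEquivOfLe (hle i)).toEquiv
  simp only [h5] at h4
  refine le_trans (le_of_eq ?_) h4
  -- the order of the preimage
  let f : D.RL.H →* R.H := (ρ.comp D.RL.H.subtype).codRestrict R.H (fun x => x.2)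
  have hf : Function.Surjective f := by
    rintro ⟨h, hh⟩
    obtain ⟨x, rfl⟩ := hHr hh
    exact ⟨⟨x, hh⟩, rfl⟩
  have hk : Nat.card f.ker = Nat.card ρ.ker := by
    refine Nat.card_congr ⟨fun x => ⟨((x : D.RL.H) : Γ), ?_⟩, fun x => ⟨⟨(x : Γ), ?_⟩, ?_⟩, fun x => rfl, fun x => rfl⟩
    · exact congrArg Subtype.val (x.2 : f x = 1)
    · have h6 : ρ (x : Γ) = 1 := x.2
      change ρ (x : Γ) ∈ R.H
      rw [h6]; exact one_mem _
    · exact Subtype.ext (x.2 : ρ (x : Γ) = 1)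
  have h7 := Subgroup.card_mul_index f.ker
  rw [Subgroup.index_ker, MonoidHom.range_eq_top.2 hf, Subgroup.card_top, hk] at h7
  exact h7

end LData

end Cfsg.Agent.MulTw
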