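import Cfsg.Agent.MulTw.RLift
import Cfsg.Agent.Tw3.Torus
import Cfsg.Agent.Stb.RankOne

set_option autoImplicit false

/-!
The torus of the lift of a rank one group.
-/

namespace Cfsg.Agent.MulTw

open Subgroup Cfsg.Agent.ChevGrp Cfsg.Agent.ChevWeyl Cfsg.Agent.Mult

variable {l n : ℕ} {S : WSys l n} {Γ G : Type*} [Group Γ] [Group G]

/-- the lift of a `p`-element -/
noncomputable def plift (p : ℕ) (ρ : Γ →* G) (g : G) : Γ :=
  haveI := Classical.dec (∃ a, PE p a ∧ ρ a = g)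
  if h : ∃ a, PE p a ∧ ρ a = g then h.choose else 1

variable {p : ℕ} {ρ : Γ →* G} (E : PExt p ρ)

include E in
theorem plift_spec {g : G} (hg : PE p g) (hr : g ∈ ρ.range) : PE p (plift p ρ g) ∧ ρ (plift p ρ g) = g := by
  obtain ⟨x, rfl⟩ := hr
  have h := E.exists_lift (x := x) hg
  unfold plift
  rw [dif_pos h]
  exact h.choose_spec

include E in
theorem plift_eq {x : Γ} (hx : PE p x) : plift p ρ (ρ x) = x := by
  obtain ⟨h1, h2⟩ := plift_spec E (hx.map ρ) ⟨x, rfl⟩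
  exact E.uniq h1 hx h2

section r1

variable [Finite Γ] {F : Type*} [Field F] {X Y : F → G} (h0 : R1 X Y) (hX : ∀ t, X t ∈ ρ.range)
  (hY : ∀ t, Y t ∈ ρ.range) {P Q : Subgroup G} (hP : IsPGroup p P) (hQ : IsPGroup p Q) (hXP : ∀ t, X t ∈ P)
  (hYQ : ∀ t, Y t ∈ Q)

include hP in
omit [Finite Γ] in
theorem pe_of_mem {g : G} (hg : g ∈ P) : PE p g := by
  obtain ⟨k, hk⟩ := hP ⟨g, hg⟩
  exact ⟨k, congrArg Subtype.val hk⟩

include E h0 hX hY hP hQ hXP hYQ in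
/-- the lifted rank one relations -/
theorem r1_lift : R1 (fun t => plift p ρ (X t)) (fun t => plift p ρ (Y t)) := by
  have sX : ∀ t, PE p (plift p ρ (X t)) ∧ ρ (plift p ρ (X t)) = X t := fun t =>
    plift_spec E (pe_of_mem hP (hXP t)) (hX t)
  have sY : ∀ t, PE p (plift p ρ (Y t)) ∧ ρ (plift p ρ (Y t)) = Y t := fun t =>
    plift_spec E (pe_of_mem hQ (hYQ t)) (hY t)
  constructor
  · intro t u
    apply E.uniq (sX _).1 (E.pe_mul hP (sX t).1 (sX u).1 (by rw [(sX t).2]; exact hXP t) (by rw [(sX u).2]; exact hXP u))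
    rw [(sX _).2, map_mul, (sX _).2, (sX _).2, h0.X_add]
  · intro t u
    apply E.uniq (sY _).1 (E.pe_mul hQ (sY t).1 (sY u).1 (by rw [(sY t).2]; exact hYQ t) (by rw [(sY u).2]; exact hYQ u))
    rw [(sY _).2, map_mul, (sY _).2, (sY _).2, h0.Y_add]
  · intro t v ht
    rw [← mul_inv_eq_iff_eq_mul]
    apply E.uniq ((sX v).1.conj _) (sY _).1
    rw [map_mul, map_mul, map_inv, map_mul, map_mul, (sX _).2, (sX _).2, (sY _).2, (sY _).2, h0.nX t v ht,
      mul_inv_cancel_right]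
  · intro t v ht
    rw [← mul_inv_eq_iff_eq_mul]
    apply E.uniq ((sY v).1.conj _) (sX _).1
    rw [map_mul, map_mul, map_inv, map_mul, map_mul, (sX _).2, (sX _).2, (sY _).2, (sY _).2, h0.nY t v ht,
      mul_inv_cancel_right]

end r1

/-- torus of a group with rank one relations over a finite field -/
theorem card_rank_one (R : RGrp S Γ) (j : Fin l) {F : Type*} [Field F] [Fintype F] {X Y : F → Γ} (h : R1 X Y)
    (hX : ∀ g, g ∈ R.X (S.p j) ↔ ∃ t, X t = g) (hY : ∀ g, g ∈ R.X (S.neg (S.p j)) ↔ ∃ t, Y t = g)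
    (hn : R.nn j = h.n 1) (hH : ∀ t, t ≠ 0 → h.h t ∈ R.H) :
    Nat.card ↥(R.H ⊓ R.Li j) ≤ Fintype.card F - 1 := by
  classical
  -- the torus
  let f : Fˣ →* Γ :=
    { toFun := fun t => h.h t
      map_one' := by rw [Units.val_one]; exact h.h_one
      map_mul' := fun t u => by rw [Units.val_mul]; exact (h.h_mul1 t.ne_zero u.ne_zero).symm }
  have hf : ∀ t : Fˣ, f t = h.h t := fun _ => rfl
  have hn' : ∀ t : Fˣ, R.nn j * f t * (R.nn j)⁻¹ = f t⁻¹ := by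
    intro t
    rw [hn, hf, hf, h.n_h t.ne_zero, mul_inv_cancel_right, Units.val_inv_eq_inv_val]
  have hm1 : h.n 1 * h.n 1 = f (-1) := by
    rw [hf, Units.val_neg, Units.val_one]
    have h1 : h.n (-1) * h.n (-1) = h.h (-1) := rfl
    have h2 : f (-1) * f (-1) = 1 := by rw [← map_mul, neg_mul_neg, one_mul, map_one]
    rw [hf, Units.val_neg, Units.val_one, ← h1] at h2
    have h3 : h.n (-1) = (h.n 1)⁻¹ := (h.n_inv 1).symm
    rw [← h1, h3]
    rw [h3] at h2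
    have h4 : (h.n 1 * h.n 1) * ((h.n 1)⁻¹ * (h.n 1)⁻¹) = 1 := by group
    calc h.n 1 * h.n 1 = (h.n 1 * h.n 1) * ((h.n 1)⁻¹ * (h.n 1)⁻¹ * ((h.n 1)⁻¹ * (h.n 1)⁻¹)) := by rw [h2, mul_one]
      _ = ((h.n 1 * h.n 1) * ((h.n 1)⁻¹ * (h.n 1)⁻¹)) * ((h.n 1)⁻¹ * (h.n 1)⁻¹) := by group
      _ = _ := by rw [h4, one_mul]
  have key : R.H ⊓ R.Li j ≤ f.range := by
    apply Cfsg.Agent.Tw3.Li_inf_H R j f.range
    · rintro _ ⟨t, rfl⟩
      exact hH t t.ne_zero
    · rintro _ ⟨t, rfl⟩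
      exact ⟨t⁻¹, (hn' t).symm⟩
    · exact ⟨-1, by rw [hn, hm1]⟩
    · intro y hy hy1
      obtain ⟨v, rfl⟩ := (hY y).1 hy
      have hv : v ≠ 0 := by
        rintro rfl
        exact hy1 h.Y_zero
      obtain ⟨v, rfl⟩ : ∃ w : Fˣ, (w : F) = v := ⟨Units.mk0 v hv, rfl⟩
      refine ⟨X (v : F)⁻¹, (hX _).2 ⟨_, rfl⟩, f (-v), ⟨_, rfl⟩, X (v : F)⁻¹, (hX _).2 ⟨_, rfl⟩, ?_⟩
      have h1 := h.Y_eq (v := (v : F)) hv
      have h2 := hn' (-v)
      have h3 : f (-v)⁻¹ = h.h (-(v : F)⁻¹) := by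
        rw [hf, Units.val_inv_eq_inv_val, Units.val_neg, inv_neg]
      rw [h1, ← h3, ← h2, hn]; group
  have hfin : Finite f.range := Finite.of_surjective f.rangeRestrict f.rangeRestrict_surjective
  have h1 : Nat.card ↥(R.H ⊓ R.Li j) ≤ Nat.card f.range :=
    Nat.card_le_card_of_injective (Subgroup.inclusion key) (Subgroup.inclusion_injective key)
  refine h1.trans ?_
  have h2 : Nat.card f.range ≤ Nat.card Fˣ := Nat.card_le_card_of_surjective f.rangeRestrict f.rangeRestrict_surjective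
  refine h2.trans ?_
  rw [Nat.card_eq_fintype_card, Fintype.card_units]

variable [Finite Γ]

/-- rank one data for a system of root subgroups -/
structure RkData (R : RGrp S G) (F : Fin l → Type*) [∀ j, Field (F j)] [∀ j, Fintype (F j)] where
  X : ∀ j, F j → G
  Y : ∀ j, F j → G
  r1 : ∀ j, R1 (X j) (Y j)
  mem_X : ∀ j g, g ∈ R.X (S.p j) ↔ ∃ t, X j t = g
  mem_Y : ∀ j g, g ∈ R.X (S.neg (S.p j)) ↔ ∃ t, Y j t = g
  nn_eq : ∀ j, R.nn j = X j 1 * Y j (-1⁻¹) * X j 1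
  h_mem : ∀ j, ∀ t : F j, t ≠ 0 → (r1 j).h t ∈ R.H

include E in
/-- the bound for the kernel -/
theorem card_ker_le {R : RGrp S G} (pU : IsPGroup p R.U) (pV : IsPGroup p R.V) (hrange : ρ.range = R.Grp)
    (hgen : R.Grp ≤ gen R.X (fun _ => True)) (hperf : commutator Γ = ⊤) {F : Fin l → Type*} [∀ j, Field (F j)]
    [∀ j, Fintype (F j)] (K : RkData R F) :
    Nat.card ρ.ker * Nat.card R.H ≤ ∏ j, (Fintype.card (F j) - 1) := by
  have hr : ∀ r, R.X r ≤ ρ.range := fun r => by rw [hrange]; exact RGrp.X_le_Grp r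
  have hpX : ∀ r, IsPGroup p (R.X r) := by
    intro r
    by_cases h : S.Pos r
    · exact pU.to_le (R.X_le_U h)
    · exact pV.to_le (R.X_le_V h)
  have mX : ∀ j t, K.X j t ∈ R.X (S.p j) := fun j t => (K.mem_X j _).2 ⟨t, rfl⟩
  have mY : ∀ j t, K.Y j t ∈ R.X (S.neg (S.p j)) := fun j t => (K.mem_Y j _).2 ⟨t, rfl⟩
  have sX : ∀ j t, PE p (plift p ρ (K.X j t)) ∧ ρ (plift p ρ (K.X j t)) = K.X j t := fun j t =>
    plift_spec E (pe_of_mem (hpX _) (mX j t)) (hr _ (mX j t))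
  have sY : ∀ j t, PE p (plift p ρ (K.Y j t)) ∧ ρ (plift p ρ (K.Y j t)) = K.Y j t := fun j t =>
    plift_spec E (pe_of_mem (hpX _) (mY j t)) (hr _ (mY j t))
  let D : LData E R :=
    { pU := pU
      pV := pV
      range := hr
      nh := fun j => plift p ρ (K.X j 1) * plift p ρ (K.Y j (-1⁻¹)) * plift p ρ (K.X j 1)
      ρ_nh := fun j => by rw [map_mul, map_mul, (sX _ _).2, (sY _ _).2, K.nn_eq] }
  have lX : ∀ j t, plift p ρ (K.X j t) ∈ lift p ρ (R.X (S.p j)) := fun j t =>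
    D.mem.2 ⟨(sX j t).1, by rw [(sX j t).2]; exact mX j t⟩
  have lY : ∀ j t, plift p ρ (K.Y j t) ∈ lift p ρ (R.X (S.neg (S.p j))) := fun j t =>
    D.mem.2 ⟨(sY j t).1, by rw [(sY j t).2]; exact mY j t⟩
  have h1 := D.card_le (fun j => mul_mem (mul_mem (mem_sup_left (lX j _)) (mem_sup_right (lY j _)))
    (mem_sup_left (lX j _))) hperf (by rw [hrange]; exact hgen) (by
      rw [hrange]; exact (R.H_le_B).trans RGrp.B_le_Grp)
  refine h1.trans (Finset.prod_le_prod' fun j _ => ?_)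
  have hR := r1_lift E (K.r1 j) (fun t => hr _ (mX j t)) (fun t => hr _ (mY j t)) (hpX _) (hpX _) (mX j) (mY j)
  refine card_rank_one D.RL j hR ?_ ?_ rfl ?_
  · intro g
    rw [D.RL_X, D.mem, K.mem_X]
    constructor
    · rintro ⟨h2, t, ht⟩
      exact ⟨t, by rw [ht]; exact plift_eq E h2⟩
    · rintro ⟨t, rfl⟩
      exact ⟨(sX j t).1, t, (sX j t).2.symm⟩
  · intro g
    rw [D.RL_X, D.mem, K.mem_Y]
    constructor
    · rintro ⟨h2, t, ht⟩
      exact ⟨t, by rw [ht]; exact plift_eq E h2⟩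
    · rintro ⟨t, rfl⟩
      exact ⟨(sY j t).1, t, (sY j t).2.symm⟩
  · intro t ht
    rw [D.RL_H, mem_comap]
    have h2 : ρ (hR.h t) = (K.r1 j).h t := by
      unfold R1.h R1.n
      simp only [map_mul, (sX _ _).2, (sY _ _).2]
    rw [h2]
    exact K.h_mem j t ht

end Cfsg.Agent.MulTw
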