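import Cfsg.Agent.MulTw.Fld3
import Cfsg.Agent.Mult.Cext
import Cfsg.Agent.ChevGrp.RGrp

set_option autoImplicit false

/-!
Central extensions of the unipotent group of type triality D4.
-/

namespace Cfsg.Agent.MulTw

open Subgroup Cfsg.Agent.Mult Cfsg.Agent.Tw3
open scoped commutatorElement

variable {K : Type*} [Field K] [Fintype K] {q : ℕ} {φ : K ≃+* K} (Q : Cub q φ)
variable {Γ G : Type*} [Group Γ] [Group G] {σ : Γ →* G} (C : CE σ)

/-- the trace -/
def Tr3 (φ : K ≃+* K) (t : K) : K := t + φ t + φ (φ t)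

omit [Fintype K] in
theorem Tr3_add (t u : K) : Tr3 φ (t + u) = Tr3 φ t + Tr3 φ u := by
  unfold Tr3; rw [map_add, map_add]; ring

include Q in
theorem Tr3_fix (t : K) : φ (Tr3 φ t) = Tr3 φ t := by
  unfold Tr3; rw [map_add, map_add, Q.h3]; ring

/-- the bilinear map -/
def th3 (φ : K ≃+* K) (t u : K) : K := φ t * φ (φ u) + φ (φ t) * φ u

include Q in
/-- (F5) -/
theorem F5 {A : Type*} [Group A] {g : K → A} (h : ∀ t u, g (t + u) = g t * g u) (hc : ∀ t u, g t * g u = g u * g t)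
    (hJ : ∀ t t' u, g (t' * th3 φ t u) = g (t * th3 φ t' u)) {w : K} (hw : Tr3 φ w = 0) : g w = 1 := by
  have h0 : g 0 = 1 := by
    have := h 0 0
    rw [add_zero] at this
    exact mul_eq_left.1 this.symm
  have hneg : ∀ t, g (-t) = (g t)⁻¹ := fun t => by rw [eq_inv_iff_mul_eq_one, ← h, neg_add_cancel, h0]
  -- an element not fixed
  have hx : ∃ x : K, φ x ≠ x := by
    by_contra hcon
    push Not at hcon
    obtain ⟨μ, hμ, hμ1⟩ := exists_nOne Q
    have h1 := card_fix (K := K) Q.two_le Q.hK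
    have h2 : Nat.card {c : K // c ^ q = c} = Nat.card K :=
      Nat.card_congr (Equiv.subtypeUnivEquiv fun c => by rw [← Q.hφ, hcon c])
    rw [h1, Nat.card_eq_fintype_card, Q.hK] at h2
    have h3 := Q.two_le
    have : q < q ^ 3 := by
      have : q ^ 3 = q * (q * q) := by ring
      rw [this]; nlinarith
    omega
  obtain ⟨t, ht⟩ := hx
  have hs : φ t - t ≠ 0 := sub_ne_zero.2 ht
  have h2 : ∀ w, g (φ (φ w)) = g w := by
    intro w
    -- `w = φ² u * s`
    obtain ⟨u, hu⟩ : ∃ u, φ (φ u) * (φ t - t) = w := by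
      refine ⟨φ (w * (φ t - t)⁻¹), ?_⟩
      rw [Q.h3]; field_simp
    have h3 := hJ t 1 u
    unfold th3 at h3
    rw [map_one, map_one, one_mul, one_mul, one_mul] at h3
    rw [mul_add, h, h] at h3
    have h4 : g w = g (φ t * φ (φ u)) * (g (t * φ (φ u)))⁻¹ := by
      rw [← hneg, ← h, ← hu]; congr 1; ring
    have h5 : g (φ (φ w)) = g (t * φ u) * (g (φ (φ t) * φ u))⁻¹ := by
      rw [← hneg, ← h, ← hu]
      congr 1
      simp only [map_mul, map_sub, Q.h3]; ring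
    rw [h4, h5, ← hneg, ← hneg, ← h, ← h]
    rw [← h, ← h] at h3
    have e : t * φ u + -(φ (φ t) * φ u) = (φ t * φ (φ u) + -(t * φ (φ u))) +
      -(φ t * φ (φ u) + φ (φ t) * φ u + -(t * (φ (φ u) + φ u))) := by ring
    have e2 : g (φ t * φ (φ u) + φ (φ t) * φ u + -(t * (φ (φ u) + φ u))) = 1 := by
      rw [h, h3, ← mul_add, ← h, add_neg_cancel, h0]
    rw [e, h, hneg (φ t * φ (φ u) + φ (φ t) * φ u + -(t * (φ (φ u) + φ u))), e2, inv_one, mul_one]
  have h3 : ∀ w, g (φ w) = g w := by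
    intro w
    have := h2 (φ (φ w))
    rw [Q.h3, h2] at this
    exact this
  obtain ⟨z, rfl⟩ := F4 Q hw
  rw [sub_eq_add_neg, h, hneg, h3, mul_inv_cancel]

/-- short root groups: `χ` is the identity or the inversion -/
structure SR (φ : K ≃+* K) (h : Kˣ →* G) (x : K → G) (χ : Kˣ →* Kˣ) : Prop where
  add : ∀ t u, x (t + u) = x t * x u
  act : ∀ μ, NOne φ μ → ∀ t, h μ * x t * (h μ)⁻¹ = x (χ μ * t)
  hχ : (∀ μ, χ μ = μ) ∨ (∀ μ, χ μ = μ⁻¹)

section sr

variable {h : Kˣ →* G} {x : K → G} {χ : Kˣ →* Kˣ} (S : SR φ h x χ)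

include S

omit [Fintype K] in
theorem SR.zero : x 0 = 1 := by
  have := S.add 0 0
  rw [add_zero] at this
  exact mul_eq_left.1 this.symm

omit [Fintype K] in
theorem SR.neg (t : K) : x (-t) = (x t)⁻¹ := by
  rw [eq_inv_iff_mul_eq_one, ← S.add, neg_add_cancel, S.zero]

omit [Fintype K] in
theorem SR.comm (t u : K) : x t * x u = x u * x t := by
  rw [← S.add, add_comm, S.add]

include Q in
/-- lifts of elements of a short root group commute -/
theorem SR.tr (t u : K) : C.Tr (x t) (x u) := by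
  have hcen : ∀ t u, C.cm (x t) (x u) ∈ center Γ := fun t u => C.cm_mem_center (by
    rw [commutatorElement_eq_one_iff_mul_comm, S.comm])
  have hb : BiAdd (fun t u => C.cm (x t) (x u)) := by
    constructor
    · intro t t' u
      rw [S.add, C.cm_mul_left, C.cj_center _ (hcen t' u)]
      exact mem_center_iff.1 (hcen t u) _
    · intro t u u'
      rw [S.add, C.cm_mul_right, C.cj_center _ (hcen t u')]
  have hinv : ∀ μ, NOne φ μ → ∀ t u, C.cm (x (χ μ * t)) (x (χ μ * u)) = C.cm (x t) (x u) := by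
    intro μ hμ t u
    rw [← S.act μ hμ, ← S.act μ hμ, ← C.cj_cm, C.cj_center _ (hcen t u)]
  refine F1 Q hb (fun μ hμ t u => ?_) t u
  rcases S.hχ with h1 | h1
  · have := hinv μ hμ t u
    rw [h1] at this
    exact this
  · have := hinv μ⁻¹ hμ.inv t u
    rw [h1, inv_inv] at this
    exact this

include Q in
/-- elements commuting with a short root group and the torus -/
theorem SR.tr_long {y : G} (hy : ∀ μ, NOne φ μ → h μ * y = y * h μ) (hxy : ∀ t, x t * y = y * x t) (t : K) :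
    C.Tr (x t) y := by
  have hcen : ∀ t, C.cm (x t) y ∈ center Γ := fun t => C.cm_mem_center (by
    rw [commutatorElement_eq_one_iff_mul_comm, hxy])
  have hadd : ∀ t t', C.cm (x (t + t')) y = C.cm (x t) y * C.cm (x t') y := by
    intro t t'
    rw [S.add, C.cm_mul_left, C.cj_center _ (hcen t')]
    exact mem_center_iff.1 (hcen t) _
  have hinv : ∀ μ, NOne φ μ → ∀ t, C.cm (x (χ μ * t)) y = C.cm (x t) y := by
    intro μ hμ t
    have h1 : h μ * y * (h μ)⁻¹ = y := by rw [hy μ hμ, mul_inv_cancel_right]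
    rw [← S.act μ hμ]
    nth_rewrite 1 [← h1]
    rw [← C.cj_cm, C.cj_center _ (hcen t)]
  refine F3 Q (g := fun t => C.cm (x t) y) hadd (fun μ hμ t => ?_) t
  rcases S.hχ with h1 | h1
  · have := hinv μ hμ t
    rw [h1] at this
    exact this
  · have := hinv μ⁻¹ hμ.inv t
    rw [h1, inv_inv] at this
    exact this

variable {τ : Kˣ} (hτ : NOne φ τ) (hτ1 : (τ : K) ≠ 1)

omit [Fintype K] S in
/-- the lift of a short root element -/
noncomputable def xh (C : CE σ) (h : Kˣ →* G) (x : K → G) (χ : Kˣ →* Kˣ) (τ : Kˣ) (u : K) : Γ :=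
  C.cm (h τ) (x ((((χ τ : Kˣ) : K) - 1)⁻¹ * u))

include hτ1 in
omit [Fintype K] in
theorem SR.ne : ((χ τ : Kˣ) : K) - 1 ≠ 0 := by
  rcases S.hχ with h1 | h1
  · rw [h1]; exact sub_ne_zero.2 hτ1
  · rw [h1, Units.val_inv_eq_inv_val]
    refine sub_ne_zero.2 fun h2 => hτ1 ?_
    exact inv_eq_one.1 h2

include hτ hτ1 in
omit [Fintype K] in
theorem SR.σ_xh (u : K) : σ (xh C h x χ τ u) = x u := by
  unfold xh
  rw [C.σ_cm, commutatorElement_def, S.act τ hτ, ← S.neg, ← S.add]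
  congr 1
  have := S.ne hτ1
  field_simp
  ring

omit [Fintype K] S in
theorem SR.cj_xh {g : G} {c : K} (hg : g * h τ = h τ * g) (hgx : ∀ t, g * x t * g⁻¹ = x (c * t)) (u : K) :
    C.cj g (xh C h x χ τ u) = xh C h x χ τ (c * u) := by
  unfold xh
  rw [C.cj_cm, hg, mul_inv_cancel_right, hgx]
  congr 2
  ring

omit [Fintype K] in
theorem SR.cj_xh' {μ : Kˣ} (hμ : NOne φ μ) (u : K) :
    C.cj (h μ) (xh C h x χ τ u) = xh C h x χ τ (χ μ * u) :=
  SR.cj_xh C (by rw [← map_mul, mul_comm, map_mul]) (fun t => S.act μ hμ t) u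

include Q hτ hτ1 in
theorem SR.xh_add (t u : K) : xh C h x χ τ (t + u) = xh C h x χ τ t * xh C h x χ τ u := by
  have h1 : xh C h x χ τ (t + u) = C.cm (h τ) (x ((((χ τ : Kˣ) : K) - 1)⁻¹ * t) * x ((((χ τ : Kˣ) : K) - 1)⁻¹ * u)) := by
    unfold xh
    rw [mul_add, S.add]
  rw [h1, C.cm_mul_right]
  have h2 := (S.tr Q C ((((χ τ : Kˣ) : K) - 1)⁻¹ * t) u).fix (S.σ_xh C hτ hτ1 u)
  exact congrArg (fun z => xh C h x χ τ t * z) h2

end sr

/-- the Jacobi identity -/
theorem jacobi {a a' b : G} (h1 : C.Tr a a') (h2 : C.Tr ⁅a, b⁆ ⁅a', b⁆) : C.cm a ⁅a', b⁆ = C.cm a' ⁅a, b⁆ := by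
  have e1 : C.cm (a * a') b = C.cm a ⁅a', b⁆ * C.cm a' b * C.cm a b := by
    rw [C.cm_mul_left, C.cm_eq_cj (C.σ_cm a' b)]
    group
  have e2 : C.cm (a' * a) b = C.cm a' ⁅a, b⁆ * C.cm a b * C.cm a' b := by
    rw [C.cm_mul_left, C.cm_eq_cj (C.σ_cm a b)]
    group
  have e3 : C.cm a b * C.cm a' b = C.cm a' b * C.cm a b := (C.tr_iff' (C.σ_cm a b) (C.σ_cm a' b)).1 h2
  rw [h1.comm, e2, mul_assoc, mul_assoc, e3] at e1
  exact (mul_right_cancel e1).symm

end Cfsg.Agent.MulTw
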