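import Cfsg.Agent.MulTw.T4b

set_option autoImplicit false

/-!
Central extensions of the unipotent group of type triality D4: the complement.
-/

namespace Cfsg.Agent.MulTw

open Subgroup Cfsg.Agent.Mult Cfsg.Agent.Tw3
open scoped commutatorElement

/-- the range of an additive family -/
def rngK {K Γ : Type*} [AddGroup K] [Group Γ] (f : K → Γ) (h : ∀ t u, f (t + u) = f t * f u) : Subgroup Γ where
  carrier := Set.range f
  mul_mem' := by
    rintro _ _ ⟨t, rfl⟩ ⟨u, rfl⟩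
    exact ⟨t + u, h t u⟩
  one_mem' := ⟨0, by
    have := h 0 0
    rw [add_zero] at this
    exact mul_eq_left.1 this.symm⟩
  inv_mem' := by
    rintro _ ⟨t, rfl⟩
    refine ⟨-t, ?_⟩
    have h0 : f 0 = 1 := by
      have := h 0 0
      rw [add_zero] at this
      exact mul_eq_left.1 this.symm
    rw [eq_inv_iff_mul_eq_one, ← h, neg_add_cancel, h0]

theorem mem_rngK {K Γ : Type*} [AddGroup K] [Group Γ] {f : K → Γ} {h : ∀ t u, f (t + u) = f t * f u} {g : Γ} :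
    g ∈ rngK f h ↔ ∃ t, f t = g := Iff.rfl

theorem card_rngK_le {K Γ : Type*} [AddGroup K] [Group Γ] [Finite K] (f : K → Γ) (h : ∀ t u, f (t + u) = f t * f u) :
    Nat.card (rngK f h) ≤ Nat.card K := by
  refine Nat.card_le_card_of_surjective (fun t : K => (⟨f t, ⟨t, rfl⟩⟩ : rngK f h)) ?_
  rintro ⟨_, ⟨t, rfl⟩⟩
  exact ⟨t, rfl⟩

theorem card_sup_le {Γ : Type*} [Group Γ] [Finite Γ] {A B : Subgroup Γ} (h : ∀ a ∈ A, ∀ b ∈ B, a * b * a⁻¹ ∈ B) :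
    Nat.card ↥(A ⊔ B) ≤ Nat.card A * Nat.card B := by
  rw [← Nat.card_prod]
  refine Nat.card_le_card_of_surjective (fun p : A × B => (⟨(p.1 : Γ) * p.2, mul_mem_sup p.1.2 p.2.2⟩ : ↥(A ⊔ B))) ?_
  rintro ⟨x, hx⟩
  obtain ⟨a, ha, b, hb, rfl⟩ := Cfsg.Agent.ChevGrp.mem_sup_of_normalizes h hx
  exact ⟨(⟨a, ha⟩, ⟨b, hb⟩), rfl⟩

variable {K : Type*} [Field K] {φ : K ≃+* K} {Γ G : Type*} [Group Γ] [Group G]

namespace T4

variable [Fintype K] {q : ℕ} (Q : Cub q φ) {σ : Γ →* G} (C : CE σ) (D : T4 φ G)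
  (hcop : (Nat.card σ.ker).Coprime (q ^ 2 + q + 1)) {τ : Kˣ} (hτ : NOne φ τ) (hτ1 : (τ : K) ≠ 1)

/-- lifts -/
noncomputable def z0 (D : T4 φ G) (C : CE σ) (τ : Kˣ) (u : K) : Γ := xh C D.h D.x0 (MonoidHom.id _) τ u
/-- lifts -/
noncomputable def z1 (D : T4 φ G) (C : CE σ) (τ : Kˣ) (u : K) : Γ := xh C D.h D.x1 (MonoidHom.id _) τ u
/-- lifts -/
noncomputable def z2 (D : T4 φ G) (C : CE σ) (τ : Kˣ) (u : K) : Γ := xh C D.h D.x2 invMonoidHom τ u

include hτ hτ1 in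
omit [Fintype K] in
theorem σ_z0 (u : K) : σ (D.z0 C τ u) = D.x0 u := D.s0.σ_xh C hτ hτ1 u
include hτ hτ1 in
omit [Fintype K] in
theorem σ_z1 (u : K) : σ (D.z1 C τ u) = D.x1 u := D.s1.σ_xh C hτ hτ1 u
include hτ hτ1 in
omit [Fintype K] in
theorem σ_z2 (u : K) : σ (D.z2 C τ u) = D.x2 u := D.s2.σ_xh C hτ hτ1 u

section

include Q hτ hτ1

theorem z0_add (t u : K) : D.z0 C τ (t + u) = D.z0 C τ t * D.z0 C τ u := D.s0.xh_add Q C hτ hτ1 t u
theorem z1_add (t u : K) : D.z1 C τ (t + u) = D.z1 C τ t * D.z1 C τ u := D.s1.xh_add Q C hτ hτ1 t u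
theorem z2_add (t u : K) : D.z2 C τ (t + u) = D.z2 C τ t * D.z2 C τ u := D.s2.xh_add Q C hτ hτ1 t u

end

/-- the lift of the first short root group -/
noncomputable def Z0 : Subgroup Γ := rngK (D.z0 C τ) (D.z0_add Q C hτ hτ1)
/-- the lift of the second short root group -/
noncomputable def Z1 : Subgroup Γ := rngK (D.z1 C τ) (D.z1_add Q C hτ hτ1)
/-- the lift of the third short root group -/
noncomputable def Z2 : Subgroup Γ := rngK (D.z2 C τ) (D.z2_add Q C hτ hτ1)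
/-- the lift of the long root group -/
noncomputable def G1 : Subgroup Γ := rngK (D.g1 C) (D.g1_add Q C)
/-- the lift of the long root group -/
noncomputable def G2 : Subgroup Γ := rngK (D.g2 C) (D.g2_add Q C)
/-- the lift of the product of the long root groups -/
noncomputable def K3 : Subgroup Γ := D.G1 Q C ⊔ D.G2 Q C

theorem g1_mem (t : K) : D.g1 C t ∈ D.K3 Q C := mem_sup_left ⟨t, rfl⟩
theorem g2_mem (t : K) : D.g2 C t ∈ D.K3 Q C := mem_sup_right ⟨t, rfl⟩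

theorem mem_K3 {k : Γ} (hk : k ∈ D.K3 Q C) : ∃ a b, k = D.g1 C a * D.g2 C b := by
  unfold K3 at hk
  obtain ⟨x, ⟨a, rfl⟩, y, ⟨b, rfl⟩, rfl⟩ := Cfsg.Agent.ChevGrp.mem_sup_of_normalizes (A := D.G1 Q C) (C := D.G2 Q C) (by
    rintro _ ⟨a, rfl⟩ _ ⟨b, rfl⟩
    rw [D.g12_comm Q C, mul_inv_cancel_right]
    exact ⟨b, rfl⟩) hk
  exact ⟨a, b, rfl⟩

/-- elements trivially paired with the long root groups centralize `K3` -/
theorem comm_K3 {g : Γ} (h0 : ∀ v, φ v = v → C.Tr (σ g) (D.y0 v)) (h1 : ∀ v, φ v = v → C.Tr (σ g) (D.y1 v))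
    {k : Γ} (hk : k ∈ D.K3 Q C) : g * k = k * g := by
  obtain ⟨a, b, rfl⟩ := D.mem_K3 Q C hk
  have e1 : Commute g (D.g1 C a) := (C.tr_iff' rfl (D.σ_g1 C a)).1 (h0 _ (Tr3_fix Q a))
  have e2 : Commute g (D.g2 C b) := (C.tr_iff' rfl (D.σ_g2 C b)).1 (h1 _ (Tr3_fix Q b))
  exact e1.mul_right e2

include hcop in
theorem K3_ker {k : Γ} (hk : k ∈ D.K3 Q C) (h : σ k = 1) : k = 1 := by
  obtain ⟨a, b, rfl⟩ := D.mem_K3 Q C hk
  rw [map_mul, D.σ_g1, D.σ_g2] at h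
  obtain ⟨h1, h2⟩ := D.inj _ _ (Tr3_fix Q a) (Tr3_fix Q b) h
  rw [D.g1_one Q C hcop h1, D.g2_one Q C hcop h2, one_mul]

include hτ hτ1

theorem z0_K3 (t : K) {k : Γ} (hk : k ∈ D.K3 Q C) : D.z0 C τ t * k = k * D.z0 C τ t :=
  D.comm_K3 Q C (fun v hv => by rw [D.σ_z0 C hτ hτ1]; exact D.t00 Q C t hv)
      (fun v hv => by rw [D.σ_z0 C hτ hτ1]; exact D.t01 Q C t hv) hk

theorem z1_K3 (t : K) {k : Γ} (hk : k ∈ D.K3 Q C) : D.z1 C τ t * k = k * D.z1 C τ t :=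
  D.comm_K3 Q C (fun v hv => by rw [D.σ_z1 C hτ hτ1]; exact D.t10 Q C t hv)
      (fun v hv => by rw [D.σ_z1 C hτ hτ1]; exact D.t11 Q C t hv) hk

theorem z2_K3 (t : K) {k : Γ} (hk : k ∈ D.K3 Q C) : D.z2 C τ t * k = k * D.z2 C τ t :=
  D.comm_K3 Q C (fun v hv => by rw [D.σ_z2 C hτ hτ1]; exact D.t20 Q C t hv)
      (fun v hv => by rw [D.σ_z2 C hτ hτ1]; exact D.t21 Q C t hv) hk

omit [Fintype K] in
theorem cj_z0 {μ : Kˣ} (hμ : NOne φ μ) (u : K) : C.cj (D.h μ) (D.z0 C τ u) = D.z0 C τ (μ * u) :=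
  D.s0.cj_xh' C hμ u
omit [Fintype K] in
theorem cj_z1 {μ : Kˣ} (hμ : NOne φ μ) (u : K) : C.cj (D.h μ) (D.z1 C τ u) = D.z1 C τ (μ * u) :=
  D.s1.cj_xh' C hμ u
omit [Fintype K] in
theorem cj_z2 {μ : Kˣ} (hμ : NOne φ μ) (u : K) : C.cj (D.h μ) (D.z2 C τ u) = D.z2 C τ ((μ : K)⁻¹ * u) := by
  have := D.s2.cj_xh' C (τ := τ) hμ u
  rw [← Units.val_inv_eq_inv_val]
  exact this

include hcop

include Q in
theorem z0_z2 (t u : K) : D.z0 C τ t * D.z2 C τ u * (D.z0 C τ t)⁻¹ = D.g1 C (t * u) * D.z2 C τ u := by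
  rw [← D.cm02 Q C hcop, C.cm_eq_cj (D.σ_z2 C hτ hτ1 u), C.cj_apply (D.σ_z0 C hτ hτ1 t), inv_mul_cancel_right]

include Q in
theorem z1_z2 (t u : K) : D.z1 C τ t * D.z2 C τ u * (D.z1 C τ t)⁻¹ = D.g2 C (t * u) * D.z2 C τ u := by
  rw [← D.cm12 Q C hcop, C.cm_eq_cj (D.σ_z2 C hτ hτ1 u), C.cj_apply (D.σ_z1 C hτ hτ1 t), inv_mul_cancel_right]

/-- the torus centralizes `K3` -/
theorem cj_K3 {μ : Kˣ} (hμ : NOne φ μ) {k : Γ} (hk : k ∈ D.K3 Q C) : C.cj (D.h μ) k = k := by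
  obtain ⟨a, b, rfl⟩ := D.mem_K3 Q C hk
  rw [map_mul, (D.tr_h C hcop (fun ν hν => D.hy0 Q hν (Tr3_fix Q a)) Q.hφ hμ).fix (D.σ_g1 C a),
    (D.tr_h C hcop (fun ν hν => D.hy1 Q hν (Tr3_fix Q b)) Q.hφ hμ).fix (D.σ_g2 C b)]

/-- the commutators of the first two groups, up to the center -/
theorem exists_z (t u : K) : ∃ z, σ z = 1 ∧ ∃ k ∈ D.K3 Q C, C.cm (D.x0 t) (D.x1 u) = D.z2 C τ (th3 φ t u) * k * z := by
  obtain ⟨v, w, hv, hw, e⟩ := D.c01 t u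
  obtain ⟨a, ha⟩ := exists_tr Q hv
  obtain ⟨b, hb⟩ := exists_tr Q hw
  refine ⟨(D.z2 C τ (th3 φ t u) * (D.g1 C a * D.g2 C b))⁻¹ * C.cm (D.x0 t) (D.x1 u), ?_, D.g1 C a * D.g2 C b,
    mul_mem (D.g1_mem Q C a) (D.g2_mem Q C b), by group⟩
  rw [map_mul, map_inv, map_mul, map_mul, D.σ_z2 C hτ hτ1, D.σ_g1, D.σ_g2, C.σ_cm, e, ha, hb, inv_mul_cancel]

theorem z_unique {t u : K} {z z' k k' : Γ} (hz : σ z = 1) (hz' : σ z' = 1) (hk : k ∈ D.K3 Q C) (hk' : k' ∈ D.K3 Q C)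
    (h : D.z2 C τ (th3 φ t u) * k * z = D.z2 C τ (th3 φ t u) * k' * z') : z = z' := by
  have h1 : k'⁻¹ * k = z' * z⁻¹ := by
    have h2 : (D.z2 C τ (th3 φ t u) * k')⁻¹ * (D.z2 C τ (th3 φ t u) * k * z) * z⁻¹ =
      (D.z2 C τ (th3 φ t u) * k')⁻¹ * (D.z2 C τ (th3 φ t u) * k' * z') * z⁻¹ := by rw [h]
    have h3 : (D.z2 C τ (th3 φ t u) * k')⁻¹ * (D.z2 C τ (th3 φ t u) * k * z) * z⁻¹ = k'⁻¹ * k := by group
    have h4 : (D.z2 C τ (th3 φ t u) * k')⁻¹ * (D.z2 C τ (th3 φ t u) * k' * z') * z⁻¹ = z' * z⁻¹ := by group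
    rw [← h3, h2, h4]
  have h5 := D.K3_ker Q C hcop (mul_mem (inv_mem hk') hk) (by rw [h1, map_mul, map_inv, hz, hz', inv_one, mul_one])
  rw [h1, mul_inv_eq_one] at h5
  exact h5.symm

omit [Fintype K] hcop in
theorem th3_act {μ : Kˣ} (hμ : NOne φ μ) (t u : K) : th3 φ (μ * t) (μ * u) = (μ : K)⁻¹ * th3 φ t u := by
  have h1 : (μ : K) * φ μ * φ (φ μ) = 1 := hμ
  rw [eq_inv_mul_iff_mul_eq₀ μ.ne_zero]
  unfold th3
  simp only [map_mul]
  linear_combination (φ t * φ (φ u) + φ (φ t) * φ u) * h1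

omit [Fintype K] hcop hτ hτ1 in
theorem th3_add_left (t t' u : K) : th3 φ (t + t') u = th3 φ t u + th3 φ t' u := by
  unfold th3; rw [map_add, map_add]; ring

omit [Fintype K] hcop hτ hτ1 in
theorem th3_add_right (t u u' : K) : th3 φ t (u + u') = th3 φ t u + th3 φ t u' := by
  unfold th3; rw [map_add, map_add]; ring

/-- the commutators of the first two groups -/
theorem cm01 (t u : K) : ∃ k ∈ D.K3 Q C, C.cm (D.x0 t) (D.x1 u) = D.z2 C τ (th3 φ t u) * k := by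
  choose z hz k hk hzk using fun t u => D.exists_z Q C hcop hτ hτ1 t u
  have hzc : ∀ t u g, z t u * g = g * z t u := fun t u g => (mem_center_iff.1 (C.central (hz t u)) g).symm
  have z2K : ∀ (a : K) {k : Γ}, k ∈ D.K3 Q C → D.z2 C τ a * k = k * D.z2 C τ a := fun a k hk => D.z2_K3 Q C hτ hτ1 a hk
  have hb : BiAdd z := by
    constructor
    · intro t t' u
      symm
      apply D.z_unique Q C hcop hτ hτ1 (t := t + t') (u := u) (k := D.g1 C (t * th3 φ t' u) * k t' u * k t u) (k' := k (t + t') u)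
        (by rw [map_mul, hz, hz, one_mul]) (hz _ _)
        (mul_mem (mul_mem (D.g1_mem Q C _) (hk _ _)) (hk _ _)) (hk _ _)
      rw [← hzk (t + t') u, D.s0.add, C.cm_mul_left, hzk t' u, hzk t u, map_mul, map_mul,
        C.cj_center _ (C.central (hz t' u))]
      have e1 : C.cj (D.x0 t) (D.z2 C τ (th3 φ t' u)) = D.g1 C (t * th3 φ t' u) * D.z2 C τ (th3 φ t' u) := by
        rw [C.cj_apply (D.σ_z0 C hτ hτ1 t), D.z0_z2 Q C hcop hτ hτ1]
      have e2 : C.cj (D.x0 t) (k t' u) = k t' u := by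
        rw [C.cj_apply (D.σ_z0 C hτ hτ1 t), D.z0_K3 Q C hτ hτ1 t (hk _ _), mul_inv_cancel_right]
      rw [e1, e2, th3_add_left, D.z2_add Q C hτ hτ1]
      have f1 := z2K (th3 φ t u) (hk t' u)
      have f2 := z2K (th3 φ t' u) (D.g1_mem Q C (t * th3 φ t' u))
      have f3 := z2K (th3 φ t u) (D.g1_mem Q C (t * th3 φ t' u))
      have f4 : D.z2 C τ (th3 φ t u) * D.z2 C τ (th3 φ t' u) = D.z2 C τ (th3 φ t' u) * D.z2 C τ (th3 φ t u) := by
        rw [← D.z2_add Q C hτ hτ1, add_comm, D.z2_add Q C hτ hτ1]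
      calc D.z2 C τ (th3 φ t u) * D.z2 C τ (th3 φ t' u) * (D.g1 C (t * th3 φ t' u) * k t' u * k t u) * (z t u * z t' u)
          = D.z2 C τ (th3 φ t' u) * D.z2 C τ (th3 φ t u) * (D.g1 C (t * th3 φ t' u) * k t' u * k t u) * (z t' u * z t u) := by
            rw [f4, hzc t u (z t' u)]
        _ = D.z2 C τ (th3 φ t' u) * (D.z2 C τ (th3 φ t u) * D.g1 C (t * th3 φ t' u)) * k t' u * k t u * z t' u * z t u := by group
        _ = (D.z2 C τ (th3 φ t' u) * D.g1 C (t * th3 φ t' u)) * (D.z2 C τ (th3 φ t u) * k t' u) * (k t u * z t' u) * z t u := by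
            rw [f3]; group
        _ = (D.g1 C (t * th3 φ t' u) * D.z2 C τ (th3 φ t' u)) * (k t' u * D.z2 C τ (th3 φ t u)) * (z t' u * k t u) * z t u := by
            rw [f2, f1, hzc t' u (k t u)]
        _ = D.g1 C (t * th3 φ t' u) * D.z2 C τ (th3 φ t' u) * k t' u * (D.z2 C τ (th3 φ t u) * z t' u) * k t u * z t u := by group
        _ = D.g1 C (t * th3 φ t' u) * D.z2 C τ (th3 φ t' u) * k t' u * (z t' u * D.z2 C τ (th3 φ t u)) * k t u * z t u := by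
            rw [hzc t' u (D.z2 C τ (th3 φ t u))]
        _ = _ := by group
    · intro t u u'
      symm
      apply D.z_unique Q C hcop hτ hτ1 (t := t) (u := u + u') (k := D.g2 C (u * th3 φ t u') * k t u * k t u') (k' := k t (u + u'))
        (by rw [map_mul, hz, hz, one_mul]) (hz _ _)
        (mul_mem (mul_mem (D.g2_mem Q C _) (hk _ _)) (hk _ _)) (hk _ _)
      rw [← hzk t (u + u'), D.s1.add, C.cm_mul_right, hzk t u', hzk t u, map_mul, map_mul,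
        C.cj_center _ (C.central (hz t u'))]
      have e1 : C.cj (D.x1 u) (D.z2 C τ (th3 φ t u')) = D.g2 C (u * th3 φ t u') * D.z2 C τ (th3 φ t u') := by
        rw [C.cj_apply (D.σ_z1 C hτ hτ1 u), D.z1_z2 Q C hcop hτ hτ1]
      have e2 : C.cj (D.x1 u) (k t u') = k t u' := by
        rw [C.cj_apply (D.σ_z1 C hτ hτ1 u), D.z1_K3 Q C hτ hτ1 u (hk _ _), mul_inv_cancel_right]
      rw [e1, e2, th3_add_right, D.z2_add Q C hτ hτ1]
      have f1 := z2K (th3 φ t u') (hk t u)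
      have f2 := z2K (th3 φ t u) (D.g2_mem Q C (u * th3 φ t u'))
      have f3 := z2K (th3 φ t u') (D.g2_mem Q C (u * th3 φ t u'))
      have f5 : k t u * D.g2 C (u * th3 φ t u') = D.g2 C (u * th3 φ t u') * k t u := by
        obtain ⟨a, b, hab⟩ := D.mem_K3 Q C (hk t u)
        rw [hab, mul_assoc, D.g2_comm Q C b, ← mul_assoc, D.g12_comm Q C a, mul_assoc]
      calc D.z2 C τ (th3 φ t u) * D.z2 C τ (th3 φ t u') * (D.g2 C (u * th3 φ t u') * k t u * k t u') * (z t u * z t u')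
          = D.z2 C τ (th3 φ t u) * (D.z2 C τ (th3 φ t u') * D.g2 C (u * th3 φ t u')) * k t u * k t u' * z t u * z t u' := by group
        _ = D.z2 C τ (th3 φ t u) * D.g2 C (u * th3 φ t u') * (D.z2 C τ (th3 φ t u') * k t u) * (k t u' * z t u) * z t u' := by
            rw [f3]; group
        _ = D.z2 C τ (th3 φ t u) * (D.g2 C (u * th3 φ t u') * k t u) * D.z2 C τ (th3 φ t u') * (z t u * k t u') * z t u' := by
            rw [f1, hzc t u (k t u')]; group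
        _ = D.z2 C τ (th3 φ t u) * (k t u * D.g2 C (u * th3 φ t u')) * (D.z2 C τ (th3 φ t u') * z t u) * k t u' * z t u' := by
            rw [← f5]; group
        _ = D.z2 C τ (th3 φ t u) * (k t u * D.g2 C (u * th3 φ t u')) * (z t u * D.z2 C τ (th3 φ t u')) * k t u' * z t u' := by
            rw [hzc t u (D.z2 C τ (th3 φ t u'))]
        _ = D.z2 C τ (th3 φ t u) * k t u * (D.g2 C (u * th3 φ t u') * z t u) * D.z2 C τ (th3 φ t u') * k t u' * z t u' := by group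
        _ = D.z2 C τ (th3 φ t u) * k t u * (z t u * D.g2 C (u * th3 φ t u')) * D.z2 C τ (th3 φ t u') * k t u' * z t u' := by
            rw [hzc t u (D.g2 C (u * th3 φ t u'))]
        _ = _ := by group
  have hinv : ∀ μ : Kˣ, NOne φ μ → ∀ t u, z (μ * t) (μ * u) = z t u := by
    intro μ hμ t u
    symm
    apply D.z_unique Q C hcop hτ hτ1 (t := μ * t) (u := μ * u) (hz _ _) (hz _ _) (hk t u) (hk _ _)
    rw [← hzk (μ * t) (μ * u)]
    have e1 : C.cj (D.h μ) (C.cm (D.x0 t) (D.x1 u)) = C.cm (D.x0 (μ * t)) (D.x1 (μ * u)) := by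
      rw [C.cj_cm, D.s0.act μ hμ, D.s1.act μ hμ]; rfl
    rw [← e1, hzk t u, map_mul, map_mul, C.cj_center _ (C.central (hz t u)), D.cj_K3 Q C hcop hτ hτ1 hμ (hk t u),
      D.cj_z2 C hτ hτ1 hμ, th3_act hτ hτ1 hμ]
  refine ⟨k t u, hk t u, ?_⟩
  rw [hzk, F1 Q hb hinv t u, mul_one]

end T4

end Cfsg.Agent.MulTw
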